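import Cfsg.Prelude.Def_GeometricClasses
import Cfsg.Agent.SLThree90.Basic

/-!
The standard form of an absolutely irreducible extraspecial group of order `27` in three
dimensions, and the two elements of order four normalising the standard group.
-/

set_option autoImplicit false

namespace CfsgLib.SUThree90.C6

open Matrix CfsgLib.SLThree90

variable {F : Type*} [Field F]

local notation "Mat3" => Matrix (Fin 3) (Fin 3) F
local notation "GL3" => GL (Fin 3) F

/-- `1 + ω + ω² = 0`. -/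
lemma root_sum {ω : F} (hω : IsPrimitiveRoot ω 3) : 1 + ω + ω ^ 2 = 0 := by
  simpa [Finset.sum_range_succ] using hω.geom_sum_eq_zero (by norm_num)

lemma root_sub_ne_zero {ω : F} (hω : IsPrimitiveRoot ω 3) : ω - ω ^ 2 ≠ 0 := by
  intro h
  have h1 := hω.ne_one (by norm_num)
  have h0 := hω.ne_zero (by norm_num)
  rcases mul_eq_zero.1 (show ω * (1 - ω) = 0 by linear_combination h) with h' | h'
  · exact h0 h'
  · exact h1 (sub_eq_zero.1 h').symm

lemma det_xMat {ω : F} (hω : IsPrimitiveRoot ω 3) : (xMat ω).det = 1 := by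
  rw [xMat, det_fin_three]
  simp
  linear_combination hω.pow_eq_one

lemma det_yMat : (yMat : Mat3).det = 1 := by
  rw [yMat, det_fin_three]
  simp

lemma det_aMat {ω : F} (hω : IsPrimitiveRoot ω 3) : (aMat ω).det = 1 := by
  rw [aMat, det_smul, Fintype.card_fin, det_fin_three, inv_pow,
    inv_mul_eq_one₀ (pow_ne_zero 3 (root_sub_ne_zero hω))]
  simp
  linear_combination (-ω ^ 4 + 4 * ω ^ 3 - 5 * ω ^ 2 + 2 * ω) * root_sum hω

lemma det_bMat {ω : F} (hω : IsPrimitiveRoot ω 3) : (bMat ω).det = 1 := by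
  rw [bMat, det_smul, Fintype.card_fin, det_fin_three, inv_pow,
    inv_mul_eq_one₀ (pow_ne_zero 3 (root_sub_ne_zero hω))]
  simp
  linear_combination (-ω ^ 2 * (ω - 1) ^ 2) * root_sum hω

lemma aMat_x {ω : F} (hω : IsPrimitiveRoot ω 3) : aMat ω * xMat ω = yMat ^ 2 * aMat ω := by
  have h := hω.pow_eq_one
  rw [aMat, xMat, yMat, Matrix.smul_mul, Matrix.mul_smul]
  congr 1
  ext i j
  fin_cases i <;> fin_cases j <;> simp [Matrix.mul_apply, Fin.sum_univ_three, pow_two] <;> grind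

lemma aMat_y {ω : F} (hω : IsPrimitiveRoot ω 3) : aMat ω * yMat = xMat ω * aMat ω := by
  have h := hω.pow_eq_one
  rw [aMat, xMat, yMat, Matrix.smul_mul, Matrix.mul_smul]
  congr 1
  ext i j
  fin_cases i <;> fin_cases j <;> simp [Matrix.mul_apply, Fin.sum_univ_three, pow_two] <;> grind

lemma bMat_x {ω : F} (hω : IsPrimitiveRoot ω 3) :
    bMat ω * xMat ω = ω ^ 2 • (xMat ω * yMat ^ 2) * bMat ω := by
  have h := hω.pow_eq_one
  rw [bMat, xMat, yMat, Matrix.smul_mul, Matrix.mul_smul]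
  congr 1
  ext i j
  fin_cases i <;> fin_cases j <;> simp [Matrix.mul_apply, Fin.sum_univ_three, pow_two] <;> grind

lemma bMat_y {ω : F} (hω : IsPrimitiveRoot ω 3) :
    bMat ω * yMat = ω • (xMat ω ^ 2 * yMat ^ 2) * bMat ω := by
  have h := hω.pow_eq_one
  rw [bMat, xMat, yMat, Matrix.smul_mul, Matrix.mul_smul]
  congr 1
  ext i j
  fin_cases i <;> fin_cases j <;> simp [Matrix.mul_apply, Fin.sum_univ_three, pow_two] <;> grind

/-- A matrix with determinant one as a unit. -/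
noncomputable def unitOf {A : Mat3} (h : A.det = 1) : GL3 :=
  Matrix.nonsingInvUnit A (by rw [h]; exact isUnit_one)

@[simp] lemma unitOf_val {A : Mat3} (h : A.det = 1) : (unitOf h : Mat3) = A := rfl

lemma sc3_val' (c : Fˣ) : ((sc3 c : GL3) : Mat3) = (c : F) • 1 := by
  rw [smul_one_eq_diagonal]
  rfl

lemma sc3_comm' (c : Fˣ) (g : GL3) : g * sc3 c = sc3 c * g := by
  refine Units.ext ?_
  rw [Units.val_mul, Units.val_mul, sc3_val', Matrix.smul_mul, Matrix.mul_smul, one_mul, mul_one]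

/-- A matrix commuting with `diag(1, ω, ω²)` and the cycle is scalar. -/
lemma eq_scalar_of_comm {ω : F} (hω : IsPrimitiveRoot ω 3) {A : Mat3} (hx : A * xMat ω = xMat ω * A)
    (hy : A * yMat = yMat * A) : A = A 0 0 • (1 : Mat3) := by
  have h1 : ω ≠ 1 := hω.ne_one (by norm_num)
  have h2 : ω ^ 2 ≠ 1 := fun h => by
    have := hω.dvd_of_pow_eq_one 2 h
    omega
  have h3 : ω ^ 2 ≠ ω := fun h => root_sub_ne_zero hω (by rw [h, sub_self])
  have e := fun i j => congrFun (congrFun hx i) j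
  have f := fun i j => congrFun (congrFun hy i) j
  simp [xMat, yMat, Matrix.mul_apply, Fin.sum_univ_three, Fin.forall_fin_succ] at e f
  have z01 : A 0 1 = 0 := by grind
  have z02 : A 0 2 = 0 := by grind
  have z10 : A 1 0 = 0 := by grind
  have z12 : A 1 2 = 0 := by grind
  have z20 : A 2 0 = 0 := by grind
  have z21 : A 2 1 = 0 := by grind
  ext i j
  fin_cases i <;> fin_cases j <;> simp [z01, z02, z10, z12, z20, z21] <;> grind

/-- The standard form of a group of order `27`: in the basis `P` it consists exactly of the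
`ω^k X^i Y^j`. -/
structure Std (R : Subgroup GL3) (ω : Fˣ) (P : GL3) : Prop where
  prim : IsPrimitiveRoot (ω : F) 3
  iff : ∀ g : GL3, InR (ω : F) g ↔ P * g * P⁻¹ ∈ R

theorem exists_std {R : Subgroup GL3} (hsym : Cfsg.Geo.IsSymplecticTypeGroup 3 R)
    (hirr : Cfsg.Geo.ActsAbsolutelyIrreducibly (Cfsg.Geo.matrixSet R)) (hR : Nat.card R = 27)
    (hZ : Nat.card (Subgroup.center R) = 3) : ∃ ω P, Std R ω P := by
  classical
  haveI : Fact (Nat.Prime 3) := ⟨Nat.prime_three⟩
  have hexp : ∀ x ∈ R, x ^ 3 = 1 := fun x hx => by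
    have h := Monoid.pow_exponent_eq_one (⟨x, hx⟩ : R)
    rw [hsym.exponent_eq] at h
    exact congrArg Subtype.val h
  have hcomm : ∀ x ∈ R, ∀ y ∈ R, ∃ c : Fˣ, c ^ 3 = 1 ∧ sc3 c ∈ R ∧ x * y = sc3 c * y * x := by
    intro x hx y hy
    have hq : Nat.card (R ⧸ Subgroup.center R) = 3 ^ 2 := by
      have h := Subgroup.card_eq_card_quotient_mul_card_subgroup (Subgroup.center R)
      rw [hR, hZ] at h
      omega
    have hc : IsMulCommutative (R ⧸ Subgroup.center R) :=
      IsPGroup.isMulCommutative_of_card_eq_prime_sq hq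
    have hmem : (⟨x, hx⟩ * ⟨y, hy⟩ * ⟨x, hx⟩⁻¹ * ⟨y, hy⟩⁻¹ : R) ∈ Subgroup.center R := by
      rw [← QuotientGroup.eq_one_iff]
      simp only [QuotientGroup.mk_mul, QuotientGroup.mk_inv]
      rw [hc.is_comm.comm (QuotientGroup.mk (⟨x, hx⟩ : R)) (QuotientGroup.mk ⟨y, hy⟩)]
      group
    set g : GL3 := x * y * x⁻¹ * y⁻¹ with hg
    have hgR : g ∈ R := mul_mem (mul_mem (mul_mem hx hy) (inv_mem hx)) (inv_mem hy)
    obtain ⟨c, hgc⟩ := hirr.2 (g : Mat3) (by
      rintro _ ⟨r, hr, rfl⟩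
      exact congrArg Units.val (congrArg Subtype.val (Subgroup.mem_center_iff.1 hmem ⟨r, hr⟩)).symm)
    have hc3 : c ^ 3 = 1 := by
      have h := congrArg Units.val (hexp g hgR)
      rw [Units.val_pow_eq_pow_val, hgc, smul_pow, one_pow, Units.val_one] at h
      simpa using congrFun (congrFun h 0) 0
    have hc0 : c ≠ 0 := fun h => by simp [h] at hc3
    have hgs : g = sc3 (Units.mk0 c hc0) := Units.ext (by rw [sc3_val', hgc]; rfl)
    refine ⟨Units.mk0 c hc0, Units.ext hc3, hgs ▸ hgR, ?_⟩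
    rw [← hgs, hg]
    group
  obtain ⟨x, hxR, y, hyR, hxy⟩ : ∃ x ∈ R, ∃ y ∈ R, x * y ≠ y * x := by
    by_contra! h
    have : Subgroup.center R = ⊤ := eq_top_iff.2 fun a _ =>
      Subgroup.mem_center_iff.2 fun b => Subtype.ext (h b.1 b.2 a.1 a.2)
    rw [this, Subgroup.card_top, hR] at hZ
    omega
  obtain ⟨ω, hω3, hωR, hω⟩ := hcomm x hxR y hyR
  have hωprim : IsPrimitiveRoot (ω : F) 3 := by
    refine IsPrimitiveRoot.mk_of_lt _ (by norm_num) (by rw [← Units.val_pow_eq_pow_val, hω3]; rfl) ?_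
    intro l h0 h3 hl
    have hl' : ω ^ l = 1 := Units.ext (by simpa using hl)
    have h1 : ω = 1 := by
      interval_cases l
      · simpa using hl'
      · calc ω = ω * ω ^ 2 := by rw [hl', mul_one]
          _ = 1 := by rw [← pow_succ', hω3]
    exact hxy (by rw [hω, h1, map_one, one_mul])
  -- replace `x` so that it fixes a vector
  obtain ⟨x, hxR, hω, v, hv0, hxv⟩ :
      ∃ x ∈ R, x * y = sc3 ω * y * x ∧ ∃ v : Fin 3 → F, v ≠ 0 ∧ (x : Mat3) *ᵥ v = v := by
    have hx3 : (x : Mat3) ^ 3 = 1 := by rw [← Units.val_pow_eq_pow_val, hexp x hxR, Units.val_one]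
    have hs := root_sum hωprim
    have hprod : ((x : Mat3) - 1) * (((x : Mat3) - (ω : F) • 1) * ((x : Mat3) - (ω : F) ^ 2 • 1)) = 0 := by
      calc _ = (x : Mat3) ^ 3 - ((1 : F) + ω + ω ^ 2) • (x : Mat3) ^ 2 +
            ((ω : F) + ω ^ 2 + ω ^ 3) • (x : Mat3) - (ω : F) ^ 3 • 1 := by
            simp [mul_sub, sub_mul, pow_succ, mul_assoc, smul_smul, mul_smul_comm, smul_mul_assoc, add_smul]
            module
        _ = 0 := by
          rw [hs, hωprim.pow_eq_one, show (ω : F) + ω ^ 2 + 1 = 0 by linear_combination hs, zero_smul,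
            zero_smul, one_smul, hx3, sub_zero, add_zero, sub_self]
    obtain ⟨k, hk⟩ : ∃ k : ℕ, ((x : Mat3) - (ω : F) ^ k • 1).det = 0 := by
      have h := congrArg Matrix.det hprod
      rw [det_mul, det_mul, det_zero, mul_eq_zero, mul_eq_zero] at h
      rcases h with h | h | h
      · exact ⟨0, by simpa using h⟩
      · exact ⟨1, by simpa using h⟩
      · exact ⟨2, h⟩
    obtain ⟨v, hv0, hv⟩ := Matrix.exists_mulVec_eq_zero_iff.2 hk
    rw [sub_mulVec, smul_mulVec, one_mulVec, sub_eq_zero] at hv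
    refine ⟨(sc3 ω ^ k)⁻¹ * x, mul_mem (inv_mem (pow_mem hωR k)) hxR, ?_, v, hv0, ?_⟩
    · rw [mul_assoc, hω, ← map_pow, ← map_inv]
      simp only [← mul_assoc, ← map_mul, sc3_comm', mul_comm ω]
    · rw [Units.val_mul, ← mulVec_mulVec, hv, ← map_pow, ← map_inv, sc3_val', smul_mulVec, one_mulVec,
        smul_smul, Units.val_inv_eq_inv_val, Units.val_pow_eq_pow_val, inv_mul_cancel₀ (pow_ne_zero k ω.ne_zero),
        one_smul]
  set X : Mat3 := (x : Mat3)
  set Y : Mat3 := (y : Mat3)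
  have hXY : ∀ w, X *ᵥ (Y *ᵥ w) = (ω : F) • (Y *ᵥ (X *ᵥ w)) := fun w => by
    have h := congrArg Units.val hω
    rw [Units.val_mul, Units.val_mul, Units.val_mul, sc3_val', Matrix.smul_mul, one_mul,
      Matrix.smul_mul] at h
    rw [mulVec_mulVec, mulVec_mulVec, ← smul_mulVec]
    exact congrArg (· *ᵥ w) h
  set Q : Mat3 := Matrix.of fun i j => (![v, Y *ᵥ v, Y *ᵥ (Y *ᵥ v)] : Fin 3 → Fin 3 → F) j i with hQ
  have hQs : ∀ j, Q *ᵥ Pi.single j 1 = (![v, Y *ᵥ v, Y *ᵥ (Y *ᵥ v)] : Fin 3 → Fin 3 → F) j := fun j => by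
    funext i; simp [hQ]
  have h1 : X *ᵥ (Y *ᵥ v) = (ω : F) • (Y *ᵥ v) := by rw [hXY, hxv]
  have h2 : X *ᵥ (Y *ᵥ (Y *ᵥ v)) = (ω : F) ^ 2 • (Y *ᵥ (Y *ᵥ v)) := by
    rw [hXY, h1, mulVec_smul, smul_smul, pow_two]
  have hY3 : Y *ᵥ (Y *ᵥ (Y *ᵥ v)) = v := by
    rw [mulVec_mulVec, mulVec_mulVec, ← pow_three', ← Units.val_pow_eq_pow_val, hexp y hyR, Units.val_one,
      one_mulVec]
  have hQdet : Q.det ≠ 0 := by
    intro h
    obtain ⟨a, ha0, ha⟩ := Matrix.exists_mulVec_eq_zero_iff.2 h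
    have hQa : ∀ b, Q *ᵥ b = b 0 • v + b 1 • (Y *ᵥ v) + b 2 • (Y *ᵥ (Y *ᵥ v)) := fun b => by
      funext i
      simp [hQ, Matrix.mulVec, dotProduct, Fin.sum_univ_three, mul_comm]
    rw [hQa] at ha
    have e1 := congrArg (fun w => X *ᵥ w) ha
    simp only [mulVec_add, mulVec_smul, hxv, h1, h2, mulVec_zero] at e1
    have e2 := congrArg (fun w => X *ᵥ w) e1
    simp only [mulVec_add, mulVec_smul, hxv, h1, h2, mulVec_zero] at e2
    have hs := root_sum hωprim
    have hw3 := hωprim.pow_eq_one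
    have hv1 : Y *ᵥ v ≠ 0 := fun h => hv0 (by rw [← hY3, h, mulVec_zero, mulVec_zero])
    have hv2 : Y *ᵥ (Y *ᵥ v) ≠ 0 := fun h => hv0 (by rw [← hY3, h, mulVec_zero])
    have h30 : (3 : F) ≠ 0 := fun h3 => root_sub_ne_zero hωprim (by
      rcases mul_eq_zero.1 (show ((ω : F) - 1) * ((ω : F) - 1) = 0 by linear_combination hs - (ω : F) * h3) with
        h' | h' <;> linear_combination (-(ω : F)) * h')
    have k0 : ((3 : F) * a 0) • v = 0 := by
      linear_combination (norm := skip) ha + e1 + e2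
      funext i
      simp
      grind
    have k1 : ((3 : F) * a 1) • (Y *ᵥ v) = 0 := by
      linear_combination (norm := skip) ha + (ω : F) ^ 2 • e1 + (ω : F) • e2
      funext i
      simp
      grind
    have k2 : ((3 : F) * a 2) • (Y *ᵥ (Y *ᵥ v)) = 0 := by
      linear_combination (norm := skip) ha + (ω : F) • e1 + (ω : F) ^ 2 • e2
      funext i
      simp
      grind
    refine ha0 (funext fun i => ?_)
    fin_cases i
    · exact (mul_eq_zero.1 ((smul_eq_zero.1 k0).resolve_right hv0)).resolve_left h30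
    · exact (mul_eq_zero.1 ((smul_eq_zero.1 k1).resolve_right hv1)).resolve_left h30
    · exact (mul_eq_zero.1 ((smul_eq_zero.1 k2).resolve_right hv2)).resolve_left h30
  set P : GL3 := Matrix.nonsingInvUnit Q (isUnit_iff_ne_zero.2 hQdet)
  have hPval : (P : Mat3) = Q := rfl
  have hX : X * Q = Q * xMat (ω : F) := Matrix.ext_of_mulVec_single fun j => by
    rw [← mulVec_mulVec, ← mulVec_mulVec, hQs]
    fin_cases j <;> simp only [Fin.zero_eta, Fin.mk_one, Fin.reduceFinMk]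
    · rw [show xMat (ω : F) *ᵥ Pi.single 0 1 = Pi.single 0 1 by ext i; fin_cases i <;> simp [xMat], hQs]
      simpa using hxv
    · rw [show xMat (ω : F) *ᵥ Pi.single 1 1 = (ω : F) • Pi.single 1 1 by
        ext i; fin_cases i <;> simp [xMat], mulVec_smul, hQs]
      simpa using h1
    · rw [show xMat (ω : F) *ᵥ Pi.single 2 1 = (ω : F) ^ 2 • Pi.single 2 1 by
        ext i; fin_cases i <;> simp [xMat], mulVec_smul, hQs]
      simpa using h2
  have hY : Y * Q = Q * yMat := Matrix.ext_of_mulVec_single fun j => by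
    rw [← mulVec_mulVec, ← mulVec_mulVec, hQs]
    fin_cases j <;> simp only [Fin.zero_eta, Fin.mk_one, Fin.reduceFinMk]
    · rw [show (yMat : Mat3) *ᵥ Pi.single 0 1 = Pi.single 1 1 by ext i; fin_cases i <;> simp [yMat], hQs]
      simp
    · rw [show (yMat : Mat3) *ᵥ Pi.single 1 1 = Pi.single 2 1 by ext i; fin_cases i <;> simp [yMat], hQs]
      simp
    · rw [show (yMat : Mat3) *ᵥ Pi.single 2 1 = Pi.single 0 1 by ext i; fin_cases i <;> simp [yMat], hQs]
      simpa using hY3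
  obtain ⟨x', hx'⟩ : ∃ x' : GL3, x' = P⁻¹ * x * P := ⟨_, rfl⟩
  obtain ⟨y', hy'⟩ : ∃ y' : GL3, y' = P⁻¹ * y * P := ⟨_, rfl⟩
  have hxv' : (x' : Mat3) = xMat (ω : F) := by
    rw [hx', mul_assoc, Units.val_mul, Units.val_mul, hPval, show (x : Mat3) = X from rfl, hX, ← mul_assoc,
      ← hPval, ← Units.val_mul, inv_mul_cancel, Units.val_one, one_mul]
  have hyv' : (y' : Mat3) = yMat := by
    rw [hy', mul_assoc, Units.val_mul, Units.val_mul, hPval, show (y : Mat3) = Y from rfl, hY, ← mul_assoc,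
      ← hPval, ← Units.val_mul, inv_mul_cancel, Units.val_one, one_mul]
  have hPx : P * x' * P⁻¹ = x := by rw [hx']; group
  have hPy : P * y' * P⁻¹ = y := by rw [hy']; group
  refine ⟨ω, P, hωprim, fun g => ⟨?_, fun hg => ?_⟩⟩
  · rintro ⟨k, i, j, hg⟩
    have e : g = sc3 ω ^ (k : ℕ) * (x' ^ (i : ℕ) * y' ^ (j : ℕ)) := Units.ext (by
      rw [hg, Units.val_mul, Units.val_mul, Units.val_pow_eq_pow_val, Units.val_pow_eq_pow_val,
        Units.val_pow_eq_pow_val, hxv', hyv', sc3_val', smul_pow, one_pow, Matrix.smul_mul, one_mul])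
    have e' : P * g * P⁻¹ = sc3 ω ^ (k : ℕ) * (x ^ (i : ℕ) * y ^ (j : ℕ)) := by
      show MulAut.conj P g = _
      rw [e, map_mul, map_mul, map_pow, map_pow, map_pow, MulAut.conj_apply, MulAut.conj_apply,
        MulAut.conj_apply, hPx, hPy, sc3_comm', mul_inv_cancel_right]
    rw [e']
    exact mul_mem (pow_mem hωR _) (mul_mem (pow_mem hxR _) (pow_mem hyR _))
  · -- every element of `R` is a word
    have hS : ∀ a b : GL3, a ∈ R → b ∈ R → ∃ c : Fˣ, c ^ 3 = 1 ∧ a * b = sc3 c * b * a := fun a b ha hb => by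
      obtain ⟨c, hc, -, h⟩ := hcomm a ha b hb; exact ⟨c, hc, h⟩
    obtain ⟨r, hr⟩ : ∃ r, r = P * g * P⁻¹ := ⟨_, rfl⟩
    rw [← hr] at hg
    have hgr : g = P⁻¹ * r * P := by rw [hr]; group
    have hlog : ∀ c : Fˣ, c ^ 3 = 1 → ∃ k : ℕ, k < 3 ∧ c = ω ^ k := fun c hc => by
      obtain ⟨k, hk, hk'⟩ := hωprim.eq_pow_of_pow_eq_one (ξ := (c : F))
        (by rw [← Units.val_pow_eq_pow_val, hc]; rfl)
      exact ⟨k, hk, Units.ext (by simpa using hk'.symm)⟩
    have hconj : ∀ a b : GL3, ∀ c : Fˣ, a * b = sc3 c * b * a →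
        ∀ n : ℕ, a * b ^ n = sc3 (c ^ n) * b ^ n * a := by
      intro a b c h n
      induction n with
      | zero => simp
      | succ n ih =>
        rw [pow_succ, ← mul_assoc, ih, mul_assoc _ a b, h, pow_succ, map_mul]
        simp only [mul_assoc]
        congr 1
        rw [← mul_assoc (b ^ n), sc3_comm']
        simp only [mul_assoc]
    obtain ⟨c, hc3, hc⟩ := hS x r hxR hg
    obtain ⟨a, ha, rfl⟩ := hlog c hc3
    have hxs : x * (r * y ^ (2 * a)) = (r * y ^ (2 * a)) * x := by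
      rw [← mul_assoc, hc, mul_assoc _ x, hconj x y ω hω]
      calc sc3 (ω ^ a) * r * (sc3 (ω ^ (2 * a)) * y ^ (2 * a) * x)
          = sc3 (ω ^ a) * sc3 (ω ^ (2 * a)) * (r * y ^ (2 * a) * x) := by
            simp only [← mul_assoc]
            rw [mul_assoc _ r (sc3 _), sc3_comm', ← mul_assoc]
        _ = r * y ^ (2 * a) * x := by
            rw [← map_mul, ← pow_add, show a + 2 * a = 3 * a by ring, pow_mul, hω3,
              one_pow, map_one, one_mul]
    have hsR : r * y ^ (2 * a) ∈ R := mul_mem hg (pow_mem hyR _)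
    set s := r * y ^ (2 * a) with hs
    obtain ⟨d, hd3, hd⟩ := hS y s hyR hsR
    obtain ⟨b, hb, rfl⟩ := hlog d hd3
    have hyx : y * x = sc3 (ω ^ 2) * x * y := by
      rw [mul_assoc, hω, ← mul_assoc, ← mul_assoc, ← map_mul, ← pow_succ, hω3, map_one, one_mul]
    have hys : y * (s * x ^ b) = (s * x ^ b) * y := by
      rw [← mul_assoc, hd, mul_assoc _ y, hconj y x _ hyx, ← pow_mul]
      calc sc3 (ω ^ b) * s * (sc3 (ω ^ (2 * b)) * x ^ b * y)
          = sc3 (ω ^ b) * sc3 (ω ^ (2 * b)) * (s * x ^ b * y) := by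
            simp only [← mul_assoc]
            rw [mul_assoc _ s (sc3 _), sc3_comm', ← mul_assoc]
        _ = s * x ^ b * y := by
            rw [← map_mul, ← pow_add, show b + 2 * b = 3 * b by ring, pow_mul, hω3,
              one_pow, map_one, one_mul]
    have hxs' : x * (s * x ^ b) = (s * x ^ b) * x := by
      rw [← mul_assoc, hxs, mul_assoc, ← pow_succ', pow_succ, ← mul_assoc]
    obtain ⟨t, ht⟩ : ∃ t : GL3, t = P⁻¹ * (s * x ^ b) * P := ⟨_, rfl⟩
    have hcomm' : ∀ u : GL3, u * (s * x ^ b) = (s * x ^ b) * u →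
        t * (P⁻¹ * u * P) = (P⁻¹ * u * P) * t := fun u hu => by
      rw [ht, show P⁻¹ * (s * x ^ b) * P * (P⁻¹ * u * P) = P⁻¹ * ((s * x ^ b) * u) * P by group, ← hu]
      group
    have hts := eq_scalar_of_comm hωprim (A := (t : Mat3))
      (by rw [← hxv', ← Units.val_mul, hx', hcomm' x hxs', Units.val_mul])
      (by rw [← hyv', ← Units.val_mul, hy', hcomm' y hys, Units.val_mul])
    have ht3 : t ^ 3 = 1 := by
      have hconjpow : (P⁻¹ * (s * x ^ b) * P) ^ 3 = P⁻¹ * (s * x ^ b) ^ 3 * P := by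
        simp only [pow_three]; group
      rw [ht, hconjpow, hexp _ (mul_mem hsR (pow_mem hxR _))]
      group
    have hu3 : ((t : Mat3) 0 0) ^ 3 = 1 := by
      have h := congrArg Units.val ht3
      rw [Units.val_pow_eq_pow_val, hts, smul_pow, one_pow, Units.val_one] at h
      simpa using congrFun (congrFun h 0) 0
    obtain ⟨k, hk, hk'⟩ := hωprim.eq_pow_of_pow_eq_one hu3
    have hg' : g = t * (x' ^ (2 * b) * y' ^ a) := by
      have e : r = (s * x ^ b) * (x ^ (2 * b) * y ^ a) := by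
        rw [mul_assoc s, ← mul_assoc (x ^ b), ← pow_add, show b + 2 * b = 3 * b by ring, pow_mul,
          hexp x hxR, one_pow, one_mul, hs, mul_assoc, ← pow_add, show 2 * a + a = 3 * a by ring, pow_mul,
          hexp y hyR, one_pow, mul_one]
      rw [hgr, e, ht, show x' = MulAut.conj P⁻¹ x by rw [hx', MulAut.conj_apply, inv_inv],
        show y' = MulAut.conj P⁻¹ y by rw [hy', MulAut.conj_apply, inv_inv], ← map_pow, ← map_pow,
        ← map_mul, MulAut.conj_apply, inv_inv]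
      group
    refine ⟨⟨k, hk⟩, ⟨2 * b % 3, Nat.mod_lt _ (by norm_num)⟩, ⟨a, ha⟩, ?_⟩
    have hxpow : ∀ n : ℕ, xMat (ω : F) ^ n = xMat (ω : F) ^ (n % 3) := fun n => by
      have hX3 : xMat (ω : F) ^ 3 = 1 := by
        rw [← hxv', ← Units.val_pow_eq_pow_val]
        have : (P⁻¹ * x * P) ^ 3 = P⁻¹ * x ^ 3 * P := by simp only [pow_three]; group
        rw [hx', this, hexp x hxR, mul_one, inv_mul_cancel, Units.val_one]
      conv_lhs => rw [← Nat.mod_add_div n 3, pow_add, pow_mul, hX3, one_pow, mul_one]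
    rw [hg', Units.val_mul, Units.val_mul, Units.val_pow_eq_pow_val, Units.val_pow_eq_pow_val, hxv', hyv',
      hxpow, hts, ← hk', Matrix.smul_mul, one_mul]

end CfsgLib.SUThree90.C6
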