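import Cfsg.Agent.SUThree90.ExtraspecialUnit
import Cfsg.Agent.SUThree90.ExtraspecialForm
import Cfsg.Agent.SLThree90.Homology

/-!
The normaliser of an extraspecial group of order `27` is maximal in `SU₃(p)`, `p ≡ 2 mod 3`, `p ≥ 11`,
given that an overgroup of the standard `3^(1+2).Q₈` over an algebraically closed field normalises its
extraspecial subgroup.
-/

set_option autoImplicit false
set_option linter.unusedSectionVars false

namespace CfsgLib.SUThree90

open Matrix CfsgLib.SLThree90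

universe u

namespace C6

variable {F : Type u} [Field F]

local notation "Mat3" => Matrix (Fin 3) (Fin 3) F
local notation "GL3" => GL (Fin 3) F

variable {R : Subgroup (GL (Fin 3) F)} {ω : Fˣ} {P : GL (Fin 3) F}

lemma Std.x_mem (h : Std R ω P) :
    P * unitOf (det_xMat h.prim) * P⁻¹ ∈ R :=
  (h.iff _).1 ⟨0, 1, 0, by simp⟩

lemma Std.y_mem (h : Std R ω P) :
    P * unitOf (det_yMat (F := F)) * P⁻¹ ∈ R :=
  (h.iff _).1 ⟨0, 0, 1, by simp⟩

lemma conj_sc3 (g : GL3) (c : Fˣ) : g * sc3 c * g⁻¹ = sc3 c := by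
  rw [sc3_comm', mul_inv_cancel_right]

lemma Std.sc_mem (h : Std R ω P) : sc3 ω ∈ R := by
  have := (h.iff (sc3 ω)).1 ⟨1, 0, 0, by simp [sc3_val']⟩
  rwa [conj_sc3] at this

/-- An element moving the two generators into `R` normalises it. -/
lemma Std.mem_normalizer [Finite R] (h : Std R ω P) {g : GL3}
    (hx : g * (P * unitOf (det_xMat h.prim) * P⁻¹) * g⁻¹ ∈ R)
    (hy : g * (P * unitOf (det_yMat (F := F)) * P⁻¹) * g⁻¹ ∈ R) :
    g ∈ Cfsg.Geo.subgroupNormalizer R := by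
  classical
  have hfor : ∀ r ∈ R, g * r * g⁻¹ ∈ R := by
    intro r hr
    obtain ⟨k, i, j, e⟩ := (h.iff (P⁻¹ * r * P)).2 (by simpa [mul_assoc] using hr)
    have e' : P⁻¹ * r * P =
        sc3 ω ^ (k : ℕ) * (unitOf (det_xMat h.prim) ^ (i : ℕ) * unitOf (det_yMat (F := F)) ^ (j : ℕ)) :=
      Units.ext (by
        rw [e, Units.val_mul (sc3 ω ^ (k : ℕ)), Units.val_mul, Units.val_pow_eq_pow_val,
          Units.val_pow_eq_pow_val, Units.val_pow_eq_pow_val, unitOf_val, unitOf_val, sc3_val',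
          smul_pow, one_pow, Matrix.smul_mul, one_mul])
    have er : g * r * g⁻¹ = MulAut.conj g (MulAut.conj P (P⁻¹ * r * P)) := by
      simp [MulAut.conj_apply, mul_assoc]
    rw [er, e']
    rw [map_mul, map_mul, map_mul, map_mul, map_pow, map_pow, map_pow, map_pow, map_pow, map_pow]
    simp only [MulAut.conj_apply, conj_sc3]
    exact mul_mem (pow_mem h.sc_mem _) (mul_mem (pow_mem hx _) (pow_mem hy _))
  let φ : R → R := fun r => ⟨g * r * g⁻¹, hfor r r.2⟩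
  have hφ : Function.Bijective φ := Finite.injective_iff_bijective.1 fun a b hab => by
    simpa [φ] using hab
  refine Subgroup.mem_normalizer_iff.2 fun r => ⟨hfor r, fun hr => ?_⟩
  obtain ⟨⟨s, hs⟩, hs'⟩ := hφ.2 ⟨_, hr⟩
  have : s = r := by simpa [φ] using hs'
  exact this ▸ hs

lemma Std.normalizes_of_rel [Finite R] (h : Std R ω P) {A : Mat3} (hA : A.det = 1) {B C : Mat3}
    (hB : ∀ g : GL3, (g : Mat3) = B → InR (ω : F) g) (hC : ∀ g : GL3, (g : Mat3) = C → InR (ω : F) g)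
    (hx : A * xMat (ω : F) = B * A) (hy : A * yMat = C * A) :
    P * unitOf hA * P⁻¹ ∈ Cfsg.Geo.subgroupNormalizer R := by
  have aux : ∀ (X : GL3) (D : Mat3), A * (X : Mat3) = D * A →
      ((unitOf hA * X * (unitOf hA)⁻¹ : GL3) : Mat3) = D := fun X D he => by
    rw [Units.val_mul, Units.val_mul, unitOf_val, he, mul_assoc]
    show D * ((unitOf hA : Mat3) * (((unitOf hA)⁻¹ : GL3) : Mat3)) = D
    rw [← Units.val_mul, mul_inv_cancel, Units.val_one, mul_one]
  refine h.mem_normalizer ?_ ?_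
  · have := (h.iff _).1 (hB _ (aux (unitOf (det_xMat h.prim)) B hx))
    simpa [mul_assoc] using this
  · have := (h.iff _).1 (hC _ (aux (unitOf (det_yMat (F := F))) C hy))
    simpa [mul_assoc] using this

lemma Std.a_mem [Finite R] (h : Std R ω P) :
    P * unitOf (det_aMat h.prim) * P⁻¹ ∈ Cfsg.Geo.subgroupNormalizer R :=
  h.normalizes_of_rel _ (fun _ e => ⟨0, 0, 2, by simp [e]⟩) (fun _ e => ⟨0, 1, 0, by simp [e]⟩)
    (aMat_x h.prim) (aMat_y h.prim)

lemma Std.b_mem [Finite R] (h : Std R ω P) :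
    P * unitOf (det_bMat h.prim) * P⁻¹ ∈ Cfsg.Geo.subgroupNormalizer R :=
  h.normalizes_of_rel _ (fun _ e => ⟨2, 1, 2, by simp [e]⟩) (fun _ e => ⟨1, 2, 2, by simp [e]⟩)
    (bMat_x h.prim) (bMat_y h.prim)

lemma det_conj' (P g : GL3) : ((P * g * P⁻¹ : GL3) : Mat3).det = (g : Mat3).det := by
  rw [Units.val_mul, Units.val_mul, det_units_conj]

lemma Std.det_one (h : Std R ω P) {r : GL3} (hr : r ∈ R) : (r : Mat3).det = 1 := by
  obtain ⟨k, i, j, e⟩ := (h.iff (P⁻¹ * r * P)).2 (by simpa [mul_assoc] using hr)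
  rw [show r = P * (P⁻¹ * r * P) * P⁻¹ by group, det_conj', e, det_smul, det_mul, det_pow, det_pow,
    det_xMat h.prim, det_yMat, one_pow, one_pow, one_mul, mul_one, Fintype.card_fin, ← pow_mul, mul_comm,
    pow_mul, h.prim.pow_eq_one, one_pow]

/-- An element of order dividing `p > 9` that normalises `R` centralises it. -/
lemma Std.commute_of_pow [Finite R] (h : Std R ω P) {p : ℕ} (hp : p.Prime) (hp9 : 9 < p) {g : GL3}
    (hg : g ∈ Cfsg.Geo.subgroupNormalizer R) (hgp : g ^ p = 1) : ∀ r ∈ R, Commute g r := by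
  classical
  intro r hr
  have hconj : ∀ n : ℕ, g ^ n * r * (g ^ n)⁻¹ ∈ R := fun n =>
    ((Subgroup.mem_normalizer_iff.1 (pow_mem hg n)) r).1 hr
  have hw : ∀ n : Fin p, ∃ x : Fin 3 × (Fin 3 × Fin 3),
      ((P⁻¹ * (g ^ (n : ℕ) * r * (g ^ (n : ℕ))⁻¹) * P : GL3) : Mat3) =
        (ω : F) ^ (x.1 : ℕ) • (xMat (ω : F) ^ (x.2.1 : ℕ) * yMat ^ (x.2.2 : ℕ)) := fun n => by
    obtain ⟨k, i, j, e⟩ := (h.iff (P⁻¹ * (g ^ (n : ℕ) * r * (g ^ (n : ℕ))⁻¹) * P)).2
      (by simpa [mul_assoc] using hconj n)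
    exact ⟨(k, i, j), e⟩
  choose w hw using hw
  obtain ⟨m, n, hmn, hc⟩ := Fintype.exists_ne_map_eq_of_card_lt (fun n => (w n).2) (by simpa using hp9)
  wlog hlt : m < n generalizing m n
  · exact this n m hmn.symm hc.symm (lt_of_le_of_ne (not_lt.1 hlt) hmn.symm)
  obtain ⟨a, ha⟩ : ∃ a : GL3, a = g ^ (m : ℕ) := ⟨_, rfl⟩
  obtain ⟨d, hd⟩ : ∃ d : ℕ, d = (n : ℕ) - m := ⟨_, rfl⟩
  have hd0 : 0 < d ∧ d < p := by
    have := n.2
    have := Fin.lt_def.1 hlt
    omega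
  obtain ⟨ζ, hζ⟩ : ∃ ζ : Fˣ, ζ = ω ^ ((w n).1 : ℕ) * (ω ^ ((w m).1 : ℕ))⁻¹ := ⟨_, rfl⟩
  have hζ3 : ζ ^ 3 = 1 := by
    have hω : ω ^ 3 = 1 := Units.ext (by simpa using h.prim.pow_eq_one)
    have hk : ∀ k : ℕ, (ω ^ k) ^ 3 = 1 := fun k => by rw [← pow_mul, pow_mul', hω, one_pow]
    rw [hζ, mul_pow, inv_pow, hk, hk, inv_one, one_mul]
  have hbase : g ^ d * r * (g ^ d)⁻¹ = sc3 ζ * r := by
    have e : P⁻¹ * (g ^ (n : ℕ) * r * (g ^ (n : ℕ))⁻¹) * P =
        sc3 ζ * (P⁻¹ * (g ^ (m : ℕ) * r * (g ^ (m : ℕ))⁻¹) * P) := by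
      refine Units.ext ?_
      have hx : (w m).2 = (w n).2 := hc
      rw [Units.val_mul (sc3 ζ), hw, hw, sc3_val', Matrix.smul_mul, one_mul, smul_smul, hx, hζ,
        Units.val_mul, Units.val_inv_eq_inv_val, Units.val_pow_eq_pow_val, Units.val_pow_eq_pow_val,
        inv_mul_cancel_right₀ (pow_ne_zero _ ω.ne_zero)]
    rw [show (n : ℕ) = m + d by omega, pow_add, ← ha] at e
    have hPs : P⁻¹ * sc3 ζ = sc3 ζ * P⁻¹ := sc3_comm' _ _
    have e1 := congrArg (fun z => (P * a)⁻¹⁻¹⁻¹ * (P * z * P⁻¹) * a) e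
    have e2 : a⁻¹ * (P * (sc3 ζ * (P⁻¹ * (a * r * a⁻¹) * P)) * P⁻¹) * a = sc3 ζ * r := by
      rw [← mul_assoc P, sc3_comm', show sc3 ζ * P * (P⁻¹ * (a * r * a⁻¹) * P) * P⁻¹ =
        sc3 ζ * (a * r * a⁻¹) by group, ← mul_assoc a⁻¹, sc3_comm']
      group
    rw [← e2, ← e]
    group
  have hiter : ∀ l : ℕ, (g ^ d) ^ l * r * ((g ^ d) ^ l)⁻¹ = sc3 (ζ ^ l) * r := by
    intro l
    induction l with
    | zero => simp
    | succ l ih =>
      rw [pow_succ' (g ^ d), _root_.mul_inv_rev,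
        show g ^ d * (g ^ d) ^ l * r * (((g ^ d) ^ l)⁻¹ * (g ^ d)⁻¹) =
          g ^ d * ((g ^ d) ^ l * r * ((g ^ d) ^ l)⁻¹) * (g ^ d)⁻¹ by group,
        ih, ← mul_assoc (g ^ d), sc3_comm', mul_assoc (sc3 _), mul_assoc (sc3 _), hbase,
        ← mul_assoc, ← map_mul, pow_succ]
  have hζ1 : ζ = 1 := by
    have e := hiter p
    rw [← pow_mul, mul_comm, pow_mul, hgp, one_pow, one_mul, inv_one, mul_one, right_eq_mul] at e
    have e' : ζ ^ p = 1 := Units.ext (by
      have h1 := congrArg (fun z : GL3 => (z : Mat3) 0 0) e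
      simpa [sc3_val', smul_pow] using h1)
    have hgcd := pow_gcd_eq_one.2 ⟨hζ3, e'⟩
    rwa [Nat.Coprime.gcd_eq_one ((Nat.prime_three.coprime_iff_not_dvd).2 (fun h3 => by
      have := (Nat.prime_dvd_prime_iff_eq Nat.prime_three hp).1 h3
      omega)), pow_one] at hgcd
  have hcd : Commute (g ^ d) r := mul_inv_eq_iff_eq_mul.1 (by rw [hbase, hζ1, map_one, one_mul])
  obtain ⟨z, hz⟩ := exists_pow_eq_self_of_coprime
    (Nat.Coprime.of_dvd_right (orderOf_dvd_of_pow_eq_one hgp)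
      (hp.coprime_iff_not_dvd.2 (Nat.not_dvd_of_pos_of_lt hd0.1 hd0.2)).symm)
  rw [← hz]
  exact hcd.pow_left z

variable [Fintype F] {q : ℕ}

local notation "G3" => Cfsg.GU 3 F q ⊓ Cfsg.Geo.specialLinear (Fin 3) F

/-- The isometries of determinant one do not normalise `R`. -/
lemma Std.not_le_normalizer [Finite R] (h : Std R ω P)
    (hirr : Cfsg.Geo.ActsAbsolutelyIrreducibly (Cfsg.Geo.matrixSet R)) (hF : Fintype.card F = q ^ 2)
    (hp : q.Prime) (hq : 9 < q) : ¬ G3 ≤ Cfsg.Geo.subgroupNormalizer R := by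
  intro hle
  haveI : Fact q.Prime := ⟨hp⟩
  obtain ⟨p, e, hp', hch, he, hqe⟩ := CfsgLib.Unitary.exists_char hF
  obtain rfl : q = p := ((Nat.prime_dvd_prime_iff_eq hp' hp).1 (hqe ▸ dvd_pow_self p he.ne')).symm
  obtain ⟨σ, hσ, hf⟩ := CfsgLib.LinAlg.Witt.exists_isUnitaryForm_hermForm (n := 3) hF
  obtain ⟨L⟩ : Nonempty (CfsgLib.MinIndexPSU3.Pt q F) := by
    refine (Nat.card_pos_iff.1 ?_).1
    rw [CfsgLib.MinIndexPSU3.card_Pt hF]
    omega
  obtain ⟨v, hv0, hvv, -⟩ := CfsgLib.MinIndexPSU3.exists_eq_pt L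
  obtain ⟨c, hc0, hc⟩ := UnitCentres.exists_traceZero hf
  obtain ⟨g, hg⟩ : ∃ g, g = UnitCentres.uT hf hvv c := ⟨_, rfl⟩
  have hpow : ∀ k : ℕ, UnitCentres.uT hf hvv c ^ k = UnitCentres.uT hf hvv ((k : F) * c) := by
    intro k
    induction k with
    | zero => rw [pow_zero, Nat.cast_zero, zero_mul, CfsgLib.SURegGen.uT_zero]
    | succ k ih => rw [pow_succ, ih, ← CfsgLib.SURegGen.uT_add, Nat.cast_succ, add_mul, one_mul]
  have hgp : g ^ q = 1 := by
    rw [hg, hpow, CharP.cast_eq_zero, zero_mul, CfsgLib.SURegGen.uT_zero]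
  have hgG : g ∈ G3 := hg ▸ ⟨UnitCentres.uT_iso hf hvv hc, UnitCentres.uT_mem_specialLinear hf hvv c⟩
  have hcomm := h.commute_of_pow hp hq (hle hgG) hgp
  obtain ⟨b, hb⟩ := hirr.2 (g : Mat3) (by
    rintro _ ⟨r, hr, rfl⟩
    exact congrArg Units.val (hcomm r hr).eq)
  have hb1 : b = 1 := by
    have h1 := congrArg Units.val hgp
    rw [Units.val_pow_eq_pow_val, hb, smul_pow, one_pow, Units.val_one] at h1
    have h2 : b ^ q = 1 := by simpa using congrFun (congrFun h1 0) 0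
    have h3 : (b - 1) ^ q = 0 := by rw [sub_pow_char, h2, one_pow, sub_self]
    exact sub_eq_zero.1 (eq_zero_of_pow_eq_zero h3)
  rw [hb1, one_smul] at hb
  obtain ⟨y, hy⟩ := (hf.nondegenerate v hv0).1
  have h1 := UnitCentres.uT_mulVec hf hvv c y
  rw [← hg, hb, one_mulVec, left_eq_add] at h1
  rcases smul_eq_zero.1 h1 with h2 | h2
  · rcases mul_eq_zero.1 h2 with h3 | h3
    · exact hc0 h3
    · exact hy h3
  · exact hv0 h2

section Map

variable {L : Type u} [Field L] (φ : F →+* L)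

local notation "γ" => Matrix.GeneralLinearGroup.map (n := Fin 3) φ

lemma map_val (g : GL3) : ((γ g : GL (Fin 3) L) : Matrix (Fin 3) (Fin 3) L) = (g : Mat3).map φ := rfl

lemma map_xMat (a : F) : (xMat a).map φ = xMat (φ a) := by
  ext i j; fin_cases i <;> fin_cases j <;> simp [xMat]

lemma map_yMat : (yMat : Mat3).map φ = yMat := by
  ext i j; fin_cases i <;> fin_cases j <;> simp [yMat]

lemma map_aMat (a : F) : (aMat a).map φ = aMat (φ a) := by
  ext i j; fin_cases i <;> fin_cases j <;> simp [aMat]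

lemma map_bMat (a : F) : (bMat a).map φ = bMat (φ a) := by
  ext i j; fin_cases i <;> fin_cases j <;> simp [bMat]

lemma map_word (a : F) (k i j : ℕ) :
    (a ^ k • (xMat a ^ i * yMat ^ j) : Mat3).map φ = φ a ^ k • (xMat (φ a) ^ i * yMat ^ j) := by
  rw [Matrix.map_smul' φ (a ^ k) _ (map_mul φ), Matrix.map_mul, Matrix.map_pow, Matrix.map_pow, map_xMat,
    map_yMat, map_pow]

lemma inR_map {a : F} {g : GL3} : InR (φ a) (γ g) ↔ InR a g := by
  refine ⟨fun ⟨k, i, j, e⟩ => ⟨k, i, j, ?_⟩, fun ⟨k, i, j, e⟩ => ⟨k, i, j, ?_⟩⟩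
  · rw [map_val, ← map_word φ] at e
    exact Matrix.map_injective φ.injective e
  · rw [map_val, e, map_word φ]

lemma isTransv_of_map {g : GL3} (h : SLThree90.IsTransv (γ g)) : SLThree90.IsTransv g := by
  obtain ⟨v, ψ, hv, hψ, hψv, e⟩ := h
  obtain ⟨a, ha⟩ := Function.ne_iff.1 hv
  obtain ⟨b, hb⟩ := Function.ne_iff.1 hψ
  obtain ⟨N, hN⟩ : ∃ N : Mat3, N = (g : Mat3) - 1 := ⟨_, rfl⟩
  have hNm : ∀ i j, φ (N i j) = v i * ψ j := by
    intro i j
    have h1 := congrFun (congrFun e i) j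
    rw [map_val, Matrix.map_apply, Matrix.add_apply, vecMulVec_apply] at h1
    rw [hN, Matrix.sub_apply, map_sub, h1]
    have : φ ((1 : Mat3) i j) = (1 : Matrix (Fin 3) (Fin 3) L) i j := by
      rw [Matrix.one_apply, Matrix.one_apply]; split <;> simp
    rw [this, add_sub_cancel_left]
  have hab : N a b ≠ 0 := fun h0 => mul_ne_zero ha hb (by rw [← hNm, h0, map_zero])
  refine ⟨fun i => N i b, fun j => N a j / N a b, fun h0 => hab (congrFun h0 a),
    fun h0 => div_ne_zero hab hab (congrFun h0 b), ?_, ?_⟩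
  · apply φ.injective
    simp only [dotProduct, map_sum, map_mul, map_div₀, map_zero, hNm]
    have h2 : ∑ x, ψ x * v x = 0 := hψv
    calc ∑ x, v a * ψ x / (v a * ψ b) * (v x * ψ b) = ∑ x, ψ x * v x :=
          Finset.sum_congr rfl fun x _ => by
            have ha' : v a ≠ 0 := ha
            have hb' : ψ b ≠ 0 := hb
            field_simp
      _ = 0 := h2
  · ext i j
    apply φ.injective
    rw [Matrix.add_apply, vecMulVec_apply, map_add, map_mul, map_div₀, hNm, hNm, hNm]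
    have h1 := hNm i j
    rw [hN, Matrix.sub_apply, map_sub] at h1
    have ha' : v a ≠ 0 := ha
    have hb' : ψ b ≠ 0 := hb
    field_simp
    linear_combination h1

end Map

end C6

set_option maxHeartbeats 1000000 in
/-- The seventh clause: the normaliser of a symplectic type group of order `27` is maximal, given that
overgroups of the standard `3^(1+2).Q₈` over algebraically closed fields normalise their `3^(1+2)`. -/
theorem c6_maximal {F : Type u} [Field F] [Fintype F] (q : ℕ) (hF : Fintype.card F = q ^ 2)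
    (core : ∀ (L : Type u) [Field L] [IsAlgClosed L] (p : ℕ) (M : Subgroup (GL (Fin 3) L)) (ω : Lˣ),
      Extra p M ω → NormalisesR (ω : L) M) :
    ∀ (p : ℕ) (R : Subgroup (Matrix.GeneralLinearGroup (Fin 3) F)), p.Prime → q = p → p % 3 = 2 → 11 ≤ p →
      Cfsg.Geo.IsSymplecticTypeGroup 3 R → Cfsg.Geo.ActsAbsolutelyIrreducibly (Cfsg.Geo.matrixSet R) →
      R ≤ Cfsg.Geo.similarityGroup (Cfsg.hermForm 3 F q) → Nat.card R = 27 →
      Nat.card (Subgroup.center R) = 3 →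
      Cfsg.Geo.IsMaximalIn (Cfsg.GU 3 F q ⊓ Cfsg.Geo.specialLinear (Fin 3) F)
        (Cfsg.Geo.subgroupNormalizer R ⊓ (Cfsg.GU 3 F q ⊓ Cfsg.Geo.specialLinear (Fin 3) F)) := by
  intro p R hp hqp h3 h11 hsym hirr hsim hR hZ
  subst hqp
  classical
  haveI : Finite R := Nat.finite_of_card_ne_zero (by omega)
  obtain ⟨ω, P, hstd⟩ := C6.exists_std hsym hirr hR hZ
  obtain ⟨c, e, hc', hch, he, hce⟩ := CfsgLib.Unitary.exists_char hF
  obtain rfl : q = c := ((Nat.prime_dvd_prime_iff_eq hc' hp).1 (hce ▸ dvd_pow_self c he.ne')).symm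
  haveI : Fact q.Prime := ⟨hp⟩
  have hexp : ∀ x ∈ R, x ^ 3 = 1 := fun x hx => by
    have h := Monoid.pow_exponent_eq_one (⟨x, hx⟩ : R)
    rw [hsym.exponent_eq] at h
    exact congrArg Subtype.val h
  have hRG : R ≤ Cfsg.GU 3 F q ⊓ Cfsg.Geo.specialLinear (Fin 3) F := fun r hr =>
    C6.mem_G3.2 ⟨C6.iso_of_similarity hF hp h3 (hsim hr) (hexp r hr), hstd.det_one hr⟩
  refine ⟨lt_of_le_of_ne inf_le_right fun e => ?_, fun M hNM hMG => ?_⟩
  · exact hstd.not_le_normalizer hirr hF hp (by omega) (inf_eq_right.1 e)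
  by_cases ht : ∃ g ∈ M, SLThree90.IsTransv g
  · refine Or.inr (le_antisymm hMG (C6.le_of_transvection hF hp (by omega) hMG (fun W hW => ?_) ht))
    refine hirr.1 W fun s hs => ?_
    obtain ⟨r, hr, rfl⟩ := hs
    exact hW _ ⟨r, hNM ⟨Subgroup.le_normalizer hr, hRG hr⟩, rfl⟩
  push Not at ht
  refine Or.inl (le_antisymm (fun g hg => ⟨?_, hMG hg⟩) hNM)
  -- move `M` to the algebraic closure, in the standard basis
  obtain ⟨K, hK⟩ : ∃ K : Subgroup (GL (Fin 3) F), K = M.map (MulAut.conj P⁻¹).toMonoidHom := ⟨_, rfl⟩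
  have hKmem : ∀ {x}, x ∈ K ↔ P * x * P⁻¹ ∈ M := by
    intro x
    rw [hK, Subgroup.mem_map_equiv]
    simp [MulAut.conj_apply]
  let φ : F →+* AlgebraicClosure F := algebraMap F (AlgebraicClosure F)
  let γ := Matrix.GeneralLinearGroup.map (n := Fin 3) φ
  have hγ : Function.Injective γ := fun a b h => Units.ext
    (Matrix.map_injective φ.injective (congrArg Units.val h))
  have hN : ∀ {x : GL (Fin 3) F}, (x : Matrix (Fin 3) (Fin 3) F).det = 1 →
      P * x * P⁻¹ ∈ Cfsg.Geo.subgroupNormalizer R → x ∈ K := fun hdet hx => hKmem.2 (hNM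
    ⟨hx, C6.iso_of_normalizer hF hp h3 hRG hirr hx (by rw [C6.det_conj']; exact hdet)⟩)
  have hKM : Nat.card (K.map γ) = Nat.card M := by
    rw [Subgroup.card_map_of_injective hγ, hK,
      Subgroup.card_map_of_injective (MulAut.conj P⁻¹).injective]
  have hnt : ∀ x ∈ K, ¬ SLThree90.IsTransv x := fun x hx h => ht _ (hKmem.1 hx) (h.conj P)
  have hExtra : Extra q (K.map γ) (Units.map φ.toMonoidHom ω) :=
    { p_prime := hp
      seven_le := by omega
      char := charP_of_injective_algebraMap φ.injective q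
      finite := Nat.finite_of_card_ne_zero (by rw [hKM]; exact Nat.card_pos.ne')
      det_one := by
        rintro _ ⟨x, hx, rfl⟩
        show (Matrix.map (x : Matrix (Fin 3) (Fin 3) F) φ).det = 1
        rw [show Matrix.map (x : Matrix (Fin 3) (Fin 3) F) φ = φ.mapMatrix (x : Matrix (Fin 3) (Fin 3) F) from rfl,
          ← RingHom.map_det, ← C6.det_conj' P x, (C6.mem_G3.1 (hMG (hKmem.1 hx))).2, map_one]
      no_transv := by
        rintro _ ⟨x, hx, rfl⟩ h
        exact hnt x hx (C6.isTransv_of_map φ h)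
      not_p_sq := by
        rw [hKM]
        exact C6.not_sq_dvd hF hp hMG ht
      omega := IsPrimitiveRoot.coe_units_iff.1 (hstd.prim.map_of_injective φ.injective)
      scalar_mem := by
        refine ⟨sc3 ω, hKmem.2 (hNM ⟨?_, ?_⟩), Units.ext ?_⟩
        · exact Subgroup.le_normalizer ((C6.conj_sc3 P ω).symm ▸ hstd.sc_mem)
        · exact hRG ((C6.conj_sc3 P ω).symm ▸ hstd.sc_mem)
        · rw [C6.map_val, C6.sc3_val', C6.sc3_val']
          ext i j
          simp [Matrix.one_apply, apply_ite φ]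
      x_mem := ⟨γ (C6.unitOf (C6.det_xMat hstd.prim)), ⟨_, hKmem.2 (hNM ⟨Subgroup.le_normalizer hstd.x_mem,
        hRG hstd.x_mem⟩), rfl⟩, C6.map_xMat φ _⟩
      y_mem := ⟨γ (C6.unitOf C6.det_yMat), ⟨_, hKmem.2 (hNM ⟨Subgroup.le_normalizer hstd.y_mem,
        hRG hstd.y_mem⟩), rfl⟩, C6.map_yMat φ⟩
      a_mem := ⟨γ (C6.unitOf (C6.det_aMat hstd.prim)), ⟨_, hN (C6.det_aMat hstd.prim) hstd.a_mem, rfl⟩,
        C6.map_aMat φ _⟩
      b_mem := ⟨γ (C6.unitOf (C6.det_bMat hstd.prim)), ⟨_, hN (C6.det_bMat hstd.prim) hstd.b_mem, rfl⟩,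
        C6.map_bMat φ _⟩ }
  have hgK : P⁻¹ * g * P ∈ K := hKmem.2 (by simpa [mul_assoc] using hg)
  have hnorm := core _ q _ _ hExtra _ ⟨_, hgK, rfl⟩
  refine hstd.mem_normalizer ?_ ?_
  all_goals
    refine (show ∀ x : GL (Fin 3) F, InR (ω : F) x → g * (P * x * P⁻¹) * g⁻¹ ∈ R from fun x hx => ?_) _ ?_
    · have h1 := hnorm (γ x) ((C6.inR_map φ).2 hx)
      rw [← map_inv γ, ← map_mul γ, ← map_mul γ] at h1
      have h2 := (hstd.iff _).1 ((C6.inR_map φ).1 h1)
      simpa [mul_assoc] using h2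
    · exact (hstd.iff _).2 (by first | exact hstd.x_mem | exact hstd.y_mem)

end CfsgLib.SUThree90
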