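import Cfsg.Agent.SUThree90.Generate
import Cfsg.Agent.SLThree90.Transvection
import Cfsg.Agent.SURegGen.Full
import Cfsg.Agent.LinAlg.Witt.Bases
import Cfsg.Agent.MinIndexPSU3.Main

/-!
Unitary facts for the overgroups of `3^(1+2).Q₈` in `SU₃(p)`: a transvection generates with an
irreducible group everything, a group without transvections has Sylow `p`-subgroups of order at most `p`,
elements of order three that preserve the form up to scalars preserve it, and so do elements of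
determinant one normalising an absolutely irreducible group of isometries.
-/

set_option autoImplicit false
set_option linter.unusedSectionVars false

namespace CfsgLib.SUThree90

open Matrix CfsgLib.TransvGL CfsgLib.UnitCentres

namespace C6

variable {F : Type*} [Field F] [Fintype F] {q : ℕ}

local notation "Mat3" => Matrix (Fin 3) (Fin 3) F
local notation "G3" => Cfsg.GU 3 F q ⊓ Cfsg.Geo.specialLinear (Fin 3) F

lemma mem_G3 {g : GL (Fin 3) F} : g ∈ G3 ↔
    (∀ u v, Cfsg.hermForm 3 F q ((g : Mat3) *ᵥ u) ((g : Mat3) *ᵥ v) = Cfsg.hermForm 3 F q u v) ∧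
      (g : Mat3).det = 1 :=
  and_congr Iff.rfl ⟨fun h => congrArg Units.val h, fun h => Units.ext h⟩

/-- In a field with `p²` elements the solutions of `x^p = x` are the natural numbers. -/
lemma exists_natCast_of_fixed {p : ℕ} [Fact p.Prime] [CharP F p] (hF : Fintype.card F = p ^ 2) {x : F}
    (hx : x ^ p = x) : ∃ k : ℕ, (k : F) = x := by
  classical
  let i : ZMod p → {y : F // y ^ p = y} := fun a =>
    ⟨ZMod.castHom dvd_rfl F a, by rw [← map_pow, ZMod.pow_card]⟩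
  have hi : Function.Injective i := fun a b h =>
    RingHom.injective _ (congrArg Subtype.val h)
  have hc : Nat.card (ZMod p) = Nat.card {y : F // y ^ p = y} := by
    rw [Nat.card_zmod, CfsgLib.Unitary.card_fixed hF]
  obtain ⟨a, ha⟩ := (Nat.bijective_iff_injective_and_card i).2 ⟨hi, hc⟩ |>.2 ⟨x, hx⟩
  refine ⟨a.val, ?_⟩
  rw [← show ZMod.castHom dvd_rfl F a = x from congrArg Subtype.val ha, ← map_natCast (ZMod.castHom dvd_rfl F),
    ZMod.natCast_zmod_val]

variable {σ : F ≃+* F}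

/-- A transvection isometry is a unitary transvection. -/
lemma exists_eq_uT (hf : Cfsg.Geo.IsUnitaryForm σ (Cfsg.hermForm 3 F q)) {g : GL (Fin 3) F}
    (hg : ∀ u v, Cfsg.hermForm 3 F q ((g : Mat3) *ᵥ u) ((g : Mat3) *ᵥ v) = Cfsg.hermForm 3 F q u v)
    (ht : SLThree90.IsTransv g) :
    ∃ a c, ∃ ha : Cfsg.hermForm 3 F q a a = 0, a ≠ 0 ∧ c ≠ 0 ∧ c + σ c = 0 ∧ g = uT hf ha c := by
  obtain ⟨a, φ, ha0, hφ0, hφa, hgm⟩ := ht
  set f := Cfsg.hermForm 3 F q
  have hgx : ∀ x, (g : Mat3) *ᵥ x = x + (φ ⬝ᵥ x) • a := fun x => by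
    rw [hgm, add_mulVec, one_mulVec, vecMulVec_mulVec, op_smul_eq_smul]
  have key : ∀ x y, (φ ⬝ᵥ x) * f a y + σ (φ ⬝ᵥ y) * f x a + (φ ⬝ᵥ x) * σ (φ ⬝ᵥ y) * f a a = 0 := by
    intro x y
    have h := hg x y
    simp only [hgx, hf.add_left, add_right hf, hf.smul_left, smul_right hf] at h
    linear_combination h
  obtain ⟨y₀, hy₀⟩ : ∃ y₀, φ ⬝ᵥ y₀ = 1 := by
    obtain ⟨i, hi⟩ := Function.ne_iff.1 hφ0
    exact ⟨Pi.single i (φ i)⁻¹, by rw [dotProduct_single, mul_inv_cancel₀ hi]⟩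
  have haa : f a a = 0 := by
    have h := key y₀ a
    rw [hφa, hy₀, map_zero, zero_mul, mul_zero, zero_mul, one_mul, add_zero, add_zero] at h
    exact h
  have h1 : ∀ x, (φ ⬝ᵥ x) * f a y₀ = -f x a := fun x => by
    have h := key x y₀
    rw [hy₀, map_one, haa, mul_zero] at h
    linear_combination h
  have hay : f a y₀ ≠ 0 := fun h => by
    obtain ⟨y, hy⟩ := (hf.nondegenerate a ha0).1
    have := h1 y
    rw [h, mul_zero] at this
    exact hy (neg_eq_zero.1 this.symm)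
  obtain ⟨c, hc⟩ : ∃ c, c = -(f a y₀)⁻¹ := ⟨_, rfl⟩
  have hφ : ∀ x, φ ⬝ᵥ x = c * f x a := fun x => by
    rw [hc, neg_mul, inv_mul_eq_div, ← neg_div, ← h1 x, mul_div_assoc, div_self hay, mul_one]
  have hc0 : c ≠ 0 := hc ▸ neg_ne_zero.2 (inv_ne_zero hay)
  refine ⟨a, c, haa, ha0, hc0, ?_, ext_mulVec fun x => ?_⟩
  · have h := key y₀ y₀
    rw [hy₀, map_one, haa, mul_zero, one_mul, one_mul, add_zero] at h
    have hs : σ (f a y₀) = f y₀ a := (hf.herm y₀ a).symm
    have hne : f y₀ a ≠ 0 := fun h' => hay (orth_comm hf h')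
    rw [hc, map_neg, map_inv₀, hs]
    rw [show f y₀ a = -f a y₀ by linear_combination h]
    rw [inv_neg]; ring
  · show (g : Mat3) *ᵥ x = (uT hf haa c : Mat3) *ᵥ x
    rw [hgx, hφ]
    exact (uT_mulVec hf haa c x).symm

/-- An irreducible group of isometries with a transvection is everything, `q` prime. -/
theorem le_of_transvection (hF : Fintype.card F = q ^ 2) (hp : q.Prime) (hq : 3 ≤ q)
    {M : Subgroup (GL (Fin 3) F)} (hM : M ≤ G3)
    (hirr : Cfsg.Geo.ActsIrreducibly (Cfsg.Geo.matrixSet M))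
    (ht : ∃ g ∈ M, SLThree90.IsTransv g) : G3 ≤ M := by
  classical
  haveI : Fact q.Prime := ⟨hp⟩
  obtain ⟨p, e, hp', hch, he, hqe⟩ := CfsgLib.Unitary.exists_char hF
  obtain rfl : q = p := ((Nat.prime_dvd_prime_iff_eq hp' hp).1 (hqe ▸ dvd_pow_self p he.ne')).symm
  obtain ⟨σ, hσ, hf⟩ := CfsgLib.LinAlg.Witt.exists_isUnitaryForm_hermForm (n := 3) hF
  obtain ⟨g, hgM, hgt⟩ := ht
  obtain ⟨a, c, haa, ha0, hc0, hcs, rfl⟩ := exists_eq_uT hf (mem_G3.1 (hM hgM)).1 hgt
  have hca : Centre hf M a := by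
    refine ⟨haa, fun c' hc' => ?_⟩
    obtain ⟨k, hk⟩ := exists_natCast_of_fixed hF (x := c' / c) (by
      rw [← hσ, map_div₀, show σ c' = -c' by linear_combination hc', show σ c = -c by linear_combination hcs,
        neg_div_neg_eq])
    have hk' : c' = (k : F) * c := by rw [hk, div_mul_cancel₀ _ hc0]
    have hpow : ∀ k : ℕ, uT hf haa ((k : F) * c) ∈ M := by
      intro k
      induction k with
      | zero => rw [Nat.cast_zero, zero_mul, CfsgLib.SURegGen.uT_zero]; exact one_mem M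
      | succ k ih =>
        rw [Nat.cast_succ, add_mul, one_mul, CfsgLib.SURegGen.uT_add]
        exact mul_mem ih hgM
    exact hk' ▸ hpow k
  have himg : ∀ g ∈ M, Centre hf M ((g : Mat3) *ᵥ a) := fun g hg => hca.image hg (mem_G3.1 (hM hg)).1
  have hspan : Submodule.span F (Set.range fun g : M => ((g : GL (Fin 3) F) : Mat3) *ᵥ a) = ⊤ := by
    refine (hirr _ ?_).resolve_left fun h => ha0 ?_
    · rintro _ ⟨g, hg, rfl⟩
      rw [Submodule.map_span, Submodule.span_le]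
      rintro _ ⟨_, ⟨⟨k, hk⟩, rfl⟩, rfl⟩
      refine Submodule.subset_span ⟨⟨g * k, mul_mem hg hk⟩, ?_⟩
      simp [Matrix.toLin'_apply, Matrix.mulVec_mulVec]
    · have := Submodule.subset_span (R := F) (Set.mem_range_self (f := fun g : M => ((g : GL (Fin 3) F) : Mat3) *ᵥ a) 1)
      rw [h] at this
      simpa using this
  have hex : ∀ W : Submodule F (Fin 3 → F), W ≠ ⊤ → ∃ g ∈ M, (g : Mat3) *ᵥ a ∉ W := by
    intro W hW
    by_contra! h
    exact hW (eq_top_iff.2 (hspan ▸ Submodule.span_le.2 (by rintro _ ⟨g, rfl⟩; exact h g g.2)))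
  obtain ⟨g₁, hg₁, hb⟩ := hex (Submodule.span F {a}) (fun h => by
    have := finrank_span_singleton (K := F) ha0
    rw [h, finrank_top, Module.finrank_fin_fun] at this
    omega)
  set b := (g₁ : Mat3) *ᵥ a with hbdef
  have hab : Cfsg.hermForm 3 F q a b ≠ 0 := by
    intro h
    have hbb := (himg g₁ hg₁).iso
    obtain ⟨s, hs⟩ := SLThree90.finrank_annihilator_pair ha0 hb (φ := upair hf a) (ψ := upair hf b)
      haa (orth_comm hf h) h hbb (fun h0 => by
        obtain ⟨y, hy⟩ := (hf.nondegenerate a ha0).1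
        exact hy (LinearMap.congr_fun h0 y))
    refine hb (Submodule.mem_span_singleton.2 ⟨σ s, ?_⟩)
    by_contra hne
    obtain ⟨y, hy⟩ := (hf.nondegenerate _ (sub_ne_zero.2 (Ne.symm hne))).1
    refine hy ?_
    rw [sub_right hf, smul_right hf, hf.involutive]
    exact sub_eq_zero.2 (LinearMap.congr_fun hs y)
  obtain ⟨g₂, hg₂, hd⟩ := hex (Submodule.span F {a, b}) (fun h => by
    have h3 : Module.finrank F (Submodule.span F (({a, b} : Finset (Fin 3 → F)) : Set (Fin 3 → F))) ≤ 2 :=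
      (finrank_span_finset_le_card _).trans Finset.card_le_two
    rw [Finset.coe_pair, h, finrank_top, Module.finrank_fin_fun] at h3
    omega)
  exact gu_le_of_centres_three hF hq hσ hf
    (centre_all_of_three hf (Fintype.card_fin 3) hca (himg g₁ hg₁) hab (himg g₂ hg₂) hd)

/-- Without transvections the Sylow `p`-subgroups have order at most `p`. -/
theorem not_sq_dvd (hF : Fintype.card F = q ^ 2) (hp : q.Prime) {M : Subgroup (GL (Fin 3) F)} (hM : M ≤ G3)
    (hnt : ∀ g ∈ M, ¬ SLThree90.IsTransv g) : ¬ q ^ 2 ∣ Nat.card M := by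
  classical
  intro hdvd
  haveI : Fact q.Prime := ⟨hp⟩
  obtain ⟨p, e, hp', hch, he, hqe⟩ := CfsgLib.Unitary.exists_char hF
  obtain rfl : q = p := ((Nat.prime_dvd_prime_iff_eq hp' hp).1 (hqe ▸ dvd_pow_self p he.ne')).symm
  let φ : ↥(Cfsg.SU 3 F q) →* GL (Fin 3) F :=
    (Matrix.SpecialLinearGroup.toGL).comp (Cfsg.SU 3 F q).subtype
  have hφi : Function.Injective φ := fun A B h => Subtype.ext (Subtype.ext (congrArg Units.val h))
  have hMr : M ≤ φ.range := fun g hg =>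
    ⟨⟨⟨g, (mem_G3.1 (hM hg)).2⟩, (mem_G3.1 (hM hg)).1⟩, Units.ext rfl⟩
  set H : Subgroup ↥(Cfsg.SU 3 F q) := M.comap φ with hH
  have hcard : Nat.card H = Nat.card M := by
    rw [← Subgroup.card_map_of_injective (K := H) hφi, hH, Subgroup.map_comap_eq, inf_eq_right.2 hMr]
  obtain ⟨Q, hQ⟩ := Sylow.exists_subgroup_card_pow_prime q (hcard ▸ hdvd : q ^ 2 ∣ Nat.card H)
  letI : MulAction ↥Q (CfsgLib.MinIndexPSU3.Pt q F) := MulAction.compHom _ (H.subtype.comp Q.subtype)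
  obtain ⟨L, hL⟩ := (IsPGroup.of_card hQ).nonempty_fixed_point_of_prime_not_dvd_card
    (CfsgLib.MinIndexPSU3.Pt q F) (by
      rw [CfsgLib.MinIndexPSU3.card_Pt hF]
      intro h
      exact hp.one_lt.ne' (Nat.dvd_one.1 ((Nat.dvd_add_right (dvd_pow_self q (by norm_num))).1 h)))
  obtain ⟨v, hv0, hvv, hvL⟩ := CfsgLib.MinIndexPSU3.exists_eq_pt L
  have hroot : CfsgLib.MinIndexPSU3.rootV H v = ⊥ := by
    rw [Subgroup.eq_bot_iff_forall]
    rintro g ⟨hgH, hg⟩
    by_contra hg1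
    set ψ : Fin 3 → F := fun i => v i ^ q
    have hψ : ∀ x, ψ ⬝ᵥ x = Cfsg.hermForm 3 F q x v := fun x =>
      Finset.sum_congr rfl fun i _ => mul_comm _ _
    obtain ⟨i, hi⟩ := Function.ne_iff.1 hv0
    set x₀ : Fin 3 → F := Pi.single i (ψ i)⁻¹
    have hx₀ : Cfsg.hermForm 3 F q x₀ v = 1 := by
      rw [← hψ, dotProduct_single, mul_inv_cancel₀ (pow_ne_zero q hi)]
    set G : Mat3 := ((g : Matrix.SpecialLinearGroup (Fin 3) F) : Mat3)
    set w := G *ᵥ x₀ - x₀
    have hG : G = 1 + vecMulVec w ψ := Matrix.ext_of_mulVec_single fun j => by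
      rw [add_mulVec, one_mulVec, vecMulVec_mulVec, op_smul_eq_smul]
      have h0 := hg (Pi.single j 1 - (ψ ⬝ᵥ Pi.single j 1) • x₀) (by
        rw [← hψ, dotProduct_sub, dotProduct_smul, hψ x₀, hx₀, smul_eq_mul, mul_one, sub_self])
      change G *ᵥ (Pi.single j 1 - (ψ ⬝ᵥ Pi.single j 1) • x₀) = _ at h0
      rw [mulVec_sub, mulVec_smul, sub_eq_iff_eq_add] at h0
      rw [h0]
      simp only [w]
      module
    have hw : w ≠ 0 := fun h => hg1 (Subtype.ext (Subtype.ext (by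
      show G = 1
      rw [hG, h]; simp)))
    have hψ0 : ψ ≠ 0 := fun h => pow_ne_zero q hi (congrFun h i)
    have hwψ : ψ ⬝ᵥ w = 0 := by
      have hdet : G.det = 1 := (g : Matrix.SpecialLinearGroup (Fin 3) F).2
      rw [hG, vecMulVec_eq Unit, det_one_add_replicateCol_mul_replicateRow] at hdet
      linear_combination hdet
    refine hnt (φ g) hgH ⟨w, ψ, hw, hψ0, hwψ, hG⟩
  have hQv : Q.map H.subtype ≤ CfsgLib.MinIndexPSU3.fixV H v := by
    rintro _ ⟨g, hg, rfl⟩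
    have hgL : ((g : ↥H) : ↥(Cfsg.SU 3 F q)) • L = L := hL ⟨g, hg⟩
    obtain ⟨k, hk⟩ := (IsPGroup.of_card hQ) ⟨g, hg⟩
    refine CfsgLib.MinIndexPSU3.mem_fixV_of_pow q hv0 (j := k) ?_ ?_
    · rw [CfsgLib.MinIndexPSU3.mem_lineStab_iff hv0 hvv]
      exact ⟨g.2, by rw [← hvL]; exact hgL⟩
    · exact congrArg (fun y : ↥Q => ((y : ↥H) : ↥(Cfsg.SU 3 F q))) hk
  have h1 := Nat.card_le_card_of_injective _ (Subgroup.inclusion_injective hQv)
  rw [Subgroup.card_map_of_injective H.subtype_injective, hQ] at h1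
  have h2 := h1.trans (CfsgLib.MinIndexPSU3.card_fixV_le hroot hF hv0 hvv)
  have h3 := hp.two_le
  nlinarith

/-- The multiplier of an element of order three of the similarity group is trivial. -/
theorem iso_of_similarity (hF : Fintype.card F = q ^ 2) (hp : q.Prime) (h3 : q % 3 = 2) {g : GL (Fin 3) F}
    (hg : g ∈ Cfsg.Geo.similarityGroup (Cfsg.hermForm 3 F q)) (hg3 : g ^ 3 = 1) :
    ∀ u v, Cfsg.hermForm 3 F q ((g : Mat3) *ᵥ u) ((g : Mat3) *ᵥ v) = Cfsg.hermForm 3 F q u v := by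
  obtain ⟨σ, hσ, hf⟩ := CfsgLib.LinAlg.Witt.exists_isUnitaryForm_hermForm (n := 3) hF
  obtain ⟨c, hc⟩ := hg
  set f := Cfsg.hermForm 3 F q
  set G : Mat3 := (g : Mat3)
  have hG3 : G * (G * G) = 1 := by
    have := congrArg Units.val hg3
    simpa [pow_succ, mul_assoc] using this
  obtain ⟨y, hy⟩ := (hf.nondegenerate (Pi.single 0 1) (by simp)).1
  have hc3 : (c : F) ^ 3 = 1 := by
    have hGu : ∀ x, G *ᵥ (G *ᵥ (G *ᵥ x)) = x := fun x => by
      rw [mulVec_mulVec, mulVec_mulVec, mul_assoc, hG3, one_mulVec]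
    have h := (hc _ _).trans (congrArg ((c : F) * ·) ((hc _ _).trans
      (congrArg ((c : F) * ·) (hc y (Pi.single 0 1)))))
    simp only [hGu] at h
    exact mul_left_injective₀ hy (by linear_combination -h)
  have hcσ : σ c = c := by
    have h := hc y (Pi.single 0 1)
    rw [hf.herm, hc, map_mul, ← hf.herm] at h
    exact mul_right_cancel₀ hy h
  have hc1 : (c : F) = 1 := by
    rw [hσ] at hcσ
    have hq1 : (c : F) ^ (q - 1) = 1 := mul_right_cancel₀ c.ne_zero (by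
      rw [← pow_succ, show q - 1 + 1 = q by have := hp.two_le; omega, hcσ, one_mul])
    have := pow_gcd_eq_one.2 ⟨hc3, hq1⟩
    rwa [Nat.Coprime.gcd_eq_one ((Nat.prime_three.coprime_iff_not_dvd).2 (by omega)), pow_one] at this
  intro u v
  rw [hc, hc1, one_mul]

/-- An element of determinant one normalising an absolutely irreducible group of isometries is an
isometry. -/
theorem iso_of_normalizer (hF : Fintype.card F = q ^ 2) (hp : q.Prime) (h3 : q % 3 = 2)
    {R : Subgroup (GL (Fin 3) F)} (hR : R ≤ G3)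
    (hirr : Cfsg.Geo.ActsAbsolutelyIrreducibly (Cfsg.Geo.matrixSet R)) {g : GL (Fin 3) F}
    (hg : g ∈ Cfsg.Geo.subgroupNormalizer R) (hdet : (g : Mat3).det = 1) : g ∈ G3 := by
  obtain ⟨σ, hσ, hf⟩ := CfsgLib.LinAlg.Witt.exists_isUnitaryForm_hermForm (n := 3) hF
  set f := Cfsg.hermForm 3 F q with hfdef
  let adj : Mat3 → Mat3 := fun A => Aᵀ.map σ
  have hfd : ∀ u v, f u v = u ⬝ᵥ (fun i => σ (v i)) := fun u v =>
    Finset.sum_congr rfl fun i _ => by simp only [hσ]
  have hadj : ∀ (A : Mat3) u v, f (A *ᵥ u) v = f u (adj A *ᵥ v) := by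
    intro A u v
    rw [hfd, hfd, dotProduct_comm, dotProduct_mulVec, dotProduct_comm, ← mulVec_transpose]
    congr 1
    funext i
    simp [adj, Matrix.mulVec, dotProduct, map_sum, hf.involutive]
  have huniq : ∀ A B : Mat3, (∀ u v, f u (A *ᵥ v) = f u (B *ᵥ v)) → A = B := by
    intro A B h
    refine Matrix.ext_of_mulVec_single fun i => ?_
    by_contra hne
    obtain ⟨x, hx⟩ := (hf.nondegenerate _ (sub_ne_zero.2 hne)).1
    exact hx (by rw [sub_right hf, h, sub_self])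
  obtain ⟨T, hT⟩ : ∃ T : Mat3, T = adj g * (g : Mat3) := ⟨_, rfl⟩
  have hTf : ∀ u v, f ((g : Mat3) *ᵥ u) ((g : Mat3) *ᵥ v) = f u (T *ᵥ v) := fun u v => by
    rw [hT, ← mulVec_mulVec, hadj]
  obtain ⟨c, hc⟩ := hirr.2 T (by
    rintro _ ⟨r, hr, rfl⟩
    have hr' : g * r * g⁻¹ ∈ R := (Subgroup.mem_normalizer_iff.1 hg r).1 hr
    refine huniq _ _ fun u v => ?_
    have h1 := (mem_G3.1 (hR hr)).1
    have h2 := (mem_G3.1 (hR hr')).1
    have e : ∀ x, ((g * r * g⁻¹ : GL (Fin 3) F) : Mat3) *ᵥ ((g : Mat3) *ᵥ x) = (g : Mat3) *ᵥ ((r : Mat3) *ᵥ x) := by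
      intro x
      rw [mulVec_mulVec, mulVec_mulVec, ← Units.val_mul, ← Units.val_mul, inv_mul_cancel_right]
    have e' : (r : Mat3) *ᵥ (((r⁻¹ : GL (Fin 3) F) : Mat3) *ᵥ u) = u := by
      rw [mulVec_mulVec, ← Units.val_mul, mul_inv_cancel, Units.val_one, one_mulVec]
    show f u ((T * (r : Mat3)) *ᵥ v) = f u (((r : Mat3) * T) *ᵥ v)
    rw [← mulVec_mulVec, ← mulVec_mulVec]
    calc f u (T *ᵥ ((r : Mat3) *ᵥ v))
        = f ((g : Mat3) *ᵥ ((r : Mat3) *ᵥ (((r⁻¹ : GL (Fin 3) F) : Mat3) *ᵥ u))) ((g : Mat3) *ᵥ ((r : Mat3) *ᵥ v)) := by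
          rw [e', hTf]
      _ = f (((r⁻¹ : GL (Fin 3) F) : Mat3) *ᵥ u) (T *ᵥ v) := by
          rw [← e, ← e]
          exact (h2 _ _).trans (hTf _ _)
      _ = f u ((r : Mat3) *ᵥ (T *ᵥ v)) := (h1 _ _).symm.trans (by rw [e']))
  have hκ : ∀ u v, f ((g : Mat3) *ᵥ u) ((g : Mat3) *ᵥ v) = σ c * f u v := fun u v => by
    rw [hTf, hc, smul_mulVec, one_mulVec, smul_right hf]
  have hc3 : c ^ 3 = 1 := by
    have h := congrArg Matrix.det hc
    rw [hT, det_mul, show (adj (g : Mat3)).det = σ (g : Mat3).det by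
      rw [show adj (g : Mat3) = σ.toRingHom.mapMatrix (g : Mat3)ᵀ from rfl, ← RingHom.map_det, det_transpose]; rfl,
      hdet, map_one, one_mul, det_smul, det_one, mul_one, Fintype.card_fin] at h
    exact h.symm
  refine mem_G3.2 ⟨fun u v => ?_, hdet⟩
  obtain ⟨y, hy⟩ := (hf.nondegenerate (Pi.single 0 1) (by simp)).1
  have hcc : σ (σ c) = σ c := by
    have h := hκ y (Pi.single 0 1)
    rw [hf.herm, hκ, map_mul, ← hf.herm] at h
    exact mul_right_cancel₀ hy h
  rw [hf.involutive, hσ] at hcc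
  have hc0 : c ≠ 0 := fun h => by simp [h] at hc3
  have hq1 : c ^ (q - 1) = 1 := mul_right_cancel₀ hc0 (by
    rw [← pow_succ, show q - 1 + 1 = q by have := hp.two_le; omega, one_mul, ← hcc])
  have := pow_gcd_eq_one.2 ⟨hc3, hq1⟩
  rw [Nat.Coprime.gcd_eq_one ((Nat.prime_three.coprime_iff_not_dvd).2 (by omega)), pow_one] at this
  exact (hκ u v).trans (by rw [this, map_one, one_mul])

end C6

end CfsgLib.SUThree90
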