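import Cfsg.Agent.Classical.UnitCentresStd

/-!
Dimension three: three non-collinear centres make all isotropic vectors centres, so three such root
groups generate the special unitary group.
-/

set_option autoImplicit false

namespace CfsgLib.SUThree90

open Matrix CfsgLib.TransvGL CfsgLib.UnitCentres

variable {ι : Type} [Fintype ι] [DecidableEq ι] {F : Type*} [Field F]
variable {σ : F ≃+* F} {f : (ι → F) → (ι → F) → F}

/-- Coordinates for a hyperbolic pair and a vector orthogonal to it. -/
theorem exists_coord (hf : Cfsg.Geo.IsUnitaryForm σ f) (h3 : Fintype.card ι = 3) {e f₀ u : ι → F}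
    (hee : f e e = 0) (hff : f f₀ f₀ = 0) (hef : f e f₀ = 1) (hue : f u e = 0) (huf : f u f₀ = 0)
    (huu : f u u ≠ 0) (v : ι → F) : ∃ α β γ : F, v = α • e + β • f₀ + γ • u := by
  have hfe : f f₀ e = 1 := by rw [hf.herm, hef, map_one]
  have hli : LinearIndependent F ![e, f₀, u] := by
    rw [Fintype.linearIndependent_iff]
    intro g hg
    simp only [Fin.sum_univ_three, Matrix.cons_val_zero, Matrix.cons_val_one, Matrix.head_cons,
      Matrix.cons_val_two, Matrix.tail_cons] at hg
    have p : ∀ w, g 0 * f e w + g 1 * f f₀ w + g 2 * f u w = 0 := fun w => by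
      rw [← hf.smul_left, ← hf.smul_left, ← hf.smul_left, ← hf.add_left, ← hf.add_left, hg, zero_left hf]
    have h0 := p f₀
    rw [hef, hff, huf] at h0
    have h1 := p e
    rw [hee, hfe, hue] at h1
    have h2 := p u
    rw [orth_comm hf hue, orth_comm hf huf] at h2
    intro i
    fin_cases i
    · simpa using h0
    · simpa using h1
    · simpa [huu] using h2
  have htop := hli.span_eq_top_of_card_eq_finrank (by
    rw [Module.finrank_fintype_fun_eq_card, h3, Fintype.card_fin])
  obtain ⟨c, hc⟩ := (Submodule.mem_span_range_iff_exists_fun F).1 (htop ▸ Submodule.mem_top (x := v))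
  exact ⟨c 0, c 1, c 2, by rw [← hc, Fin.sum_univ_three]; simp⟩

/-- Three non-collinear centres in dimension three make every isotropic vector a centre. -/
theorem centre_all_of_three (hf : Cfsg.Geo.IsUnitaryForm σ f) (h3 : Fintype.card ι = 3)
    {M : Subgroup (GL ι F)} {e f₀ a : ι → F} (he : Centre hf M e) (hf₀ : Centre hf M f₀)
    (hef : f e f₀ ≠ 0) (ha : Centre hf M a) (hli : a ∉ Submodule.span F {e, f₀}) :
    ∀ v, f v v = 0 → Centre hf M v := by
  -- normalise the pair
  wlog h1 : f e f₀ = 1 generalizing e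
  · refine this (e := (f e f₀)⁻¹ • e) (he.smul _) (by rw [hf.smul_left, inv_mul_cancel₀ hef]; exact one_ne_zero)
      (fun h => hli ?_) (by rw [hf.smul_left, inv_mul_cancel₀ hef])
    obtain ⟨p, r, h⟩ := Submodule.mem_span_pair.1 h
    exact Submodule.mem_span_pair.2 ⟨p * (f e f₀)⁻¹, r, by rw [← h, smul_smul]⟩
  have hee := he.iso
  have hff := hf₀.iso
  have hfe : f f₀ e = 1 := by rw [hf.herm, h1, map_one]
  set u := a - f a f₀ • e - f a e • f₀ with hu
  have hue : f u e = 0 := by
    rw [hu, sub_left hf, sub_left hf, hf.smul_left, hf.smul_left, hee, hfe]; ring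
  have huf : f u f₀ = 0 := by
    rw [hu, sub_left hf, sub_left hf, hf.smul_left, hf.smul_left, h1, hff]; ring
  have hu0 : u ≠ 0 := fun h => hli (Submodule.mem_span_pair.2 ⟨f a f₀, f a e, by
    rw [hu, sub_sub, sub_eq_zero] at h; exact h.symm⟩)
  have heu := orth_comm hf hue
  have hfu := orth_comm hf huf
  have huu : f u u ≠ 0 := fun h => by
    obtain ⟨⟨y, hy⟩, -⟩ := hf.nondegenerate u hu0
    -- `u` would be in the radical
    have hua : f u a = 0 := by
      have e1 : a = u + f a f₀ • e + f a e • f₀ := by rw [hu]; abel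
      rw [e1, add_right hf, add_right hf, smul_right hf, smul_right hf, h, hue, huf]; ring
    have hli' : LinearIndependent F ![e, f₀, a] := by
      rw [Fintype.linearIndependent_iff]
      intro g hg
      simp only [Fin.sum_univ_three, Matrix.cons_val_zero, Matrix.cons_val_one, Matrix.head_cons,
        Matrix.cons_val_two, Matrix.tail_cons] at hg
      have hg2 : g 2 = 0 := by
        by_contra hne
        refine hli (Submodule.mem_span_pair.2 ⟨-(g 0) / g 2, -(g 1) / g 2, ?_⟩)
        refine smul_right_injective _ hne ?_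
        show g 2 • _ = g 2 • a
        rw [smul_add, smul_smul, smul_smul, mul_div_cancel₀ _ hne, mul_div_cancel₀ _ hne]
        linear_combination (norm := module) -hg
      have p : ∀ w, g 0 * f e w + g 1 * f f₀ w = 0 := fun w => by
        rw [← hf.smul_left, ← hf.smul_left, ← hf.add_left]
        rw [hg2, zero_smul, add_zero] at hg
        rw [hg, zero_left hf]
      have h0 := p f₀
      rw [h1, hff] at h0
      have h1' := p e
      rw [hee, hfe] at h1'
      intro i
      fin_cases i
      · simpa using h0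
      · simpa using h1'
      · simpa using hg2
    have htop := hli'.span_eq_top_of_card_eq_finrank (by
      rw [Module.finrank_fintype_fun_eq_card, h3, Fintype.card_fin])
    obtain ⟨c, hc⟩ := (Submodule.mem_span_range_iff_exists_fun F).1 (htop ▸ Submodule.mem_top (x := y))
    refine hy ?_
    rw [← hc, Fin.sum_univ_three]
    simp [hf.add_left, hf.smul_left, orth_comm hf hua, heu, hfu]
  set ν := f u u with hν
  have hνf : σ ν = ν := norm_fixed hf u
  -- the vector with middle coordinate `x` and last coordinate `1`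
  let V : F → F → (ι → F) := fun y x => y • e + f₀ + x • u
  have hV : ∀ y x y' x', f (V y x) (V y' x') = y + σ y' + x * σ x' * ν := fun y x y' x' => by
    simp only [V, hf.add_left, add_right hf, hf.smul_left, smul_right hf, hee, hff, h1, hfe, hue, huf,
      heu, hfu, ← hν]
    ring
  let P : F → Prop := fun x => ∀ y, f (V y x) (V y x) = 0 → Centre hf M (V y x)
  have spread : ∀ y x, Centre hf M (V y x) → P x := fun y x h y' hy' => by
    have e1 : (y' - y) • e + (1 : F) • V y x = V y' x := by simp only [V]; module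
    exact e1 ▸ he.line h (by
      simp [V, add_right hf, smul_right hf, hee, h1, heu]) (by rw [e1]; exact hy')
  have hP0 : P 0 := fun y hy => by
    have e1 : y • e + (1 : F) • f₀ = V y 0 := by simp only [V]; module
    exact e1 ▸ he.line hf₀ hef (by rw [e1]; exact hy)
  have step : ∀ x₁ x₂ s, P x₁ → P x₂ → x₁ ≠ x₂ → σ s ≠ s → P ((1 - s) * x₁ + s * x₂) := by
    intro x₁ x₂ s h₁ h₂ hne hs
    obtain ⟨w, hw⟩ : ∃ w, w = (1 - s) * σ s := ⟨_, rfl⟩
    have hwd : σ w - w ≠ 0 := by
      intro h0
      rw [hw, map_mul, map_sub, map_one, hf.involutive] at h0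
      exact hs (by linear_combination -h0)
    obtain ⟨y₁, hy₁⟩ := exists_trace hf (r := -(x₁ * σ x₁ * ν)) (by
      rw [map_neg, map_mul, map_mul, hf.involutive, hνf]; ring)
    obtain ⟨D, hD⟩ : ∃ D, D = -((x₁ - x₂) * σ (x₁ - x₂) * ν) := ⟨_, rfl⟩
    have hDf : σ D = D := by rw [hD, map_neg, map_mul, map_mul, hf.involutive, hνf]; ring
    have hD0 : D ≠ 0 := hD ▸ neg_ne_zero.2 (mul_ne_zero (mul_ne_zero (sub_ne_zero.2 hne)
      ((map_ne_zero σ).2 (sub_ne_zero.2 hne))) huu)
    obtain ⟨z, hz⟩ : ∃ z, z = D * σ w / (σ w - w) := ⟨_, rfl⟩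
    have hz1 : z + σ z = D := by
      rw [hz, map_div₀, map_mul, map_sub, hDf, hf.involutive]
      rw [show w - σ w = -(σ w - w) by ring, div_neg]
      field_simp
      ring
    have hz2 : w * z + σ w * σ z = 0 := by
      rw [hz, map_div₀, map_mul, map_sub, hDf, hf.involutive]
      rw [show w - σ w = -(σ w - w) by ring, div_neg]
      field_simp
      ring
    obtain ⟨y₂, hy₂⟩ : ∃ y₂, y₂ = σ (z - y₁ - x₁ * σ x₂ * ν) := ⟨_, rfl⟩
    have i₁ : f (V y₁ x₁) (V y₁ x₁) = 0 := by rw [hV]; linear_combination hy₁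
    have i₁₂ : f (V y₁ x₁) (V y₂ x₂) = z := by rw [hV, hy₂, hf.involutive]; ring
    have i₂ : f (V y₂ x₂) (V y₂ x₂) = 0 := by
      rw [hV, hy₂, hf.involutive]
      simp only [map_sub, map_mul, hf.involutive, hνf]
      rw [hD, map_sub] at hz1
      linear_combination hz1 - hy₁
    have i₂₁ : f (V y₂ x₂) (V y₁ x₁) = σ z := by rw [hf.herm, i₁₂]
    have hz0 : z ≠ 0 := fun h => hD0 (by rw [← hz1, h, map_zero, add_zero])
    have e1 : (1 - s) • V y₁ x₁ + s • V y₂ x₂ = V ((1 - s) * y₁ + s * y₂) ((1 - s) * x₁ + s * x₂) := by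
      simp only [V]; module
    refine spread _ _ (e1 ▸ (h₁ _ i₁).line (h₂ _ i₂) (by rw [i₁₂]; exact hz0) ?_)
    simp only [hf.add_left, add_right hf, hf.smul_left, smul_right hf, i₁, i₂, i₁₂, i₂₁]
    rw [hw, map_mul, map_sub, map_one, hf.involutive] at hz2
    simp only [map_sub, map_one]
    linear_combination hz2
  obtain ⟨x₀, hx₀, hP₀⟩ : ∃ x₀, x₀ ≠ 0 ∧ P x₀ := by
    have hae : f a e ≠ 0 := fun h => by
      have e1 : a = f a f₀ • e + u := by rw [hu, h]; module
      have := ha.iso
      rw [e1] at this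
      simp only [hf.add_left, add_right hf, hf.smul_left, smul_right hf, hee, hue, heu] at this
      exact huu (by linear_combination this)
    refine ⟨(f a e)⁻¹, inv_ne_zero hae, spread ((f a e)⁻¹ * f a f₀) _ ?_⟩
    have e1 : V ((f a e)⁻¹ * f a f₀) (f a e)⁻¹ = (f a e)⁻¹ • a := by
      simp only [V, hu, smul_sub, smul_smul, inv_mul_cancel₀ hae]
      module
    exact e1 ▸ ha.smul _
  have hmul : ∀ s, σ s ≠ s → P (s * x₀) := fun s hs => by
    simpa using step 0 x₀ s hP0 hP₀ hx₀.symm hs
  have hall : ∀ x, P x := by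
    intro x
    obtain ⟨s₁, hs₁⟩ : ∃ s, σ s ≠ s := by
      by_contra h
      push Not at h
      exact hf.ne_refl (RingEquiv.ext h)
    by_cases hx : σ (x / x₀) = x / x₀
    swap
    · simpa [hx₀] using hmul _ hx
    by_cases hx0 : x = 0
    · exact hx0 ▸ hP0
    have hs0 : s₁ ≠ 0 := fun h => hs₁ (by rw [h, map_zero])
    have ht : σ (x / x₀ / s₁) ≠ x / x₀ / s₁ := fun h => hs₁ (by
      rw [map_div₀, hx] at h
      have hx1 : x / x₀ ≠ 0 := div_ne_zero hx0 hx₀
      have hσ0 : σ s₁ ≠ 0 := (map_ne_zero σ).2 hs0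
      field_simp at h
      exact h.symm)
    have := step 0 (s₁ * x₀) (x / x₀ / s₁) hP0 (hmul s₁ hs₁) (mul_ne_zero hs0 hx₀).symm ht
    have e1 : (1 - x / x₀ / s₁) * 0 + x / x₀ / s₁ * (s₁ * x₀) = x := by field_simp; ring
    rwa [e1] at this
  intro v hv
  obtain ⟨α, β, γ, rfl⟩ := exists_coord hf h3 hee hff h1 hue huf huu v
  by_cases hβ : β = 0
  · subst hβ
    have hγ : γ = 0 := by
      simp only [hf.add_left, add_right hf, hf.smul_left, smul_right hf, zero_smul, zero_left hf,
        zero_right hf, hee, hue, heu, ← hν] at hv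
      have h' : γ * σ γ * ν = 0 := by linear_combination hv
      simpa [huu] using h'
    subst hγ
    simpa using he.smul α
  · have e1 : α • e + β • f₀ + γ • u = β • V (α / β) (γ / β) := by
      simp only [V, smul_add, smul_smul, mul_div_cancel₀ _ hβ]
    rw [e1] at hv ⊢
    rw [hf.smul_left, smul_right hf] at hv
    exact (hall _ _ (by simpa [hβ] using hv)).smul β

/-- All isotropic centres give all of `SU₃(q)`. -/
theorem gu_le_of_centres_three {F : Type*} [Field F] [Fintype F] {q : ℕ}
    (hF : Fintype.card F = q ^ 2) (hq : 3 ≤ q) {σ : F ≃+* F} (hσ : ∀ x, σ x = x ^ q)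
    (hf : Cfsg.Geo.IsUnitaryForm σ (Cfsg.hermForm 3 F q)) {M : Subgroup (GL (Fin 3) F)}
    (h : ∀ v, Cfsg.hermForm 3 F q v v = 0 → Centre hf M v) :
    Cfsg.GU 3 F q ⊓ Cfsg.Geo.specialLinear (Fin 3) F ≤ M := by
  intro g hg
  have hdet : (g : Matrix (Fin 3) (Fin 3) F).det = 1 := congrArg Units.val hg.2
  let A : ↥(Cfsg.SU 3 F q) := ⟨⟨(g : Matrix (Fin 3) (Fin 3) F), hdet⟩, hg.1⟩
  let toG : ↥(Cfsg.SU 3 F q) →* GL (Fin 3) F :=
    (Cfsg.GU 3 F q).subtype.comp CfsgLib.Unitary.suToGU
  have hA : A ∈ M.comap toG := by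
    have h32 : ¬ (3 = 3 ∧ q = 2) := fun h' => by omega
    have htop : A ∈ CfsgLib.Unitary.transvGroup 3 F q :=
      (CfsgLib.Unitary.transvGroup_eq_top hF h32).symm ▸ Subgroup.mem_top A
    refine (Subgroup.closure_le (M.comap toG)).2 ?_ htop
    rintro B ⟨v, c, hv, hB⟩
    obtain ⟨c', hc', rfl, -⟩ := CfsgLib.Unitary.eq_transvSU_of_matrix_eq hF hv hB
    obtain ⟨hv', hM⟩ := h v hv
    show toG _ ∈ M
    convert hM c' (by rw [hσ]; exact hc') using 1
    exact ext_mulVec fun x => (CfsgLib.Unitary.sv_transvSU hF hv hc' x).trans (uT_mulVec hf hv' c' x).symm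
  have : toG A = g := Units.ext rfl
  exact this ▸ hA

end CfsgLib.SUThree90
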