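import Cfsg.Agent.SUThree90.Generate
import Cfsg.Agent.S5653

/-!
Dimension three: the stabilisers of isotropic and of non-degenerate points are maximal in `SU₃(q)`.
-/

set_option autoImplicit false

namespace CfsgLib.SUThree90

open Matrix CfsgLib.TransvGL CfsgLib.UnitCentres

section

variable {ι : Type} [Fintype ι] [DecidableEq ι] {F : Type*} [Field F]
variable {σ : F ≃+* F} {f : (ι → F) → (ι → F) → F}

/-- An orthogonal basis can be completed. -/
theorem exists_third (hf : Cfsg.Geo.IsUnitaryForm σ f) (h3 : Fintype.card ι = 3) {w u : ι → F}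
    (hw : f w w ≠ 0) (hu : f u u ≠ 0) (huw : f u w = 0) :
    ∃ x, f x w = 0 ∧ f x u = 0 ∧ f x x ≠ 0 := by
  have hwu := orth_comm hf huw
  obtain ⟨d, hd⟩ : ∃ d, d ∉ Submodule.span F ({w, u} : Set (ι → F)) := by
    by_contra h
    push Not at h
    classical
    have h2 : Submodule.span F ({w, u} : Set (ι → F)) = ⊤ := Submodule.eq_top_iff'.2 h
    have h4 := finrank_span_finset_le_card (R := F) ({w, u} : Finset (ι → F))
    rw [Set.finrank, Finset.coe_pair, h2, finrank_top, Module.finrank_fintype_fun_eq_card, h3] at h4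
    have := Finset.card_le_two (a := w) (b := u)
    omega
  obtain ⟨x, hx⟩ : ∃ x, x = d - (f d w / f w w) • w - (f d u / f u u) • u := ⟨_, rfl⟩
  have hxw : f x w = 0 := by
    rw [hx, sub_left hf, sub_left hf, hf.smul_left, hf.smul_left, huw, div_mul_cancel₀ _ hw]; ring
  have hxu : f x u = 0 := by
    rw [hx, sub_left hf, sub_left hf, hf.smul_left, hf.smul_left, hwu, div_mul_cancel₀ _ hu]; ring
  refine ⟨x, hxw, hxu, fun hxx => ?_⟩
  have hx0 : x ≠ 0 := fun h => hd (Submodule.mem_span_pair.2 ⟨f d w / f w w, f d u / f u u, by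
    rw [hx, sub_sub, sub_eq_zero] at h; exact h.symm⟩)
  have hli : LinearIndependent F ![w, u, x] := by
    rw [Fintype.linearIndependent_iff]
    intro g hg
    simp only [Fin.sum_univ_three, Matrix.cons_val_zero, Matrix.cons_val_one, Matrix.head_cons,
      Matrix.cons_val_two, Matrix.tail_cons] at hg
    have p : ∀ z, g 0 * f w z + g 1 * f u z + g 2 * f x z = 0 := fun z => by
      rw [← hf.smul_left, ← hf.smul_left, ← hf.smul_left, ← hf.add_left, ← hf.add_left, hg, zero_left hf]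
    have h0 := p w
    rw [huw, hxw] at h0
    have h1 := p u
    rw [hwu, hxu] at h1
    have g0 : g 0 = 0 := by simpa [hw] using h0
    have g1 : g 1 = 0 := by simpa [hu] using h1
    rw [g0, g1, zero_smul, zero_smul, zero_add, zero_add] at hg
    intro i
    fin_cases i
    · simpa using g0
    · simpa using g1
    · simpa using (smul_eq_zero.1 hg).resolve_right hx0
  have htop := hli.span_eq_top_of_card_eq_finrank (by
    rw [Module.finrank_fintype_fun_eq_card, h3, Fintype.card_fin])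
  obtain ⟨⟨y, hy⟩, -⟩ := hf.nondegenerate x hx0
  obtain ⟨c, hc⟩ := (Submodule.mem_span_range_iff_exists_fun F).1 (htop ▸ Submodule.mem_top (x := y))
  refine hy ?_
  rw [← hc, Fin.sum_univ_three]
  simp [hf.add_left, hf.smul_left, orth_comm hf hxw, orth_comm hf hxu, hxx]

/-- A hyperbolic pair orthogonal to a non-isotropic vector. -/
theorem exists_pair_perp [Finite F] (hf : Cfsg.Geo.IsUnitaryForm σ f) (h3 : Fintype.card ι = 3)
    {w : ι → F} (hw : f w w ≠ 0) :
    ∃ e e', f e w = 0 ∧ f e' w = 0 ∧ f e e = 0 ∧ f e' e' = 0 ∧ f e e' = 1 := by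
  obtain ⟨u, hu, huu⟩ := exists_aniso_orth hf {w} (by rw [Finset.card_singleton, h3]; norm_num)
  have huw : f u w = 0 := hu w (Finset.mem_singleton_self w)
  obtain ⟨x, hxw, hxu, hxx⟩ := exists_third hf h3 hw huu huw
  obtain ⟨l, hl⟩ := exists_norm hf (r := -(f u u / f x x))
    (by rw [map_neg, map_div₀, norm_fixed hf, norm_fixed hf])
  have hee : f (u + l • x) (u + l • x) = 0 := by
    rw [norm_add_smul hf, hxu, orth_comm hf hxu, hl, neg_mul, div_mul_cancel₀ _ hxx]; ring
  have heu : f (u + l • x) u = f u u := by rw [hf.add_left, hf.smul_left, hxu, mul_zero, add_zero]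
  obtain ⟨t, ht⟩ := exists_isotropic_shift hf hee (d := u) (by rw [heu]; exact huu)
  set e' := u + t • (u + l • x) with he'
  have hee' : f (u + l • x) e' = f u u := by rw [he', add_right hf, smul_right hf, hee, heu, mul_zero, add_zero]
  refine ⟨(f u u)⁻¹ • (u + l • x), e', ?_, ?_, ?_, ht, ?_⟩
  · rw [hf.smul_left, hf.add_left, hf.smul_left, huw, hxw, mul_zero, add_zero, mul_zero]
  · rw [he', hf.add_left, hf.smul_left, hf.add_left, hf.smul_left, huw, hxw]; ring
  · rw [hf.smul_left, smul_right hf, hee, mul_zero, mul_zero]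
  · rw [hf.smul_left, hee', inv_mul_cancel₀ huu]

/-- A group containing the stabiliser of a non-isotropic point and an element moving it has all
isotropic vectors as centres. -/
theorem centre_all_of_point [Finite F] (hf : Cfsg.Geo.IsUnitaryForm σ f) (h3 : Fintype.card ι = 3)
    {M : Subgroup (GL ι F)} {w : ι → F} (hw : f w w ≠ 0)
    (hstab : ∀ g : GL ι F, Iso f g → g ∈ Cfsg.Geo.specialLinear ι F →
      g ∈ Cfsg.Geo.subspaceStabilizer (Submodule.span F {w}) → g ∈ M)
    {g : GL ι F} (hgM : g ∈ M) (hg : Iso f g)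
    (hgw : (g : Matrix ι ι F) *ᵥ w ∉ Submodule.span F {w}) :
    ∀ v, f v v = 0 → Centre hf M v := by
  obtain ⟨e, e', hew, hew', hee, hee', h1⟩ := exists_pair_perp hf h3 hw
  have hcen : ∀ v, f v v = 0 → f v w = 0 → Centre hf M v := fun v hv hvw => ⟨hv, fun c hc =>
    hstab _ (uT_iso hf hv hc) (uT_mem_specialLinear hf hv c)
      (uT_mem_subspaceStabilizer hf hv (Or.inr fun x hx => by
        obtain ⟨k, rfl⟩ := Submodule.mem_span_singleton.1 hx
        rw [hf.smul_left, orth_comm hf hvw, mul_zero]) c)⟩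
  have key : ∀ x, f x x = 0 → f x w = 0 → f ((g : Matrix ι ι F) *ᵥ x) w ≠ 0 →
      ∀ v, f v v = 0 → Centre hf M v := fun x hxx hxw hgx =>
    centre_all_of_three hf h3 (hcen e hee hew) (hcen e' hee' hew') (by rw [h1]; exact one_ne_zero)
      ((hcen x hxx hxw).image hgM hg) fun h => hgx (by
        obtain ⟨p, r, h⟩ := Submodule.mem_span_pair.1 h
        rw [← h, hf.add_left, hf.smul_left, hf.smul_left, hew, hew']; ring)
  by_cases k1 : f ((g : Matrix ι ι F) *ᵥ e) w = 0
  swap
  · exact key e hee hew k1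
  by_cases k2 : f ((g : Matrix ι ι F) *ᵥ e') w = 0
  swap
  · exact key e' hee' hew' k2
  exfalso
  obtain ⟨α, β, γ, hv⟩ := exists_coord hf h3 hee hee' h1 (orth_comm hf hew) (orth_comm hf hew') hw
    (((g⁻¹ : GL ι F) : Matrix ι ι F) *ᵥ w)
  have hh : ∀ x, f ((g : Matrix ι ι F) *ᵥ x) w = f x (((g⁻¹ : GL ι F) : Matrix ι ι F) *ᵥ w) := fun x => by
    rw [← hg x, mulVec_inv_mulVec]
  have he'e : f e' e = 1 := by rw [hf.herm, h1, map_one]
  rw [hh, hv] at k1 k2
  simp only [add_right hf, smul_right hf, hee, h1, hew] at k1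
  simp only [add_right hf, smul_right hf, hee', he'e, hew'] at k2
  have hβ : β = 0 := (map_eq_zero σ).1 (by linear_combination k1)
  have hα : α = 0 := (map_eq_zero σ).1 (by linear_combination k2)
  rw [hα, hβ, zero_smul, zero_smul, zero_add, zero_add] at hv
  have hγ : γ ≠ 0 := fun h => hw (by
    have e1 := congrArg (fun z => (g : Matrix ι ι F) *ᵥ z) hv
    simp only [mulVec_inv_mulVec, h, zero_smul, mulVec_zero] at e1
    rw [e1, zero_left hf])
  refine hgw (Submodule.mem_span_singleton.2 ⟨γ⁻¹, ?_⟩)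
  have e1 := congrArg (fun z => (g : Matrix ι ι F) *ᵥ z) hv
  simp only [mulVec_inv_mulVec, mulVec_smul] at e1
  conv_lhs => rw [e1]
  exact inv_smul_smul₀ hγ _

end

open Cfsg

/-- The stabiliser of an isotropic point is maximal in `SU₃(q)`. -/
theorem isotropic_maximal {F : Type*} [Field F] [Fintype F] (q : ℕ) (hF : Fintype.card F = q ^ 2) (hq : 3 ≤ q) :
    ∀ W : Submodule F (Fin 3 → F), W ≠ ⊥ → Cfsg.Geo.IsTotallySingularFor (Cfsg.hermForm 3 F q) W → Cfsg.Geo.IsMaximalIn (Cfsg.GU 3 F q ⊓ Cfsg.Geo.specialLinear (Fin 3) F) (Cfsg.Geo.subspaceStabilizer W ⊓ (Cfsg.GU 3 F q ⊓ Cfsg.Geo.specialLinear (Fin 3) F)) := by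
  intro W hW0 hW
  obtain ⟨σ, hσ, hf⟩ := CfsgLib.LinAlg.Witt.exists_isUnitaryForm_hermForm (n := 3) hF
  obtain ⟨w, hw, hw0⟩ := W.ne_bot_iff.1 hW0
  obtain ⟨d, hd⟩ := (hf.nondegenerate w hw0).2
  obtain ⟨c, hc0, hc⟩ := exists_traceZero hf
  obtain ⟨t, ht⟩ := exists_isotropic_shift hf (hW w hw w hw) hd
  have hwz : hermForm 3 F q w (d + t • w) ≠ 0 := by
    rw [add_right hf, smul_right hf, hW w hw w hw, mul_zero, add_zero]
    exact hd
  have hzW : d + t • w ∉ W := fun h => hwz (hW w hw _ h)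
  refine ⟨lt_of_le_not_ge inf_le_right fun h => ?_, fun M hHM hMK => ?_⟩
  · have h1 := mem_subspaceStabilizer.1 (h (mem_special.2
      ⟨uT_iso hf ht hc, uT_mem_specialLinear hf ht c⟩)).1 w
    have h2 := h1.1 hw
    rw [uT_mulVec, W.add_mem_iff_right hw, W.smul_mem_iff (mul_ne_zero hc0 hwz)] at h2
    exact hzW h2
  · by_cases hle : M ≤ Geo.subspaceStabilizer W ⊓ (GU 3 F q ⊓ Geo.specialLinear (Fin 3) F)
    · exact Or.inl (le_antisymm hle hHM)
    obtain ⟨g, hgM, hgH⟩ := SetLike.not_le_iff_exists.1 hle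
    refine Or.inr (le_antisymm hMK (gu_le_of_centres_three hF hq hσ hf ?_))
    refine Cfsg.Agent.S5653.centre_all hf (fun v hv hvW => ⟨hv, fun c hc => hHM ⟨?_, ?_⟩⟩) hW hgM
      (mem_special.1 (hMK hgM)).1 (fun hs => hgH ⟨hs, hMK hgM⟩)
      fun h hiso hsl hst => hHM ⟨hst, mem_special.2 ⟨hiso, hsl⟩⟩
    · exact uT_mem_subspaceStabilizer hf hv (Or.inr hvW) c
    · exact mem_special.2 ⟨uT_iso hf hv hc, uT_mem_specialLinear hf hv c⟩

/-- The stabiliser of a non-degenerate point is maximal in `SU₃(q)`. -/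
theorem nondeg_maximal {F : Type*} [Field F] [Fintype F] (q : ℕ) (hF : Fintype.card F = q ^ 2) (hq : 3 ≤ q) :
    ∀ W : Submodule F (Fin 3 → F), W ≠ ⊥ → Cfsg.Geo.IsNondegenerateOn (Cfsg.hermForm 3 F q) W → 2 * Module.finrank F W < 3 → Cfsg.Geo.IsMaximalIn (Cfsg.GU 3 F q ⊓ Cfsg.Geo.specialLinear (Fin 3) F) (Cfsg.Geo.subspaceStabilizer W ⊓ (Cfsg.GU 3 F q ⊓ Cfsg.Geo.specialLinear (Fin 3) F)) := by
  intro W hW0 hW hdim
  obtain ⟨σ, hσ, hf⟩ := CfsgLib.LinAlg.Witt.exists_isUnitaryForm_hermForm (n := 3) hF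
  obtain ⟨w, hw, hw0⟩ := W.ne_bot_iff.1 hW0
  have hd : Module.finrank F W = 1 := by
    have := Submodule.one_le_finrank_iff.2 hW0
    omega
  have hspan : W = Submodule.span F {w} :=
    (Submodule.eq_of_le_of_finrank_eq ((Submodule.span_singleton_le_iff_mem w W).2 hw)
      (by rw [finrank_span_singleton hw0, hd])).symm
  have hww : hermForm 3 F q w w ≠ 0 := by
    intro h
    obtain ⟨y, hy, hy'⟩ := (hW w hw hw0).2
    rw [hspan] at hy
    obtain ⟨k, rfl⟩ := Submodule.mem_span_singleton.1 hy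
    exact hy' (by rw [smul_right hf, h, mul_zero])
  obtain ⟨e, e', hew, hew', hee, hee', h1⟩ := exists_pair_perp hf (Fintype.card_fin 3) hww
  obtain ⟨c, hc0, hc⟩ := exists_traceZero hf
  obtain ⟨y, hy⟩ := exists_trace hf (r := -hermForm 3 F q w w) (by rw [map_neg, norm_fixed hf])
  have he'e : hermForm 3 F q e' e = 1 := by rw [hf.herm, h1, map_one]
  have hz : hermForm 3 F q (y • e + e' + w) (y • e + e' + w) = 0 := by
    simp only [hf.add_left, add_right hf, hf.smul_left, smul_right hf, hee, hee', h1, he'e, hew, hew',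
      orth_comm hf hew, orth_comm hf hew']
    linear_combination hy
  have hwz : hermForm 3 F q w (y • e + e' + w) = hermForm 3 F q w w := by
    simp only [add_right hf, smul_right hf, orth_comm hf hew, orth_comm hf hew']
    ring
  refine ⟨lt_of_le_not_ge inf_le_right fun h => ?_, fun M hHM hMK => ?_⟩
  · have h2 := (mem_subspaceStabilizer.1 (h (mem_special.2
      ⟨uT_iso hf hz hc, uT_mem_specialLinear hf hz c⟩)).1 w).1 hw
    rw [uT_mulVec, W.add_mem_iff_right hw, W.smul_mem_iff (mul_ne_zero hc0 (by rw [hwz]; exact hww)),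
      hspan] at h2
    obtain ⟨k, hk⟩ := Submodule.mem_span_singleton.1 h2
    have h3 := congrArg (fun x => hermForm 3 F q x e) hk
    simp only [hf.add_left, hf.smul_left, hee, he'e, orth_comm hf hew] at h3
    exact one_ne_zero (by linear_combination -h3 : (1 : F) = 0)
  · by_cases hle : M ≤ Geo.subspaceStabilizer W ⊓ (GU 3 F q ⊓ Geo.specialLinear (Fin 3) F)
    · exact Or.inl (le_antisymm hle hHM)
    obtain ⟨g, hgM, hgH⟩ := SetLike.not_le_iff_exists.1 hle
    refine Or.inr (le_antisymm hMK (gu_le_of_centres_three hF hq hσ hf ?_))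
    refine centre_all_of_point hf (Fintype.card_fin 3) hww
      (fun h hiso hsl hst => hHM ⟨hspan ▸ hst, mem_special.2 ⟨hiso, hsl⟩⟩) hgM
      (mem_special.1 (hMK hgM)).1 fun hgw => hgH ⟨?_, hMK hgM⟩
    refine hspan ▸ mem_subspaceStabilizer_of_maps fun x hx => ?_
    obtain ⟨k, rfl⟩ := Submodule.mem_span_singleton.1 hx
    rw [mulVec_smul]
    exact Submodule.smul_mem _ _ hgw

end CfsgLib.SUThree90
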