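import Cfsg.Agent.SUThree90.MonoFix
import Cfsg.Agent.SUThree90.Point

/-!
Dimension three: the monomial subgroup of `SU₃(q)`, `q ≠ 5`, is maximal.
-/

set_option autoImplicit false
set_option linter.unusedSectionVars false

namespace CfsgLib.SUThree90.Mono

open Matrix CfsgLib.UnitMono CfsgLib.UnitMono91 CfsgLib.TransvGL CfsgLib.MonoBasics CfsgLib.UnitCentres
  CfsgLib.PseudoRefl CfsgLib.CircleSums

section
variable {ι : Type} [Fintype ι] [DecidableEq ι] {F : Type*} [Field F] [Fintype F]
variable {q : ℕ} {σ : F ≃+* F} {M : Subgroup (GL ι F)}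

local notation "ax" i:max => (Pi.single i (1 : F) : ι → F)

theorem ratio_cir {x y : F} (hx : x ≠ 0) (h : y * σ y = x * σ x) : Cir σ (y / x) := by
  have hx' : σ x ≠ 0 := (map_ne_zero σ).2 hx
  show y / x * σ (y / x) = 1
  rw [map_div₀, div_mul_div_comm, h, div_self (mul_ne_zero hx hx')]

/-- A non-monomial element fixing the axis `a` gives the whole stabiliser of that axis. -/
theorem stab_mem (hO : Over q σ M) (h3 : Fintype.card ι = 3) (hq : 3 ≤ q) {a : ι} {h : GL ι F}
    (hh : h ∈ M) (hnm : ¬ IsMono h) (hha : (h : Matrix ι ι F) *ᵥ ax a ∈ Submodule.span F {ax a})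
    {k : GL ι F} (hk : Iso (sf σ) k) (hks : k ∈ Cfsg.Geo.specialLinear ι F)
    (hka : (k : Matrix ι ι F) *ᵥ ax a ∈ Submodule.span F {ax a}) : k ∈ M := by
  classical
  by_contra hkM
  have hf := hO.std.isUnitary (ι := ι)
  obtain ⟨i, j, hia, hja, hij, huniv⟩ := exists_two_others h3 a
  have hzero : ∀ {g : GL ι F}, Iso (sf σ) g → (g : Matrix ι ι F) *ᵥ ax a ∈ Submodule.span F {ax a} →
      ∀ x, x a = 0 → ((g : Matrix ι ι F) *ᵥ x) a = 0 := by
    intro g hg hga x hxa
    obtain ⟨c, hc⟩ := Submodule.mem_span_singleton.1 hga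
    have hc0 : c ≠ 0 := fun e => MonoBasics.mulVec_ne_zero g (ax_ne_zero (F := F) a) (by rw [← hc, e, zero_smul])
    have h1 := hg x (ax a)
    rw [← hc, smul_right hf, sf_ax_right, sf_ax_right, hxa] at h1
    exact (mul_eq_zero.1 h1).resolve_left ((map_ne_zero σ).2 hc0)
  set Ω := Finset.univ.filter fun u : ι → F => u a = 0 ∧ sf σ u u = 1 with hΩ
  set O := Ω.filter fun u => ∃ g ∈ M, (g : Matrix ι ι F) *ᵥ ax a ∈ Submodule.span F {ax a} ∧
    (g : Matrix ι ι F) *ᵥ ax i = u with hOdef
  have hmem : ∀ {g : GL ι F}, g ∈ M → (g : Matrix ι ι F) *ᵥ ax a ∈ Submodule.span F {ax a} →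
      (g : Matrix ι ι F) *ᵥ ax i ∈ O := fun {g} hg hga => Finset.mem_filter.2 ⟨Finset.mem_filter.2
    ⟨Finset.mem_univ _, hzero (hO.iso g hg) hga _ (Pi.single_eq_of_ne hia.symm _),
      by rw [hO.iso g hg, sf_ax_self]⟩, g, hg, hga, rfl⟩
  have hN : ∀ u ∈ Ω, u j * σ (u j) = 1 - u i * σ (u i) := by
    intro u hu
    obtain ⟨-, hua, huu⟩ := Finset.mem_filter.1 hu
    rw [sf, Fintype.sum_eq_add i j hij fun p hp => by
      rcases huniv p with rfl | rfl | rfl
      · exact absurd rfl hp.1
      · exact absurd rfl hp.2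
      · rw [hua, zero_mul]] at huu
    linear_combination huu
  -- the orbit is a union of norm classes
  set A := O.image fun u => u i * σ (u i) with hA
  have hclass : ∀ u ∈ Ω, u i * σ (u i) ∈ A → u ∈ O := by
    intro u hu hb
    obtain ⟨u', hu', hN'⟩ := Finset.mem_image.1 hb
    obtain ⟨hu'Ω, g, hg, hga, hgi⟩ := Finset.mem_filter.1 hu'
    have hNj : u' j * σ (u' j) = u j * σ (u j) := by rw [hN u hu, hN u' hu'Ω, hN']
    let t : ι → Fˣ := fun p => if hp : u' p ≠ 0 ∧ u p * σ (u p) = u' p * σ (u' p) then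
      Units.mk0 (u p / u' p) (ratio_cir hp.1 hp.2).ne_zero else 1
    have ht : ∀ p, Cir σ (t p : F) := fun p => by
      simp only [t]; split_ifs with hp
      · exact ratio_cir hp.1 hp.2
      · exact cir_one σ
    obtain ⟨d, hd, ⟨c, -, hda⟩, hdi⟩ := hO.dg_fix91 t ht a
    have hdga : ((d * g : GL ι F) : Matrix ι ι F) *ᵥ ax a ∈ Submodule.span F {ax a} := by
      obtain ⟨c', hc'⟩ := Submodule.mem_span_singleton.1 hga
      rw [Units.val_mul, ← mulVec_mulVec, ← hc', mulVec_smul, hda]
      exact Submodule.smul_mem _ _ (Submodule.smul_mem _ _ (Submodule.mem_span_singleton_self _))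
    have e : ((d * g : GL ι F) : Matrix ι ι F) *ᵥ ax i = u := funext fun p => by
      rw [Units.val_mul, ← mulVec_mulVec, hgi]
      by_cases hpa : p = a
      · subst hpa
        rw [hzero (hO.iso d hd) (by rw [hda]; exact Submodule.smul_mem _ _ (Submodule.mem_span_singleton_self _))
          _ (Finset.mem_filter.1 hu'Ω).2.1, (Finset.mem_filter.1 hu).2.1]
      · have hNp : u p * σ (u p) = u' p * σ (u' p) := by
          rcases huniv p with rfl | rfl | rfl
          exacts [hN'.symm, hNj.symm, absurd rfl hpa]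
        rw [hdi _ p hpa]
        by_cases h0 : u' p = 0
        · rw [h0, mul_zero]
          rw [h0, zero_mul, mul_eq_zero] at hNp
          rcases hNp with h | h
          · exact h.symm
          · exact ((map_eq_zero σ).1 h).symm
        · simp [t, h0, hNp]
    exact e ▸ hmem (M.mul_mem hd hg) hdga
  have h0A : (0 : F) ∈ A := by
    obtain ⟨g, hg, s, -, hgj⟩ := hO.exists_perm (Equiv.swap i j) a
    have h1 := hmem hg (by
      rw [hgj, if_pos rfl, Equiv.swap_apply_of_ne_of_ne hia.symm hja.symm]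
      exact Submodule.smul_mem _ _ (Submodule.mem_span_singleton_self _))
    rw [hgj, if_neg hia, one_smul, Equiv.swap_apply_left] at h1
    exact Finset.mem_image.2 ⟨_, h1, by simp [hij]⟩
  have haxi : ax i ∈ O := by
    have := hmem M.one_mem (by
      rw [Units.val_one, one_mulVec]; exact Submodule.mem_span_singleton_self _)
    rwa [Units.val_one, one_mulVec] at this
  have h1A : (1 : F) ∈ A := Finset.mem_image.2 ⟨_, haxi, by simp⟩
  -- many norm classes
  set K := Finset.univ.filter fun z : F => σ z = z with hK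
  set B := (K.erase 0).erase 1 with hB
  have hBc : B.card = q - 2 := by
    rw [hB, Finset.card_erase_of_mem (by simp [hK]), Finset.card_erase_of_mem (by simp [hK]),
      card_fixed hO.std.card hO.std.frob]
    omega
  have hmany : 2 * (B.filter fun b => b ∉ A).card ≤ q - 2 := by
    obtain ⟨x, hax, hxa⟩ : ∃ x, x ≠ a ∧ ∀ r, (h : Matrix ι ι F) *ᵥ ax x ∉ Submodule.span F {ax r} := by
      by_contra hc
      push Not at hc
      refine hnm fun x => ?_
      by_cases hx : x = a
      · exact ⟨a, hx ▸ hha⟩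
      · exact hc x hx
    obtain ⟨c, hc⟩ := Submodule.mem_span_singleton.1 hha
    have hcc : Cir σ c := by
      have := hO.iso h hh (ax a) (ax a)
      rwa [← hc, hf.smul_left, smul_right hf, sf_ax_self, mul_one] at this
    obtain ⟨hu₁, hu₁a, hP⟩ := (UnitMono91.Pc.axis hO hax).image hO hh hcc hc.symm
    set u₀ := (h : Matrix ι ι F) *ᵥ ax x with hu₀
    have hu₀Ω : u₀ ∈ Ω := Finset.mem_filter.2 ⟨Finset.mem_univ _, hu₁a, hu₁⟩
    have hnax : ∀ r, u₀ r ≠ 0 → ∃ p, p ≠ r ∧ p ≠ a ∧ u₀ p ≠ 0 := by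
      intro r hr
      by_contra hc'
      push Not at hc'
      refine hxa r (mem_axis_iff.2 fun p hp => ?_)
      by_cases hpa : p = a
      · rw [hpa]; exact hu₁a
      · exact hc' p hp hpa
    obtain ⟨r, hr⟩ := Function.ne_iff.1 (MonoBasics.mulVec_ne_zero h (ax_ne_zero (F := F) x))
    obtain ⟨p, hpr, hpa, hp⟩ := hnax r hr
    obtain ⟨hui, huj⟩ : u₀ i ≠ 0 ∧ u₀ j ≠ 0 := by
      have hra : r ≠ a := fun e => hr (e ▸ hu₁a)
      rcases huniv r with rfl | rfl | rfl <;> rcases huniv p with rfl | rfl | rfl <;>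
        first | exact absurd rfl hra | exact absurd rfl hpa | exact absurd rfl hpr | exact ⟨hr, hp⟩ | exact ⟨hp, hr⟩
    set β := u₀ i * σ (u₀ i) with hβ
    have hσβ : σ β = β := norm_fixed hO.std.card hO.std.frob _
    have hσi : σ (u₀ i) ≠ 0 := (map_ne_zero σ).2 hui
    have hσj : σ (u₀ j) ≠ 0 := (map_ne_zero σ).2 huj
    have hββ : β * (1 - β) ≠ 0 := mul_ne_zero (mul_ne_zero hui hσi) (by
      rw [hβ, ← hN u₀ hu₀Ω]; exact mul_ne_zero huj hσj)
    let φ : F → F := fun ε => 1 + ((ε - 1) + (ε⁻¹ - 1)) * (β * (1 - β))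
    set C := (Finset.univ.filter fun z : F => Cir σ z).erase 1 with hC
    have hφA : ∀ ε ∈ C, φ ε ∈ A := by
      intro ε hε
      obtain ⟨-, hεc⟩ := Finset.mem_erase.1 hε
      have hεc : Cir σ ε := (Finset.mem_filter.1 hεc).2
      set g := uRefl hO.std hu₁ (Units.mk0 ε hεc.ne_zero) *
        uRefl hO.std (sf_ax_self (σ := σ) a) (Units.mk0 ε hεc.ne_zero)⁻¹ with hg
      have hgM : g ∈ M := hP _ hεc
      have hga : (g : Matrix ι ι F) *ᵥ ax a ∈ Submodule.span F {ax a} := by
        rw [hg, Units.val_mul, ← mulVec_mulVec, uRefl_mulVec hO.std (sf_ax_self a), sf_ax_self, mul_one,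
          mulVec_add, mulVec_smul, uRefl_mulVec, sf_ax_left, hu₁a, map_zero, mul_zero, zero_smul, add_zero]
        exact Submodule.add_mem _ (Submodule.mem_span_singleton_self _)
          (Submodule.smul_mem _ _ (Submodule.mem_span_singleton_self _))
      have hgi : (g : Matrix ι ι F) *ᵥ ax i = ax i + ((ε - 1) * σ (u₀ i)) • u₀ := by
        rw [hg, Units.val_mul, ← mulVec_mulVec, uRefl_mulVec hO.std (sf_ax_self a), sf_ax_right,
          Pi.single_eq_of_ne hia.symm, mul_zero, zero_smul, add_zero, uRefl_mulVec, sf_ax_left,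
          Units.val_mk0]
      refine Finset.mem_image.2 ⟨_, hmem hgM hga, ?_⟩
      rw [hgi]
      simp only [Pi.add_apply, Pi.smul_apply, Pi.single_eq_same, smul_eq_mul, map_add, map_mul, map_sub,
        map_one, hεc.conj_eq, hO.std.invol, φ, hβ]
      have h0 := hεc.ne_zero
      field_simp
      ring
    have hC' : q ≤ 2 * (C.image φ).card := by
      refine le_trans ?_ (Finset.card_le_mul_card_image_of_maps_to
        (fun z hz => Finset.mem_image_of_mem _ hz) 2 fun t _ => ?_)
      · rw [hC, Finset.card_erase_of_mem (Finset.mem_filter.2 ⟨Finset.mem_univ _, cir_one σ⟩),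
          card_cir hO.std.card hO.std.frob]
        omega
      rcases Finset.eq_empty_or_nonempty (C.filter fun z => φ z = t) with he | ⟨z₀, hz₀⟩
      · rw [he]; simp
      refine (Finset.card_le_card (t := {z₀, z₀⁻¹}) fun z hz => ?_).trans Finset.card_le_two
      obtain ⟨hzC, hzt⟩ := Finset.mem_filter.1 hz
      obtain ⟨hz₀C, hz₀t⟩ := Finset.mem_filter.1 hz₀
      have n1 : z ≠ 0 := ((Finset.mem_filter.1 (Finset.mem_erase.1 hzC).2).2).ne_zero
      have n2 : z₀ ≠ 0 := ((Finset.mem_filter.1 (Finset.mem_erase.1 hz₀C).2).2).ne_zero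
      have e := mul_right_cancel₀ hββ (add_left_cancel (hzt.trans hz₀t.symm))
      field_simp at e
      have e' : (z - z₀) * (z * z₀ - 1) = 0 := by linear_combination e
      simp only [Finset.mem_insert, Finset.mem_singleton]
      rcases mul_eq_zero.1 e' with h | h
      · exact Or.inl (sub_eq_zero.1 h)
      · exact Or.inr (eq_inv_of_mul_eq_one_left (sub_eq_zero.1 h))
    have hsub : (C.image φ).erase 0 ⊆ B.filter fun b => b ∈ A := by
      intro b hb
      obtain ⟨hb0, hb⟩ := Finset.mem_erase.1 hb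
      obtain ⟨ε, hε, rfl⟩ := Finset.mem_image.1 hb
      refine Finset.mem_filter.2 ⟨Finset.mem_erase.2 ⟨fun e => ?_, Finset.mem_erase.2 ⟨hb0, ?_⟩⟩, hφA ε hε⟩
      · obtain ⟨hε1, hεc⟩ := Finset.mem_erase.1 hε
        have h0 := ((Finset.mem_filter.1 hεc).2).ne_zero
        have h1 : ((ε - 1) + (ε⁻¹ - 1)) = 0 := (mul_eq_zero.1 (add_eq_left.1 e)).resolve_right hββ
        field_simp at h1
        exact hε1 (sub_eq_zero.1 (mul_self_eq_zero.1 (by linear_combination h1 : (ε - 1) * (ε - 1) = 0)))
      · have hεc := (Finset.mem_filter.1 (Finset.mem_erase.1 hε).2).2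
        refine Finset.mem_filter.2 ⟨Finset.mem_univ _, ?_⟩
        simp only [φ, map_add, map_mul, map_sub, map_one, map_inv₀, hσβ, hεc.conj_eq, inv_inv]
        ring
    have h1 := Finset.card_le_card hsub
    have h2 := Finset.pred_card_le_card_erase (s := C.image φ) (a := (0 : F))
    have h4 := Finset.card_filter_add_card_filter_not (s := B) (fun b => b ∈ A)
    rw [hBc] at h4
    omega
  -- all norm classes but two have the same size
  let Φ : F → Finset (ι → F) := fun b => Ω.filter fun u => u i * σ (u i) = b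
  have hsize : ∀ b ∈ B, ∀ b' ∈ B, (Φ b).card ≤ (Φ b').card := by
    intro b hb b' hb'
    simp only [hB, Finset.mem_erase, hK, Finset.mem_filter, Finset.mem_univ, true_and] at hb hb'
    obtain ⟨x, hx⟩ := CircleSums.exists_norm hO.std.card hO.std.frob (r := b' / b) (by rw [map_div₀, hb.2.2, hb'.2.2])
    obtain ⟨y, hy⟩ := CircleSums.exists_norm hO.std.card hO.std.frob (r := (1 - b') / (1 - b))
      (by rw [map_div₀, map_sub, map_sub, map_one, hb.2.2, hb'.2.2])
    have hx0 : x ≠ 0 := fun e => div_ne_zero hb'.2.1 hb.2.1 (by rw [← hx, e, zero_mul])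
    have hy0 : y ≠ 0 := fun e => div_ne_zero (sub_ne_zero.2 (Ne.symm hb'.1)) (sub_ne_zero.2 (Ne.symm hb.1))
      (by rw [← hy, e, zero_mul])
    refine Finset.card_le_card_of_injOn (fun u p => (if p = i then x else y) * u p) (fun u hu => ?_) ?_
    · simp only [Φ, Finset.coe_filter, Set.mem_setOf_eq] at hu ⊢
      obtain ⟨huΩ, hub⟩ := hu
      have hNj := hN u huΩ
      obtain ⟨-, hua, -⟩ := Finset.mem_filter.1 huΩ
      have e1 : (x * u i) * σ (x * u i) = b' := by
        rw [map_mul, show x * u i * (σ x * σ (u i)) = (x * σ x) * (u i * σ (u i)) by ring, hx, hub,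
          div_mul_cancel₀ _ hb.2.1]
      have e2 : (y * u j) * σ (y * u j) = 1 - b' := by
        rw [map_mul, show y * u j * (σ y * σ (u j)) = (y * σ y) * (u j * σ (u j)) by ring, hy, hNj, hub,
          div_mul_cancel₀ _ (sub_ne_zero.2 (Ne.symm hb.1))]
      refine ⟨Finset.mem_filter.2 ⟨Finset.mem_univ _, by simp [hua], ?_⟩, by simpa using e1⟩
      rw [sf, Fintype.sum_eq_add i j hij fun p hp => by
        rcases huniv p with rfl | rfl | rfl
        · exact absurd rfl hp.1
        · exact absurd rfl hp.2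
        · simp [hua]]
      simp only [if_pos, if_neg hij.symm, e1, e2]
      ring
    · intro u _ u' _ e
      funext p
      have := congrFun e p
      simp only at this
      split_ifs at this
      · exact mul_left_cancel₀ hx0 this
      · exact mul_left_cancel₀ hy0 this
  -- the orbit and its translate are disjoint
  set O' := O.image fun u => (k : Matrix ι ι F) *ᵥ u with hO'
  have hO'c : O'.card = O.card := Finset.card_image_of_injective _ fun u u' e => by
    rw [← inv_mulVec_mulVec k u, show (k : Matrix ι ι F) *ᵥ u = (k : Matrix ι ι F) *ᵥ u' from e,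
      inv_mulVec_mulVec]
  have hdisj : O' ⊆ Ω.filter fun u => u i * σ (u i) ∈ B.filter fun b => b ∉ A := by
    intro u hu
    obtain ⟨u', hu', rfl⟩ := Finset.mem_image.1 hu
    obtain ⟨hu'Ω, g, hg, hga, hgi⟩ := Finset.mem_filter.1 hu'
    have hΩk : (k : Matrix ι ι F) *ᵥ u' ∈ Ω := Finset.mem_filter.2 ⟨Finset.mem_univ _,
      hzero hk hka _ (Finset.mem_filter.1 hu'Ω).2.1, by rw [hk]; exact (Finset.mem_filter.1 hu'Ω).2.2⟩
    have hnO : (k : Matrix ι ι F) *ᵥ u' ∉ O := by
      intro hm
      obtain ⟨-, g', hg', hg'a, hg'i⟩ := Finset.mem_filter.1 hm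
      set y := g'⁻¹ * k * g with hy
      have hyi : (y : Matrix ι ι F) *ᵥ ax i = ax i := by
        rw [hy, Units.val_mul, Units.val_mul, ← mulVec_mulVec, ← mulVec_mulVec, hgi, ← hg'i, inv_mulVec_mulVec]
      have hya : (y : Matrix ι ι F) *ᵥ ax a ∈ Submodule.span F {ax a} := by
        obtain ⟨c, hc⟩ := Submodule.mem_span_singleton.1 hga
        obtain ⟨c', hc'⟩ := Submodule.mem_span_singleton.1 hka
        obtain ⟨c'', hc''⟩ := Submodule.mem_span_singleton.1 hg'a
        have h0 : c'' ≠ 0 := fun e => MonoBasics.mulVec_ne_zero g' (ax_ne_zero (F := F) a) (by rw [← hc'', e, zero_smul])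
        have e : ((g'⁻¹ : GL ι F) : Matrix ι ι F) *ᵥ ax a = c''⁻¹ • ax a := by
          have := congrArg (fun z => ((g'⁻¹ : GL ι F) : Matrix ι ι F) *ᵥ z) hc''
          simp only [mulVec_smul, inv_mulVec_mulVec] at this
          conv_rhs => rw [← this, inv_smul_smul₀ h0]
        rw [hy, Units.val_mul, Units.val_mul, ← mulVec_mulVec, ← mulVec_mulVec, ← hc, mulVec_smul, ← hc',
          mulVec_smul, mulVec_smul, e]
        exact Submodule.smul_mem _ _ (Submodule.smul_mem _ _ (Submodule.smul_mem _ _ (Submodule.mem_span_singleton_self _)))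
      have hyiso : Iso (sf σ) y := ((hO.iso g' hg').inv.mul hk).mul (hO.iso g hg)
      have hym : IsMono y := fun p => by
        rcases huniv p with rfl | rfl | rfl
        · exact ⟨p, by rw [hyi]; exact Submodule.mem_span_singleton_self _⟩
        · refine ⟨p, mem_axis_iff.2 fun r hr => ?_⟩
          rcases huniv r with rfl | rfl | rfl
          · have := hyiso (ax p) (ax r)
            rwa [hyi, sf_ax_right, sf_ax_right, Pi.single_eq_of_ne hr] at this
          · exact absurd rfl hr
          · exact hzero hyiso hya _ (Pi.single_eq_of_ne hr _)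
        · exact ⟨p, hya⟩
      have hys : y ∈ Cfsg.Geo.specialLinear ι F :=
        Subgroup.mul_mem _ (Subgroup.mul_mem _ (Subgroup.inv_mem _ (hO.special hg')) hks) (hO.special hg)
      have hyM := hO.mono_mem y hyiso hys hym
      refine hkM ?_
      have := M.mul_mem (M.mul_mem hg' hyM) (M.inv_mem hg)
      rwa [show g' * y * g⁻¹ = k by rw [hy]; group] at this
    refine Finset.mem_filter.2 ⟨hΩk, ?_⟩
    have hA' : ((k : Matrix ι ι F) *ᵥ u') i * σ (((k : Matrix ι ι F) *ᵥ u') i) ∉ A := fun hh' => hnO (hclass _ hΩk hh')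
    refine Finset.mem_filter.2 ⟨Finset.mem_erase.2 ⟨fun e => hA' (e ▸ h1A), Finset.mem_erase.2 ⟨fun e => hA' (e ▸ h0A),
      Finset.mem_filter.2 ⟨Finset.mem_univ _, norm_fixed hO.std.card hO.std.frob _⟩⟩⟩, hA'⟩
  have hbig : insert (ax i) ((B.filter fun b => b ∈ A).biUnion Φ) ⊆ O := by
    refine Finset.insert_subset haxi fun u hu => ?_
    obtain ⟨b, hb, hub⟩ := Finset.mem_biUnion.1 hu
    exact hclass u (Finset.mem_filter.1 hub).1 ((Finset.mem_filter.1 hub).2 ▸ (Finset.mem_filter.1 hb).2)
  obtain ⟨b₀, hb₀⟩ : B.Nonempty := Finset.card_pos.1 (by omega)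
  set m := (Φ b₀).card
  have hm : ∀ b ∈ B, (Φ b).card = m := fun b hb => le_antisymm (hsize b hb b₀ hb₀) (hsize b₀ hb₀ b hb)
  have c1 : (B.filter fun b => b ∈ A).card * m + 1 ≤ O.card := by
    refine le_trans (le_of_eq ?_) (Finset.card_le_card hbig)
    rw [Finset.card_insert_of_notMem, Finset.card_biUnion, Finset.sum_congr rfl fun b hb => hm b (Finset.mem_filter.1 hb).1,
      Finset.sum_const, smul_eq_mul]
    · intro b _ b' _ hbb
      exact Finset.disjoint_left.2 fun u h1 h2 => hbb ((Finset.mem_filter.1 h1).2.symm.trans (Finset.mem_filter.1 h2).2)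
    · intro hmem'
      obtain ⟨b, hb, hub⟩ := Finset.mem_biUnion.1 hmem'
      have e := (Finset.mem_filter.1 hub).2
      rw [Pi.single_eq_same, map_one, mul_one] at e
      exact (Finset.mem_erase.1 (Finset.mem_filter.1 hb).1).1 e.symm
  have c2 : O.card ≤ (B.filter fun b => b ∉ A).card * m := by
    rw [← hO'c]
    refine (Finset.card_le_card (t := (B.filter fun b => b ∉ A).biUnion Φ) (hdisj.trans fun u hu => Finset.mem_biUnion.2
      ⟨u i * σ (u i), (Finset.mem_filter.1 hu).2, Finset.mem_filter.2 ⟨(Finset.mem_filter.1 hu).1, rfl⟩⟩)).trans ?_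
    refine Finset.card_biUnion_le.trans (le_of_eq ?_)
    rw [Finset.sum_congr rfl fun b hb => hm b (Finset.mem_filter.1 hb).1, Finset.sum_const, smul_eq_mul]
  have c3 := Finset.card_filter_add_card_filter_not (s := B) (fun b => b ∈ A)
  rw [hBc] at c3
  nlinarith [hmany, c1, c2, c3, Nat.zero_le m]

/-- All isotropic vectors are centres. -/
theorem all_centres (hO : Over q σ M) (hq : 3 ≤ q) (hq5 : q ≠ 5) (hn : Fintype.card ι = 3) {g₀ : GL ι F}
    (hg₀ : g₀ ∈ M) (hnm : ¬ IsMono g₀) : ∀ y, sf σ y y = 0 → Centre hO.std.isUnitary M y := by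
  obtain ⟨h, hh, hhm, a, ha⟩ := exists_fix hO hn hq hq5 hg₀ hnm
  obtain ⟨i, j, hia, hja, hij, -⟩ := exists_two_others hn a
  obtain ⟨p, hp, s, hs, hpj⟩ := hO.exists_perm (Equiv.swap a i) a
  refine centre_all_of_point hO.std.isUnitary hn (w := ax a) (by rw [sf_ax_self]; exact one_ne_zero)
    (fun k hk hks hkst => stab_mem hO hn hq hh hhm ha hk hks
      ((TransvGL.mem_subspaceStabilizer.1 hkst _).1 (Submodule.mem_span_singleton_self _)))
    hp (hO.iso p hp) fun hpa => ?_
  rw [hpj, if_pos rfl, Equiv.swap_apply_left] at hpa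
  have := mem_axis_iff.1 hpa i hia
  simp at this

end

open Cfsg in
/-- The stabiliser of a decomposition into orthogonal axes is maximal. -/
theorem decomp_maximal {F : Type*} [Field F] [Fintype F] (q : ℕ) (hF : Fintype.card F = q ^ 2) (hq : 3 ≤ q) :
    q ≠ 5 → ∀ D : Fin 3 → Submodule F (Fin 3 → F), Cfsg.Geo.IsNondegenerateMDecomposition (Cfsg.hermForm 3 F q) 1 D → Cfsg.Geo.IsMaximalIn (Cfsg.GU 3 F q ⊓ Cfsg.Geo.specialLinear (Fin 3) F) (Cfsg.Geo.decompositionStabilizer D ⊓ (Cfsg.GU 3 F q ⊓ Cfsg.Geo.specialLinear (Fin 3) F)) := by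
  intro hq5 D0 hD0
  suffices H : ∀ (n t k : ℕ), n = 3 → k = 1 → ∀ (D : Fin t → Submodule F (Fin n → F)),
      Cfsg.Geo.IsNondegenerateMDecomposition (Cfsg.hermForm n F q) k D → Cfsg.Geo.IsMaximalIn (Cfsg.GU n F q ⊓ Cfsg.Geo.specialLinear (Fin n) F) (Cfsg.Geo.decompositionStabilizer D ⊓ (Cfsg.GU n F q ⊓ Cfsg.Geo.specialLinear (Fin n) F)) from
    H 3 3 1 rfl rfl D0 hD0
  intro n t k hn hk1 D hD
  classical
  open Matrix CfsgLib.TransvGL CfsgLib.UnitCentres CfsgLib.UnitMono CfsgLib.UnitBlock CfsgLib.CircleSums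
    CfsgLib.MonoBasics CfsgLib.DecompProj CfsgLib.SUThree90 in
  exact (by
    have hkt := mul_eq_card hD.decomp
    rw [Fintype.card_fin] at hkt
    have hk0 := hD.decomp.pos
    have ht2 := hD.decomp.two_le
    obtain ⟨σ, hσ, hσne, -⟩ := CfsgLib.LinAlg.Witt.exists_conjAut hF
    have hS : Std q σ := ⟨hF, hσ⟩
    have hsf : (sf σ : (Fin n → F) → (Fin n → F) → F) = Cfsg.hermForm n F q := by
      funext x y; simp [sf, Cfsg.hermForm, hσ]
    have hfn : Cfsg.Geo.IsUnitaryForm σ (Cfsg.hermForm n F q) := hsf ▸ hS.isUnitary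
    have hnd : ∀ i, CfsgLib.Unitary.IsNondeg q (D i) := fun i u hu h => by
      by_contra hne
      obtain ⟨-, x, hx, hxu⟩ := hD.nondegenerate i u hu hne
      exact hxu (h x hx)
    choose b hb hbD hbspan using fun i =>
      CfsgLib.Unitary.exists_orthonorm_basis hF (hnd i) (hD.decomp.finrank_eq i)
    let G : Fin k × Fin t → (Fin n → F) := fun p => b p.2 p.1
    have hG : ∀ p p', Cfsg.hermForm n F q (G p) (G p') = if p = p' then 1 else 0 := by
      rintro ⟨j, i⟩ ⟨j', i'⟩
      by_cases h : i = i'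
      · subst h
        rw [show Cfsg.hermForm n F q (G (j, i)) (G (j', i)) = _ from hb i j j']
        simp
      · rw [hD.orthogonal i i' h _ (hbD i j) _ (hbD i' j'), if_neg (by simp [h])]
    let L0 : (Fin k × Fin t → F) →ₗ[F] (Fin n → F) := Fintype.linearCombination F G
    have hL0 : ∀ x, L0 x = ∑ p, x p • G p := fun x => rfl
    have hcoord : ∀ x p, Cfsg.hermForm n F q (L0 x) (G p) = x p := fun x p => by
      rw [hL0, CfsgLib.Unitary.herm_sum_left, Finset.sum_eq_single p]
      · rw [CfsgLib.Unitary.herm_smul_left, hG, if_pos rfl, mul_one]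
      · intro p' _ hp'
        rw [CfsgLib.Unitary.herm_smul_left, hG, if_neg hp', mul_zero]
      · simp
    have hinj : Function.Injective L0 := fun x y h => funext fun p => by
      rw [← hcoord x p, h, hcoord]
    let L : (Fin k × Fin t → F) ≃ₗ[F] (Fin n → F) :=
      LinearMap.linearEquivOfInjective L0 hinj (by
        rw [Module.finrank_fintype_fun_eq_card, Module.finrank_fintype_fun_eq_card, Fintype.card_prod,
          Fintype.card_fin, Fintype.card_fin, Fintype.card_fin, ← hkt, mul_comm])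
    have hL : ∀ x, L x = L0 x := fun x => rfl
    have hLf : ∀ x y, Cfsg.hermForm n F q (L x) (L y) = sf σ x y := fun x y => by
      rw [hL, hL, hL0 y, CfsgLib.Unitary.herm_sum_right hF, sf]
      refine Finset.sum_congr rfl fun p _ => ?_
      rw [CfsgLib.Unitary.herm_smul_right, hcoord, hσ, mul_comm]
    have hLsupp : ∀ i y, L (emb i y) ∈ D i := fun i y => by
      rw [hL, hL0]
      refine Submodule.sum_mem _ fun p _ => ?_
      obtain ⟨j, i'⟩ := p
      by_cases h : i' = i
      · subst h; exact Submodule.smul_mem _ _ (hbD i' j)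
      · simp [emb, h]
    have hLsurj : ∀ i, ∀ v ∈ D i, ∃ y, L (emb i y) = v := fun i v hv => by
      rw [← hbspan i, Submodule.mem_span_range_iff_exists_fun] at hv
      obtain ⟨c, rfl⟩ := hv
      refine ⟨c, ?_⟩
      rw [hL, hL0, Fintype.sum_prod_type]
      refine Finset.sum_congr rfl fun j _ => ?_
      rw [Finset.sum_eq_single i (fun i' _ h => by simp [emb, h]) (by simp)]
      simp [emb, G]
    set Φ := Cfsg.Agent.S5655.transport L with hΦ
    have hΦiso : ∀ g, g ∈ (Cfsg.GU n F q ⊓ Cfsg.Geo.specialLinear (Fin n) F).comap Φ ↔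
        Iso (sf σ) g ∧ g ∈ Cfsg.Geo.specialLinear (Fin k × Fin t) F := fun g => by
      rw [Subgroup.mem_comap, mem_special, CfsgLib.PseudoRefl.mem_specialLinear_iff,
        CfsgLib.PseudoRefl.mem_specialLinear_iff, Cfsg.Agent.S5655.det_transport]
      refine and_congr_left' ⟨fun h x y => ?_, fun h u v => ?_⟩
      · rw [← hLf, ← hLf, ← Cfsg.Agent.S5655.transport_mulVec, ← Cfsg.Agent.S5655.transport_mulVec, h]
      · obtain ⟨x, rfl⟩ := L.surjective u
        obtain ⟨y, rfl⟩ := L.surjective v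
        rw [Cfsg.Agent.S5655.transport_mulVec, Cfsg.Agent.S5655.transport_mulVec, hLf, hLf, h]
    have hstab : ∀ g, StabBlocks g → Φ g ∈ Cfsg.Geo.decompositionStabilizer D := by
      rintro g ⟨π, hπ⟩
      refine mem_decompositionStabilizer_of_maps hD.decomp π fun i v hv => ?_
      obtain ⟨y, rfl⟩ := hLsurj i v hv
      obtain ⟨y', hy'⟩ := hπ i y
      rw [Cfsg.Agent.S5655.transport_mulVec, hy']
      exact hLsupp _ _
    refine ⟨lt_of_le_of_ne inf_le_right ?_, fun M hHM hMK => ?_⟩
    · -- a transvection mixing members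
      intro e
      obtain ⟨j0⟩ : Nonempty (Fin k) := ⟨⟨0, hk0⟩⟩
      set i0 : Fin t := ⟨0, by omega⟩
      set i1 : Fin t := ⟨1, by omega⟩
      have hi01 : i0 ≠ i1 := by simp [i0, i1]
      have hout : ∀ (z : Fin k × Fin t → F) (c : F) (y : Fin k → F), sf σ z z = 0 → c + σ c = 0 →
          ∀ (hz : sf σ z z = 0), ∀ p p', p ≠ p' →
          blk (emb i0 y + (c * sf σ (emb i0 y) z) • z) p ≠ 0 →
          blk (emb i0 y + (c * sf σ (emb i0 y) z) • z) p' ≠ 0 → False := by
        intro z c y _ hc hz p p' hpp hp hp'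
        have hmem : uT (hS.isUnitary) hz c ∈ (Cfsg.GU n F q ⊓ Cfsg.Geo.specialLinear (Fin n) F).comap Φ :=
          (hΦiso _).2 ⟨uT_iso _ hz hc, uT_mem_specialLinear _ hz c⟩
        rw [Subgroup.mem_comap, ← e] at hmem
        obtain ⟨i, hi⟩ := image_mem_of_stabilizer (Subgroup.mem_inf.1 hmem).1 (hLsupp i0 y)
        obtain ⟨y', hy'⟩ := hLsurj i _ hi
        rw [Cfsg.Agent.S5655.transport_mulVec, uT_mulVec] at hy'
        rw [← L.injective hy', blk_emb] at hp hp'
        have h1 : p = i := by by_contra h; exact hp (if_neg h)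
        have h2 : p' = i := by by_contra h; exact hp' (if_neg h)
        exact hpp (h1.trans h2.symm)
      obtain ⟨c, hc0, hc, hc1⟩ : ∃ c : F, c ≠ 0 ∧ c + σ c = 0 ∧ c + 1 ≠ 0 := by
        obtain ⟨c, hc0, hc⟩ := exists_traceZero (hS.isUnitary (ι := Fin k))
        by_cases h1 : c + 1 = 0
        · obtain ⟨r, hr, hr'⟩ := Finset.exists_mem_notMem_of_card_lt_card (s := ({0, 1} : Finset F))
            (t := Finset.univ.filter fun z : F => σ z = z)
            (by rw [card_fixed hF hσ]; have := hS.two_le; exact Finset.card_le_two.trans_lt (by omega))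
          simp only [Finset.mem_insert, Finset.mem_singleton, not_or] at hr'
          refine ⟨r * c, mul_ne_zero hr'.1 hc0, ?_, fun e => hr'.2 (by linear_combination r * h1 - e)⟩
          rw [map_mul, (Finset.mem_filter.1 hr).2]
          linear_combination r * hc
        · exact ⟨c, hc0, hc, h1⟩
      obtain ⟨ξ, hξ⟩ := exists_norm hF hσ (r := (-1 : F)) (by simp)
      have hξ0 : ξ ≠ 0 := fun e => by simp [e] at hξ
      set z : Fin k × Fin t → F := emb i0 (Pi.single j0 1) + emb i1 (Pi.single j0 ξ) with hzdef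
      have hz : sf σ z z = 0 := by
        rw [sf_two hS hi01 (fun p h1 h2 => by rw [hzdef, blk_add, blk_emb, blk_emb, if_neg h1, if_neg h2, add_zero]),
          hzdef, blk_add, blk_add, blk_emb, blk_emb, blk_emb, blk_emb, if_pos rfl, if_neg hi01,
          if_neg hi01.symm, if_pos rfl, add_zero, zero_add, sf_ax_self]
        simp [sf, Pi.single_apply, apply_ite σ]
        linear_combination hξ
      refine hout z c (Pi.single j0 1) hz hc hz i0 i1 hi01 ?_ ?_
      · intro h
        have := congrFun h j0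
        simp [blk, emb, hzdef, sf_emb_left, sf_ax_left, hi01, hi01.symm] at this
        exact hc1 (by linear_combination this)
      · intro h
        have := congrFun h j0
        simp [blk, emb, hzdef, sf_emb_left, sf_ax_left, hi01, hi01.symm] at this
        rcases this with h' | h'
        · exact hc0 h'
        · exact hξ0 h'
    by_cases hle : M ≤ Cfsg.Geo.decompositionStabilizer D
    · exact Or.inl (le_antisymm (le_inf hle hMK) hHM)
    obtain ⟨g₀, hg₀M, hg₀⟩ := SetLike.not_le_iff_exists.1 hle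
    obtain ⟨g, rfl⟩ := Cfsg.Agent.S5655.transport_surjective L g₀
    refine Or.inr (le_antisymm hMK ?_)
    set M' := M.comap Φ with hM'
    have hmem : ∀ x, Iso (sf σ) x → x ∈ Cfsg.Geo.specialLinear (Fin k × Fin t) F → StabBlocks x → x ∈ M' :=
      fun x h1 h2 h3 => hHM (Subgroup.mem_inf.2 ⟨hstab x h3, (hΦiso x).2 ⟨h1, h2⟩⟩)
    have hiso' : ∀ x ∈ M', Iso (sf σ) x ∧ x ∈ Cfsg.Geo.specialLinear (Fin k × Fin t) F :=
      fun x hx => (hΦiso x).1 (hMK hx)
    have hcent : ∀ y, sf σ y y = 0 → Centre hS.isUnitary M' y := by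
      have hmono : ∀ x : GL (Fin k × Fin t) F, IsMono x → StabBlocks x := fun x hx => by
        subst hk1
        choose π hπ using hx
        have hπi := mono_index_injective hπ
        refine ⟨Equiv.ofBijective (fun i => (π (0, i)).2) (Finite.injective_iff_bijective.1 fun a a' h => ?_),
          fun i y => ⟨blk ((x : Matrix _ _ F) *ᵥ emb i y) ((π (0, i)).2), emb_eq_of_blk fun l hl => ?_⟩⟩
        · have : π (0, a) = π (0, a') := Prod.ext (Subsingleton.elim _ _) h
          exact congrArg Prod.snd (hπi this)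
        · have e : emb i y = y 0 • (Pi.single ((0 : Fin 1), i) 1 : Fin 1 × Fin t → F) := funext fun p => by
            obtain ⟨j, i'⟩ := p
            obtain rfl : j = 0 := Subsingleton.elim _ _
            by_cases h : i' = i
            · subst h; simp [emb]
            · simp [emb, h]
          obtain ⟨c, hc⟩ := Submodule.mem_span_singleton.1 (hπ (0, i))
          rw [e, mulVec_smul, ← hc]
          funext j
          have : (j, l) ≠ π (0, i) := fun h => hl (by simpa using congrArg Prod.snd h)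
          simp [blk, this]
      have hO : Over q σ M' :=
        ⟨hS, fun x h1 h2 h3 => hmem x h1 h2 (hmono x h3), fun x hx => (hiso' x hx).1,
          fun x hx => (hiso' x hx).2⟩
      exact all_centres hO hq hq5 (by rw [Fintype.card_prod, Fintype.card_fin, Fintype.card_fin, hk1]; subst hk1; omega)
        (g₀ := g) hg₀M (fun h => hg₀ (hstab g (hmono g h)))
    subst hn
    refine gu_le_of_centres_three hF hq hσ hfn fun v hv => ?_
    obtain ⟨y, rfl⟩ := L.surjective v
    rw [hLf] at hv
    obtain ⟨hv', hc⟩ := hcent y hv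
    refine ⟨by rw [hLf]; exact hv, fun c hc0 => ?_⟩
    convert Subgroup.mem_comap.1 (hc c hc0) using 1
    refine ext_mulVec fun u => ?_
    obtain ⟨x, rfl⟩ := L.surjective u
    rw [Cfsg.Agent.S5655.transport_mulVec, uT_mulVec, uT_mulVec, hLf, map_add, map_smul])

end CfsgLib.SUThree90.Mono
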