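import Mathlib
import Cfsg.Agent.SUSix96.Mono.Big

/-!
Dimension three: pseudo-reflections of order at least three along two different kinds of axes.
-/

set_option autoImplicit false
set_option linter.unusedSectionVars false

namespace CfsgLib.SUThree90.Mono

open Matrix CfsgLib.UnitMono CfsgLib.TransvGL CfsgLib.MonoBasics CfsgLib.UnitCentres CfsgLib.PseudoRefl
  CfsgLib.CircleSums
open CfsgLib.SUSix96.Mono (Rigid uRefl_inv)

variable {ι : Type} [Fintype ι] [DecidableEq ι] {F : Type*} [Field F] [Fintype F]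
variable {q : ℕ} {σ : F ≃+* F} {G : Subgroup (GL ι F)}

local notation "ax" i:max => (Pi.single i (1 : F) : ι → F)

variable (hG : Rigid q σ G)
include hG

/-- A unit vector whose coordinate at `k` has norm one is not the centre of a pseudo-reflection. -/
theorem norm_one_absurd {δ : Fˣ} (hδc : Cir σ (δ : F)) (hδ2 : (δ : F) ^ 2 ≠ 1) {v : ι → F}
    (hv : sf σ v v = 1) (hfull : ∀ i, v i ≠ 0) {k : ι} (hk : v k * σ (v k) = 1)
    (hR : uRefl hG.std (sf_ax_self (σ := σ) k) δ ∈ G) (hR' : uRefl hG.std hv δ ∈ G) (h2 : (2 : F) ≠ 0) {i j : ι} (hik : i ≠ k) (hjk : j ≠ k) (hij : i ≠ j)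
    (huniv : ∀ p, p = i ∨ p = j ∨ p = k) : False := by
  classical
  have hS := hG.std
  have hf := hS.isUnitary (ι := ι)
  set D := (δ : F) - 1 with hD
  set e : ι → F := ax k with he
  set u : ι → F := (v k)⁻¹ • v - e with hu
  have hvk := hfull k
  have hσv : σ (v k) ≠ 0 := (map_ne_zero σ).2 hvk
  have hve : v = v k • (e + u) := by
    rw [hu, add_sub_cancel, smul_smul, mul_inv_cancel₀ hvk, one_smul]
  have hee : sf σ e e = 1 := sf_ax_self k
  have hue : sf σ u e = 0 := by
    rw [hu, sub_left hf, hf.smul_left, he, sf_ax_right, sf_ax_self, inv_mul_cancel₀ hvk, sub_self]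
  have heu : sf σ e u = 0 := orth_comm hf hue
  have huu : sf σ u u = 0 := by
    have h1 : sf σ (e + u) (e + u) = 1 := by
      have := hv
      rw [hve, hf.smul_left, smul_right hf] at this
      calc sf σ (e + u) (e + u) = (v k * σ (v k)) * sf σ (e + u) (e + u) := by rw [hk, one_mul]
        _ = 1 := by rw [mul_assoc]; exact this
    rw [hf.add_left, add_right hf, add_right hf, hee, hue, heu] at h1
    linear_combination h1
  set R := uRefl hS (sf_ax_self (σ := σ) k) δ with hRdef
  set R' := uRefl hS hv δ with hR'def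
  have eR : ∀ x, (R : Matrix ι ι F) *ᵥ x = x + (D * sf σ x e) • e := fun x => uRefl_mulVec _ _ _ _
  have eR' : ∀ x, (R' : Matrix ι ι F) *ᵥ x = x + (D * sf σ x (e + u)) • (e + u) := fun x => by
    rw [hR'def, uRefl_mulVec, ← hD]
    conv_lhs => rw [hve]
    rw [smul_right hf, smul_smul]
    congr 2
    linear_combination (D * sf σ x (e + u)) * hk
  have eRi : ∀ x, ((R⁻¹ : GL ι F) : Matrix ι ι F) *ᵥ x = x + (((δ : F)⁻¹ - 1) * sf σ x e) • e := fun x => by
    rw [hRdef, uRefl_inv, uRefl_mulVec, Units.val_inv_eq_inv_val]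
  set A := R' * R⁻¹ with hA
  set A' := R * A * R⁻¹ with hA'
  set T := A * A' * (A' * A)⁻¹ with hT
  have hAG : A ∈ G := G.mul_mem hR' (G.inv_mem hR)
  have hA'G : A' ∈ G := G.mul_mem (G.mul_mem hR hAG) (G.inv_mem hR)
  have hTG : T ∈ G := G.mul_mem (G.mul_mem hAG hA'G) (G.inv_mem (G.mul_mem hA'G hAG))
  have hδ0 := δ.ne_zero
  -- Siegel transformations
  let S : F → F → (ι → F) → (ι → F) := fun α β x =>
    x + (α * sf σ x u) • e + (-(σ α * sf σ x e) + β * sf σ x u) • u
  have hσD : σ D = (δ : F)⁻¹ - 1 := by rw [hD, map_sub, map_one, hδc.conj_eq]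
  have eA : ∀ x, (A : Matrix ι ι F) *ᵥ x = S D D x := fun x => by
    rw [hA, Units.val_mul, ← mulVec_mulVec, eRi, eR', hf.add_left, hf.smul_left, add_right hf, add_right hf,
      hee, heu]
    simp only [S, hD, map_sub, map_one, hδc.conj_eq]
    match_scalars <;> field_simp <;> ring
  have eA' : ∀ x, (A' : Matrix ι ι F) *ᵥ x = S ((δ : F) * D) D x := fun x => by
    rw [hA', Units.val_mul, Units.val_mul, ← mulVec_mulVec, ← mulVec_mulVec, eRi, eA, eR]
    simp only [S, hf.add_left, hf.smul_left, hee, heu, hue, map_mul, hσD, hδc.conj_eq, hD]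
    match_scalars <;> field_simp <;> ring
  set c := D * σ D * ((δ : F)⁻¹ - δ) with hc
  have key : ∀ x, ((A * A' : GL ι F) : Matrix ι ι F) *ᵥ x =
      ((A' * A : GL ι F) : Matrix ι ι F) *ᵥ x + (c * sf σ (((A' * A : GL ι F) : Matrix ι ι F) *ᵥ x) u) • u :=
    fun x => by
      rw [Units.val_mul A A', Units.val_mul A' A, ← mulVec_mulVec, ← mulVec_mulVec, eA, eA', eA', eA]
      simp only [S, hf.add_left, hf.smul_left, hee, heu, hue, huu, map_mul, map_sub, map_one,
        hσD, hδc.conj_eq, hc, hD]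
      match_scalars <;> field_simp <;> ring
  have eT : ∀ x, (T : Matrix ι ι F) *ᵥ x = x + (c * sf σ x u) • u := fun x => by
    have := key ((((A' * A)⁻¹ : GL ι F) : Matrix ι ι F) *ᵥ x)
    rw [mulVec_inv_mulVec] at this
    rw [hT, Units.val_mul, ← mulVec_mulVec, this]
  have hc0 : c ≠ 0 := by
    have hD0 : D ≠ 0 := sub_ne_zero.2 fun h => hδ2 (by rw [h, one_pow])
    refine mul_ne_zero (mul_ne_zero hD0 ((map_ne_zero σ).2 hD0)) (sub_ne_zero.2 fun h => hδ2 ?_)
    rw [sq]
    nth_rw 1 [← h]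
    exact inv_mul_cancel₀ hδ0
  have hTm : IsMono T := hG.hU T hTG k (by
    rw [eT, ← he, heu, mul_zero, zero_smul, add_zero]
    exact Submodule.mem_span_singleton_self _)
  have hu' : ∀ i, i ≠ k → u i ≠ 0 := fun i hi => by
    rw [hu, Pi.sub_apply, Pi.smul_apply, he, Pi.single_eq_of_ne hi, sub_zero, smul_eq_mul]
    exact mul_ne_zero (inv_ne_zero hvk) (hfull i)
  have huk : u k = 0 := by
    rw [hu, Pi.sub_apply, Pi.smul_apply, he, Pi.single_eq_same, smul_eq_mul, inv_mul_cancel₀ hvk, sub_self]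
  have hsum : u i * σ (u i) + u j * σ (u j) = 0 := by
    have h := huu
    rwa [sf, Fintype.sum_eq_add i j hij fun p hp => ?_] at h
    rcases huniv p with rfl | rfl | rfl
    · exact absurd rfl hp.1
    · exact absurd rfl hp.2
    · rw [huk, zero_mul]
  have col : ∀ l p, ((T : Matrix ι ι F) *ᵥ ax l) p = (ax l) p + c * σ (u l) * u p := fun l p => by
    rw [eT, sf_ax_left, Pi.add_apply, Pi.smul_apply, smul_eq_mul]
  have key : ∀ l p, l ≠ p → u l ≠ 0 → u p ≠ 0 → 1 + c * (u l * σ (u l)) = 0 := fun l p hlp hl hp => by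
    have h1 : ((T : Matrix ι ι F) *ᵥ ax l) p ≠ 0 := by
      rw [col, Pi.single_eq_of_ne (Ne.symm hlp), zero_add]
      exact mul_ne_zero (mul_ne_zero hc0 ((map_ne_zero σ).2 hl)) hp
    have h3 := SUSix96.Mono.mono_col hTm h1 hlp
    rw [col, Pi.single_eq_same] at h3
    linear_combination h3
  refine h2 ?_
  linear_combination key i j hij (hu' i hik) (hu' j hjk) + key j i hij.symm (hu' j hjk) (hu' i hik) - c * hsum

/-- A unit vector whose coordinate at `k` has norm other than one is not the centre of a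
pseudo-reflection. -/
theorem norm_ne_one_absurd {δ : Fˣ} (hδ2 : (δ : F) ^ 2 ≠ 1) {v : ι → F}
    (hv : sf σ v v = 1) (hfull : ∀ i, v i ≠ 0) {k : ι} (hk : v k * σ (v k) ≠ 1)
    (hR : uRefl hG.std (sf_ax_self (σ := σ) k) δ ∈ G) (hR' : uRefl hG.std hv δ ∈ G) {i₀ j₀ : ι} (hi₀ : i₀ ≠ k) (hj₀ : j₀ ≠ k) (hij₀ : i₀ ≠ j₀)
    (hne : v i₀ * σ (v i₀) ≠ v j₀ * σ (v j₀)) : False := by
  classical
  have hS := hG.std
  have hf := hS.isUnitary (ι := ι)
  set e : ι → F := ax k with he
  set R := uRefl hS (sf_ax_self (σ := σ) k) δ with hRdef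
  set R' := uRefl hS hv δ with hR'def
  set K := Subgroup.closure ({R, R'} : Set (GL ι F)) with hK
  have hKG : K ≤ G := (Subgroup.closure_le G).2 (by rintro x (rfl | rfl); exacts [hR, hR'])
  set L := Submodule.span F ({e, v} : Set (ι → F)) with hL
  have heL : e ∈ L := Submodule.subset_span (Or.inl rfl)
  have hvL : v ∈ L := Submodule.subset_span (Or.inr rfl)
  let P : GL ι F → Prop := fun h => (∀ x, sf σ x e = 0 → sf σ x v = 0 → (h : Matrix ι ι F) *ᵥ x = x) ∧
    (∀ y ∈ L, (h : Matrix ι ι F) *ᵥ y ∈ L) ∧ Matrix.GeneralLinearGroup.det h ∈ Subgroup.zpowers δ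
  have hgen : ∀ {w : ι → F} (hw : sf σ w w = 1), w = e ∨ w = v → ∀ η ∈ Subgroup.zpowers δ,
      P (uRefl hS hw η) := fun {w} hw hwe η hη => by
    refine ⟨fun x hxe hxv => ?_, fun y hy => ?_, ?_⟩
    · rw [uRefl_mulVec]
      rcases hwe with rfl | rfl
      · rw [hxe, mul_zero, zero_smul, add_zero]
      · rw [hxv, mul_zero, zero_smul, add_zero]
    · rw [uRefl_mulVec]
      refine Submodule.add_mem _ hy (Submodule.smul_mem _ _ ?_)
      rcases hwe with rfl | rfl
      exacts [heL, hvL]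
    · rwa [show Matrix.GeneralLinearGroup.det (uRefl hS hw η) = η from
        Units.ext (by rw [Matrix.GeneralLinearGroup.val_det_apply, det_uRefl])]
  have hP : ∀ h ∈ K, P h := fun h hh => by
    induction hh using Subgroup.closure_induction'' with
    | mem x hx =>
      rcases hx with rfl | rfl
      · exact hgen _ (Or.inl he.symm) δ (Subgroup.mem_zpowers δ)
      · exact hgen _ (Or.inr rfl) δ (Subgroup.mem_zpowers δ)
    | inv_mem x hx =>
      rcases hx with rfl | rfl
      · rw [hRdef, uRefl_inv]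
        exact hgen _ (Or.inl he.symm) _ (Subgroup.inv_mem _ (Subgroup.mem_zpowers δ))
      · rw [hR'def, uRefl_inv]
        exact hgen _ (Or.inr rfl) _ (Subgroup.inv_mem _ (Subgroup.mem_zpowers δ))
    | one => exact ⟨fun x _ _ => by simp, fun y hy => by simpa using hy, by simp⟩
    | mul x y _ _ px py =>
      refine ⟨fun z hze hzv => ?_, fun z hz => ?_, ?_⟩
      · rw [Units.val_mul, ← mulVec_mulVec, py.1 z hze hzv, px.1 z hze hzv]
      · rw [Units.val_mul, ← mulVec_mulVec]; exact px.2.1 _ (py.2.1 z hz)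
      · rw [map_mul]; exact Subgroup.mul_mem _ px.2.2 py.2.2
  -- the stabiliser of the axis is cyclic
  set u : ι → F := v - v k • e with hu
  have hee : sf σ e e = 1 := sf_ax_self k
  have hue : sf σ u e = 0 := by
    rw [hu, sub_left hf, hf.smul_left, he, sf_ax_right, sf_ax_self, mul_one, sub_self]
  have heu : sf σ e u = 0 := orth_comm hf hue
  have hvu : v = v k • e + u := by rw [hu, add_sub_cancel]
  have huu : sf σ u u = 1 - v k * σ (v k) := by
    have := hv
    rw [hvu, hf.add_left, add_right hf, add_right hf, hf.smul_left, smul_right hf, hee, hf.smul_left, heu,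
      smul_right hf, hue] at this
    linear_combination this
  have huu0 : sf σ u u ≠ 0 := by rw [huu, sub_ne_zero]; exact Ne.symm hk
  have hu' : ∀ i, i ≠ k → u i = v i := fun i hi => by
    rw [hu, Pi.sub_apply, Pi.smul_apply, he, Pi.single_eq_of_ne hi, smul_zero, sub_zero]
  let C : Subgroup (GL ι F) :=
    { carrier := {h | h ∈ K ∧ (h : Matrix ι ι F) *ᵥ e ∈ Submodule.span F {e}}
      one_mem' := ⟨K.one_mem, by simpa using Submodule.mem_span_singleton_self e⟩
      mul_mem' := fun {a b} ha hb => ⟨K.mul_mem ha.1 hb.1, by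
        obtain ⟨s, hs⟩ := Submodule.mem_span_singleton.1 hb.2
        rw [Units.val_mul, ← mulVec_mulVec, ← hs, mulVec_smul]
        exact Submodule.smul_mem _ _ ha.2⟩
      inv_mem' := fun {a} ha => ⟨K.inv_mem ha.1, by
        obtain ⟨s, hs⟩ := Submodule.mem_span_singleton.1 ha.2
        have hs0 : s ≠ 0 := fun h0 => mulVec_ne_zero a (ax_ne_zero (F := F) k) (by
          rw [← he, ← hs, h0, zero_smul])
        have := congrArg (fun z => ((a⁻¹ : GL ι F) : Matrix ι ι F) *ᵥ z) hs
        simp only [inv_mulVec_mulVec, mulVec_smul] at this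
        refine Submodule.mem_span_singleton.2 ⟨s⁻¹, ?_⟩
        rw [inv_smul_eq_iff₀ hs0]
        exact this.symm⟩ }
  have hCK : ∀ c ∈ C, c ∈ K := fun c hc => hc.1
  have hC : ∀ c ∈ C, c = uRefl hS (sf_ax_self (σ := σ) k) (Matrix.GeneralLinearGroup.det c) := by
    intro c hc
    obtain ⟨hfix, hLs, -⟩ := hP c (hCK c hc)
    obtain ⟨μ, hμ⟩ := Submodule.mem_span_singleton.1 hc.2
    have hciso := hG.iso c (hKG (hCK c hc))
    have hμ0 : μ ≠ 0 := fun h0 => mulVec_ne_zero c (ax_ne_zero (F := F) k) (by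
      rw [← he, ← hμ, h0, zero_smul])
    have huL : u ∈ L := Submodule.sub_mem _ hvL (Submodule.smul_mem _ _ heL)
    obtain ⟨a, b, hab⟩ := Submodule.mem_span_pair.1 (hLs u huL)
    have hcu : sf σ ((c : Matrix ι ι F) *ᵥ u) e = 0 := by
      have h1 := hciso u e
      rw [hue, ← hμ, smul_right hf] at h1
      exact (mul_eq_zero.1 h1).resolve_left ((map_ne_zero σ).2 hμ0)
    have hν : (c : Matrix ι ι F) *ᵥ u = b • u := by
      rw [← hab, hvu] at hcu
      simp only [smul_add, hf.add_left, hf.smul_left, hue, hee] at hcu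
      rw [← hab, hvu]
      have : a + b * v k = 0 := by linear_combination hcu
      rw [smul_add, ← add_assoc, smul_smul, ← add_smul, this, zero_smul, zero_add]
    have hcol : ∀ j, j ≠ k → (c : Matrix ι ι F) *ᵥ ax j =
        ax j + (σ (u j) / sf σ u u * (b - 1)) • u := fun j hj => by
      set κ := σ (u j) / sf σ u u
      have h1 : sf σ (ax j - κ • u) e = 0 := by
        rw [sub_left hf, hf.smul_left, hue, he, sf_ax_right, Pi.single_eq_of_ne (Ne.symm hj)]; ring
      have h2 : sf σ (ax j - κ • u) u = 0 := by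
        rw [sub_left hf, hf.smul_left, sf_ax_left, div_mul_cancel₀ _ huu0, sub_self]
      have h3 := hfix _ h1 (by rw [hvu, add_right hf, smul_right hf, h1, h2, mul_zero, add_zero])
      rw [mulVec_sub, mulVec_smul, hν, sub_eq_iff_eq_add] at h3
      rw [h3]
      match_scalars <;> ring
    have hb : b = 1 := by
      by_contra hb
      have hcm : IsMono c := hG.hU c (hKG (hCK c hc)) k hc.2
      have key : ∀ l p, l ≠ k → p ≠ k → l ≠ p → sf σ u u + (b - 1) * (v l * σ (v l)) = 0 := by
        intro l p hl hp hlp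
        have h1 : ((c : Matrix ι ι F) *ᵥ ax l) p ≠ 0 := by
          rw [hcol l hl, Pi.add_apply, Pi.single_eq_of_ne (Ne.symm hlp), zero_add, Pi.smul_apply, smul_eq_mul,
            hu' p hp, hu' l hl]
          exact mul_ne_zero (mul_ne_zero (div_ne_zero ((map_ne_zero σ).2 (hfull l)) huu0) (sub_ne_zero.2 hb))
            (hfull p)
        have h3 := SUSix96.Mono.mono_col hcm h1 hlp
        rw [hcol l hl, Pi.add_apply, Pi.single_eq_same, Pi.smul_apply, smul_eq_mul, hu' l hl] at h3
        field_simp at h3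
        linear_combination h3
      refine hne (mul_left_cancel₀ (sub_ne_zero.2 hb) ?_)
      linear_combination key i₀ j₀ hi₀ hj₀ hij₀ - key j₀ i₀ hj₀ hi₀ hij₀.symm
    have hdg : c = dg fun i => if i = k then Units.mk0 μ hμ0 else 1 := by
      refine Units.ext (Matrix.ext_of_mulVec_single fun j => ?_)
      rw [dg_mulVec_ax]
      rcases eq_or_ne j k with rfl | hj
      · rw [if_pos rfl, ← he, ← hμ]; rfl
      · rw [if_neg hj, hcol j hj, hb]; simp
    rw [← uRefl_ax_eq_dg hS] at hdg
    conv_lhs => rw [hdg]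
    congr 1
    rw [hdg]
    exact Units.ext (by rw [Matrix.GeneralLinearGroup.val_det_apply, det_uRefl])
  have hCinj : ∀ c ∈ C, ∀ c' ∈ C,
      Matrix.GeneralLinearGroup.det c = Matrix.GeneralLinearGroup.det c' → c = c' := fun c hc c' hc' h => by
    rw [hC c hc, hC c' hc', h]
  have hRC : R ∈ C := ⟨Subgroup.subset_closure (Or.inl rfl), by
    rw [uRefl_mulVec]
    exact Submodule.add_mem _ (Submodule.mem_span_singleton_self _)
      (Submodule.smul_mem _ _ (Submodule.mem_span_singleton_self _))⟩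
  have hsel : ∀ h ∈ K, ∃ c ∈ C, Matrix.GeneralLinearGroup.det c = Matrix.GeneralLinearGroup.det h := by
    intro h hh
    obtain ⟨i, hi⟩ := Subgroup.mem_zpowers_iff.1 (hP h hh).2.2
    refine ⟨R ^ i, C.zpow_mem hRC i, ?_⟩
    rw [map_zpow, show Matrix.GeneralLinearGroup.det R = δ from
      Units.ext (by rw [Matrix.GeneralLinearGroup.val_det_apply, det_uRefl]), hi]
  choose sel hselC hseld using hsel
  -- every element of non-trivial determinant is conjugate into the stabiliser
  let φ : K →* Fˣ := Matrix.GeneralLinearGroup.det.comp K.subtype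
  let C' : Subgroup K := C.subgroupOf K
  have hφinj : ∀ c ∈ C', ∀ c' ∈ C', φ c = φ c' → c = c' := fun c hc c' hc' h =>
    Subtype.ext (hCinj _ hc _ hc' h)
  let Ψ : K → φ.ker × C' := fun h =>
    (⟨h * ⟨sel h h.2, hCK _ (hselC h h.2)⟩⁻¹, by
      rw [MonoidHom.mem_ker, map_mul, map_inv]
      exact mul_inv_eq_one.2 (hseld h h.2).symm⟩,
     ⟨⟨sel h h.2, hCK _ (hselC h h.2)⟩, hselC h h.2⟩)
  have hΨ : Function.Bijective Ψ := by
    refine ⟨fun x y h => ?_, fun ⟨⟨n, hn'⟩, ⟨c, hc⟩⟩ => ⟨n * c, ?_⟩⟩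
    · have h1 : (⟨sel x x.2, hCK _ (hselC x x.2)⟩ : K) = ⟨sel y y.2, hCK _ (hselC y y.2)⟩ :=
        congrArg (fun z : φ.ker × C' => (z.2 : K)) h
      have h2 : x * (⟨sel x x.2, hCK _ (hselC x x.2)⟩ : K)⁻¹ = y * (⟨sel y y.2, hCK _ (hselC y y.2)⟩ : K)⁻¹ :=
        congrArg (fun z : φ.ker × C' => (z.1 : K)) h
      rw [h1] at h2
      exact mul_right_cancel h2
    · have h1 : (⟨sel (n * c : K) (n * c : K).2, hCK _ (hselC _ _)⟩ : K) = c := by
        refine hφinj _ (hselC _ _) _ hc ((hseld _ (n * c : K).2).trans ?_)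
        show φ (n * c) = φ c
        rw [map_mul, MonoidHom.mem_ker.1 hn', one_mul]
      refine Prod.ext (Subtype.ext ?_) (Subtype.ext h1)
      show n * c * (⟨sel (n * c : K) (n * c : K).2, hCK _ (hselC _ _)⟩ : K)⁻¹ = n
      rw [h1, mul_inv_cancel_right]
  have hcard1 := Nat.card_eq_of_bijective Ψ hΨ
  rw [Nat.card_prod, Subgroup.card_eq_card_quotient_mul_card_subgroup C'] at hcard1
  have hker : Nat.card (K ⧸ C') = Nat.card φ.ker := Nat.eq_of_mul_eq_mul_right Nat.card_pos hcard1
  let Cx := {c : C' // c ≠ 1}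
  let Dx := {h : K // φ h ≠ 1}
  let Φ : (K ⧸ C') × Cx → Dx := fun z => ⟨Quotient.out z.1 * (z.2.1 : K) * (Quotient.out z.1)⁻¹, by
    rw [map_mul, map_mul, map_inv, mul_inv_cancel_comm]
    exact fun h => z.2.2 (Subtype.ext (hφinj _ z.2.1.2 _ C'.one_mem (by rw [h, OneMemClass.coe_one, map_one])))⟩
  have hΦ : Function.Injective Φ := by
    rintro ⟨x, c, hc⟩ ⟨x', c', hc'⟩ h
    have h0 : Quotient.out x * (c : K) * (Quotient.out x)⁻¹ = Quotient.out x' * (c' : K) * (Quotient.out x')⁻¹ :=
      congrArg Subtype.val h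
    have hcc : c = c' := Subtype.ext (hφinj _ c.2 _ c'.2 (by
      have := congrArg φ h0
      rwa [map_mul, map_mul, map_inv, mul_inv_cancel_comm, map_mul, map_mul, map_inv,
        mul_inv_cancel_comm] at this))
    subst hcc
    set y : K := (Quotient.out x')⁻¹ * Quotient.out x with hy
    have hyc : y * (c : K) = (c : K) * y := by
      have e := congrArg (fun z => (Quotient.out x')⁻¹ * z * Quotient.out x) h0
      simpa [hy, mul_assoc] using e
    have hyC : y ∈ C' := by
      refine ⟨y.2, ?_⟩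
      have ey := congrArg (fun z : GL ι F => (z : Matrix ι ι F) *ᵥ e) (congrArg Subtype.val hyc)
      have hce : ((c : K) : GL ι F) = uRefl hS (sf_ax_self (σ := σ) k)
          (Matrix.GeneralLinearGroup.det ((c : K) : GL ι F)) := hC _ c.2
      set μ := Matrix.GeneralLinearGroup.det ((c : K) : GL ι F) with hμ
      have hμ1 : (μ : F) ≠ 1 := fun h1 => hc (Subtype.ext (Subtype.ext (by
        rw [hce, show μ = 1 from Units.ext h1]
        exact ext_mulVec fun z => by rw [uRefl_mulVec]; simp)))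
      simp only [Subgroup.coe_mul, Units.val_mul, ← mulVec_mulVec] at ey
      rw [hce, uRefl_mulVec, uRefl_mulVec, ← he, hee, mulVec_add, mulVec_smul, mul_one] at ey
      have e1 := add_left_cancel ey
      refine Submodule.mem_span_singleton.2 ⟨sf σ (((y : GL ι F) : Matrix ι ι F) *ᵥ e) e, ?_⟩
      refine smul_right_injective _ (sub_ne_zero.2 hμ1) ?_
      show ((μ : F) - 1) • _ = ((μ : F) - 1) • (((y : GL ι F) : Matrix ι ι F) *ᵥ e)
      rw [e1, smul_smul]
    have hxx : x = x' := by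
      rw [← Quotient.out_eq x, ← Quotient.out_eq x']
      exact (Quotient.sound (QuotientGroup.leftRel_apply.2 hyC)).symm
    subst hxx
    rfl
  have hsurj : Function.Surjective Φ := by
    refine ((Fintype.bijective_iff_injective_and_card Φ).2 ⟨hΦ, ?_⟩).2
    rw [Fintype.card_prod, Fintype.card_subtype_compl, Fintype.card_subtype_compl, Fintype.card_subtype_eq]
    have h1 : Fintype.card K = Fintype.card (K ⧸ C') * Fintype.card C' := by
      rw [← Nat.card_eq_fintype_card, ← Nat.card_eq_fintype_card, ← Nat.card_eq_fintype_card]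
      exact Subgroup.card_eq_card_quotient_mul_card_subgroup C'
    have h2 : Fintype.card {h : K // φ h = 1} = Fintype.card (K ⧸ C') := by
      rw [← Nat.card_eq_fintype_card, ← Nat.card_eq_fintype_card, hker]
      rfl
    rw [h1, h2, Nat.mul_sub, mul_one]
  -- but the product of the two generators displaces a plane
  have hd : ((δ : F) * δ) ≠ 1 := fun h => hδ2 (by rw [sq, h])
  obtain ⟨⟨x, c, hc⟩, hxc⟩ := hsurj ⟨⟨R * R', K.mul_mem (Subgroup.subset_closure (Or.inl rfl))
    (Subgroup.subset_closure (Or.inr rfl))⟩, fun h => hd (by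
      have := congrArg (fun z : Fˣ => (z : F)) h
      simpa [φ, hRdef, hR'def, det_uRefl, Matrix.GeneralLinearGroup.val_det_apply] using this)⟩
  set X : GL ι F := ((Quotient.out x : K) : GL ι F) with hX
  have h0 : X * ((c : K) : GL ι F) * X⁻¹ = R * R' := congrArg (fun z : Dx => ((z.1 : K) : GL ι F)) hxc
  have hc0 : ((c : K) : GL ι F) = uRefl hS (sf_ax_self (σ := σ) k)
      (Matrix.GeneralLinearGroup.det ((c : K) : GL ι F)) := hC _ c.2
  rw [hc0] at h0
  set w := (X : Matrix ι ι F) *ᵥ e with hw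
  have hline : ∀ z, ((R * R' : GL ι F) : Matrix ι ι F) *ᵥ z - z ∈ Submodule.span F {w} := fun z => by
    rw [← h0, Units.val_mul, Units.val_mul, ← mulVec_mulVec, ← mulVec_mulVec, uRefl_mulVec, mulVec_add,
      mulVec_inv_mulVec, add_sub_cancel_left, mulVec_smul]
    exact Submodule.smul_mem _ _ (Submodule.mem_span_singleton_self _)
  have eg : ∀ z, ((R * R' : GL ι F) : Matrix ι ι F) *ᵥ z = z + (((δ : F) - 1) * sf σ z v) • v +
      (((δ : F) - 1) * sf σ (z + (((δ : F) - 1) * sf σ z v) • v) e) • e := fun z => by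
    rw [Units.val_mul, ← mulVec_mulVec, hR'def, uRefl_mulVec hS hv, hRdef, uRefl_mulVec, ← he]
  have hD0 : (δ : F) - 1 ≠ 0 := sub_ne_zero.2 fun h => hδ2 (by rw [h, one_pow])
  have m1 := hline (e - σ (v k) • v)
  rw [eg, sub_left hf, hf.smul_left, hv, he, sf_ax_left, mul_one, sub_self, mul_zero, zero_smul, add_zero,
    ← he, add_sub_cancel_left, sub_left hf, hf.smul_left, hee, he, sf_ax_right, ← he] at m1
  have hew : e ∈ Submodule.span F {w} := by
    have hne : ((δ : F) - 1) * (1 - σ (v k) * v k) ≠ 0 :=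
      mul_ne_zero hD0 (sub_ne_zero.2 fun h => hk (by linear_combination -h))
    exact (Submodule.smul_mem_iff _ hne).1 m1
  have m2 := hline v
  rw [eg, hv, mul_one, add_assoc, add_sub_cancel_left] at m2
  have hvw : v ∈ Submodule.span F {w} := by
    have := Submodule.sub_mem _ m2 (Submodule.smul_mem _ (((δ : F) - 1) * sf σ (v + ((δ : F) - 1) • v) e) hew)
    rw [add_sub_cancel_right] at this
    exact (Submodule.smul_mem_iff _ hD0).1 this
  obtain ⟨a, ha⟩ := Submodule.mem_span_singleton.1 hew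
  obtain ⟨b, hb⟩ := Submodule.mem_span_singleton.1 hvw
  have ha0 : a ≠ 0 := fun h => ax_ne_zero (F := F) k (by rw [← he, ← ha, h, zero_smul])
  refine hfull i₀ ?_
  have hjk := hi₀
  rw [← hb, ← inv_smul_smul₀ ha0 w, ha, smul_smul, Pi.smul_apply, he, Pi.single_eq_of_ne hjk, smul_zero]

end CfsgLib.SUThree90.Mono
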