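import Cfsg.Agent.SUThree90.MonoBig
import Cfsg.Agent.SUFour96.MonoMain

/-!
Dimension three: a proper overgroup of the monomial group contains a non-monomial element fixing an axis.
-/

set_option autoImplicit false
set_option linter.unusedSectionVars false

namespace CfsgLib.SUThree90.Mono

open Matrix CfsgLib.UnitMono CfsgLib.UnitMono91 CfsgLib.TransvGL CfsgLib.MonoBasics CfsgLib.UnitCentres
  CfsgLib.PseudoRefl CfsgLib.CircleSums
open CfsgLib.SUSix96.Mono (Rigid uRefl_inv col_full col_norm mono_col)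

variable {ι : Type} [Fintype ι] [DecidableEq ι] {F : Type*} [Field F] [Fintype F]
variable {q : ℕ} {σ : F ≃+* F}

local notation "ax" i:max => (Pi.single i (1 : F) : ι → F)

theorem exists_two_others (h3 : Fintype.card ι = 3) (k : ι) :
    ∃ i j, i ≠ k ∧ j ≠ k ∧ i ≠ j ∧ ∀ p, p = i ∨ p = j ∨ p = k := by
  obtain ⟨i, j, hij, h⟩ := Finset.card_eq_two.1 (show (Finset.univ.erase k).card = 2 by
    rw [Finset.card_erase_of_mem (Finset.mem_univ k), Finset.card_univ, h3])
  have hi : i ≠ k := Finset.ne_of_mem_erase (h.ge (Finset.mem_insert_self i {j}))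
  have hj : j ≠ k := Finset.ne_of_mem_erase (h.ge (Finset.mem_insert_of_mem (Finset.mem_singleton_self j)))
  refine ⟨i, j, hi, hj, hij, fun p => ?_⟩
  by_cases hp : p = k
  · exact Or.inr (Or.inr hp)
  · have := h.le (Finset.mem_erase.2 ⟨hp, Finset.mem_univ p⟩)
    simp only [Finset.mem_insert, Finset.mem_singleton] at this
    tauto

/-- Columns of a non-monomial element of a rigid group have entries of equal norm. -/
theorem entries_eq {G : Subgroup (GL ι F)} (hG : Rigid q σ G) (h3 : Fintype.card ι = 3) {δ : Fˣ}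
    (hδc : Cir σ (δ : F)) (hδ2 : (δ : F) ^ 2 ≠ 1)
    (hR : ∀ k, uRefl hG.std (sf_ax_self (σ := σ) k) δ ∈ G) {g : GL ι F} (hg : g ∈ G) (hgm : ¬ IsMono g)
    (a l m : ι) : ((g : Matrix ι ι F) *ᵥ ax a) l * σ (((g : Matrix ι ι F) *ᵥ ax a) l) =
      ((g : Matrix ι ι F) *ᵥ ax a) m * σ (((g : Matrix ι ι F) *ᵥ ax a) m) := by
  by_contra hne
  have hlm : l ≠ m := fun e => hne (by rw [e])
  obtain ⟨k, hkl, hkm⟩ : ∃ k, k ≠ l ∧ k ≠ m := by
    obtain ⟨k, -, hk⟩ := Finset.exists_mem_notMem_of_card_lt_card (s := ({l, m} : Finset ι))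
      (t := (Finset.univ : Finset ι)) (by
        have := Finset.card_le_two (a := l) (b := m)
        rw [Finset.card_univ]; omega)
    simp only [Finset.mem_insert, Finset.mem_singleton, not_or] at hk
    exact ⟨k, hk⟩
  have huniv : ∀ p, p = l ∨ p = m ∨ p = k := fun p => by
    by_contra h
    push Not at h
    have := Finset.card_le_univ ({l, m, k, p} : Finset ι)
    rw [h3, Finset.card_insert_of_notMem (by simp [hlm, hkl.symm, Ne.symm h.1]),
      Finset.card_insert_of_notMem (by simp [hkm.symm, Ne.symm h.2.1]),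
      Finset.card_pair (Ne.symm h.2.2)] at this
    omega
  set v := (g : Matrix ι ι F) *ᵥ ax a with hvdef
  have hv : sf σ v v = 1 := col_norm hG hg a
  have hR' : uRefl hG.std hv δ ∈ G := by
    have e := conj_uRefl hG.std (hG.iso g hg) (sf_ax_self (σ := σ) a) δ
    have := G.mul_mem (G.mul_mem hg (hR a)) (G.inv_mem hg)
    rwa [e] at this
  have hfull := fun i => col_full hG hδc hδ2 hR hg hgm a i
  by_cases h1 : v k * σ (v k) = 1
  · refine norm_one_absurd hG hδc hδ2 hv hfull h1 (hR k) hR' (fun h2 => hne ?_) hkl.symm hkm.symm hlm huniv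
    have e : sf σ v v = v l * σ (v l) + (v m * σ (v m) + v k * σ (v k)) := by
      rw [sf, Finset.eq_univ_of_forall (s := ({l, m, k} : Finset ι)) (fun p => by
        rcases huniv p with rfl | rfl | rfl <;> simp) |>.symm,
        Finset.sum_insert (by simp [hlm, hkl.symm]), Finset.sum_pair hkm.symm]
    rw [e, h1] at hv
    linear_combination hv - (v m * σ (v m)) * h2
  · exact norm_ne_one_absurd hG hδ2 hv hfull h1 (hR k) hR' hkl.symm hkm.symm hlm hne

variable {M : Subgroup (GL ι F)}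

/-- Some non-monomial element fixes an axis. -/
theorem exists_fix (hO : Over q σ M) (hn : Fintype.card ι = 3) (hq : 3 ≤ q) (hq5 : q ≠ 5) {g₀ : GL ι F}
    (hg₀ : g₀ ∈ M) (hgm₀ : ¬ IsMono g₀) :
    ∃ h ∈ M, ¬ IsMono h ∧ ∃ a, (h : Matrix ι ι F) *ᵥ ax a ∈ Submodule.span F {ax a} := by
  classical
  by_contra hno
  push Not at hno
  have hS := hO.std
  have hf := hS.isUnitary (ι := ι)
  have hU : ∀ h : GL ι F, h ∈ M → ∀ a : ι,
      (h : Matrix ι ι F) *ᵥ ax a ∈ Submodule.span F {ax a} → IsMono h := fun h hh a hab =>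
    by_contra fun hm => hno h hh hm a hab
  obtain ⟨a⟩ : Nonempty ι := Fintype.card_pos_iff.1 (by omega)
  let R : Fˣ → GL ι F := fun δ => uRefl hS (sf_ax_self (σ := σ) a) δ
  have hR1 : R 1 = 1 := by
    refine ext_mulVec fun x => ?_
    show ((uRefl hS (sf_ax_self (σ := σ) a) 1 : GL ι F) : Matrix ι ι F) *ᵥ x = _
    rw [uRefl_mulVec]; simp
  have hRm : ∀ δ δ', R (δ * δ') = R δ * R δ' := fun δ δ' => by
    show uRefl hS (sf_ax_self (σ := σ) a) (δ * δ') = uRefl hS _ δ * uRefl hS _ δ'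
    refine ext_mulVec fun x => funext fun i => ?_
    rw [Units.val_mul (uRefl hS _ δ), ← mulVec_mulVec, uRefl_ax_mulVec, uRefl_ax_mulVec, uRefl_ax_mulVec]
    split_ifs
    · rw [Units.val_mul]; ring
    · ring
  have hRi : ∀ δ, R δ⁻¹ = (R δ)⁻¹ := fun δ => (uRefl_inv hS (sf_ax_self (σ := σ) a) δ).symm
  have hnorm : ∀ {g : GL ι F}, g ∈ M → ∀ {ε : Fˣ}, Cir σ (ε : F) → R (ε ^ 3) * g * (R (ε ^ 3))⁻¹ ∈ M := by
    intro g hg ε hε
    have := UnitMono91.scalar_conj_mem hO hg hε a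
    rwa [hn] at this
  have hci : ∀ {ε : Fˣ}, Cir σ (ε : F) → Cir σ ((ε⁻¹ : Fˣ) : F) := fun h => by
    rw [Units.val_inv_eq_inv_val]; exact h.inv
  let Mt : Subgroup (GL ι F) :=
    { carrier := {h | ∃ m ∈ M, ∃ ε : Fˣ, Cir σ (ε : F) ∧ h = m * R (ε ^ 3)}
      one_mem' := ⟨1, M.one_mem, 1, by simpa using cir_one σ, by rw [one_pow, hR1, mul_one]⟩
      mul_mem' := by
        rintro _ _ ⟨m, hm, ε, hε, rfl⟩ ⟨m', hm', ε', hε', rfl⟩
        refine ⟨m * (R (ε ^ 3) * m' * (R (ε ^ 3))⁻¹), M.mul_mem hm (hnorm hm' hε), ε * ε', ?_, ?_⟩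
        · rw [Units.val_mul]; exact hε.mul hε'
        · rw [mul_pow, hRm]; group
      inv_mem' := by
        rintro _ ⟨m, hm, ε, hε, rfl⟩
        refine ⟨R (ε⁻¹ ^ 3) * m⁻¹ * (R (ε⁻¹ ^ 3))⁻¹, hnorm (M.inv_mem hm) (hci hε), ε⁻¹, hci hε, ?_⟩
        rw [inv_pow, hRi]; group }
  have hMle : ∀ m ∈ M, m ∈ Mt := fun m hm => ⟨m, hm, 1, by simpa using cir_one σ, by rw [one_pow, hR1, mul_one]⟩
  have hpow : ∀ {ε : Fˣ}, Cir σ (ε : F) → Cir σ ((ε ^ 3 : Fˣ) : F) := fun h => by
    rw [Units.val_pow_eq_pow_val, ← zpow_natCast]; exact h.zpow _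
  have hG : Rigid q σ Mt :=
    { std := hS
      iso := by
        rintro _ ⟨m, hm, ε, hε, rfl⟩
        exact (hO.iso m hm).mul (uRefl_iso _ _ (hpow hε))
      tor := fun t ht hp => hMle _ (hO.dg_mem ht hp)
      perm := fun π r => by
        obtain ⟨h, hh, s, hs, hj⟩ := hO.exists_perm π r
        exact ⟨h, hMle h hh, s, hs, hj⟩
      hU := by
        rintro _ ⟨m, hm, ε, hε, rfl⟩ b hb
        have hRmono : IsMono (R (ε ^ 3)) := by
          show IsMono (uRefl hS _ _)
          rw [uRefl_ax_eq_dg]; exact isMono_dg _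
        refine (hU m hm b ?_).mul hRmono
        have hR' : (R (ε ^ 3) : Matrix ι ι F) *ᵥ ax b =
            (if b = a then ((ε ^ 3 : Fˣ) : F) else 1) • ax b := funext fun i => by
          show (((uRefl hS (sf_ax_self (σ := σ) a) (ε ^ 3) : GL ι F) : Matrix ι ι F) *ᵥ ax b) i = _
          rw [uRefl_ax_mulVec, Pi.smul_apply, smul_eq_mul]
          rcases eq_or_ne i b with rfl | hib
          · rfl
          · rw [Pi.single_eq_of_ne hib, mul_zero, mul_zero]
        rw [Units.val_mul, ← mulVec_mulVec, hR', mulVec_smul] at hb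
        refine (Submodule.smul_mem_iff _ ?_).1 hb
        split_ifs
        · exact Units.ne_zero _
        · exact one_ne_zero }
  have hRt : ∀ ε : Fˣ, Cir σ (ε : F) → ∀ k, uRefl hS (sf_ax_self (σ := σ) k) (ε ^ 3) ∈ Mt := by
    intro ε hε k
    refine ⟨uRefl hS (sf_ax_self (σ := σ) k) (ε ^ 3) * (R (ε ^ 3))⁻¹, ?_, ε, hε, by rw [inv_mul_cancel_right]⟩
    rcases eq_or_ne k a with rfl | hk
    · rw [mul_inv_cancel]; exact M.one_mem
    · rw [show uRefl hS (sf_ax_self (σ := σ) k) (ε ^ 3) * (R (ε ^ 3))⁻¹ = dg (torPair k a (ε ^ 3)) from ?_]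
      · exact hO.torPair_mem hk (hpow hε)
      rw [← hRi]
      refine ext_mulVec fun x => funext fun i => ?_
      show ((uRefl hS _ _ * uRefl hS _ _ : GL ι F) : Matrix ι ι F).mulVec x i = _
      rw [Units.val_mul, ← mulVec_mulVec, uRefl_ax_mulVec, uRefl_ax_mulVec, dg_mulVec]
      unfold torPair
      rcases eq_or_ne i k with rfl | hik
      · simp [hk]
      · split_ifs <;> simp_all
  have hroots : ∀ d, 0 < d → (∀ z : F, Cir σ z → z ^ d = 1) → q + 1 ≤ Nat.gcd d (q + 1) := by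
    intro d hd h
    have hd' := Nat.gcd_pos_of_pos_left (q + 1) hd
    rw [← card_cir hS.card hS.frob]
    refine (Finset.card_le_card (t := (Polynomial.nthRoots (Nat.gcd d (q + 1)) (1 : F)).toFinset)
      fun z hz => ?_).trans ((Multiset.toFinset_card_le _).trans ((Polynomial.card_nthRoots _ _).trans
        (by rw [card_cir hS.card hS.frob])))
    rw [Multiset.mem_toFinset, Polynomial.mem_nthRoots hd']
    exact pow_gcd_eq_one.2 ⟨h z (Finset.mem_filter.1 hz).2,
      (UnitMono91.cir_iff hS).1 (Finset.mem_filter.1 hz).2⟩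
  have hdiv : ∀ d, 0 < d → (∀ z : F, Cir σ z → z ^ d = 1) → q + 1 ∣ d := fun d hd h => by
    have h1 := hroots d hd h
    have h2 := Nat.le_of_dvd (Nat.succ_pos q) (Nat.gcd_dvd_right d (q + 1))
    exact (le_antisymm h1 h2) ▸ Nat.gcd_dvd_left d (q + 1)
  obtain ⟨z₀, hz₀, hz6⟩ : ∃ z : F, Cir σ z ∧ z ^ 6 ≠ 1 := by
    by_contra h
    push Not at h
    have hd := hdiv 6 (by norm_num) h
    have h6 := Nat.le_of_dvd (by norm_num) hd
    exact (by decide : ∀ n < 6, 3 ≤ n → n ≠ 5 → ¬ (n + 1 ∣ 6)) q (by omega) hq hq5 hd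
  set ε₀ : Fˣ := Units.mk0 z₀ hz₀.ne_zero with hε₀
  have hδ2 : ((ε₀ ^ 3 : Fˣ) : F) ^ 2 ≠ 1 := by
    rw [Units.val_pow_eq_pow_val, ← pow_mul]; exact hz6
  have heq : ∀ {g : GL ι F}, g ∈ Mt → ¬ IsMono g → ∀ b l m,
      ((g : Matrix ι ι F) *ᵥ ax b) l * σ (((g : Matrix ι ι F) *ᵥ ax b) l) =
        ((g : Matrix ι ι F) *ᵥ ax b) m * σ (((g : Matrix ι ι F) *ᵥ ax b) m) :=
    fun hg hgm => entries_eq hG hn (hpow (ε := ε₀) hz₀) hδ2 (hRt ε₀ hz₀) hg hgm
  have hfull : ∀ {g : GL ι F}, g ∈ Mt → ¬ IsMono g → ∀ b l, ((g : Matrix ι ι F) *ᵥ ax b) l ≠ 0 :=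
    fun hg hgm b l => col_full hG (hpow (ε := ε₀) hz₀) hδ2 (hRt ε₀ hz₀) hg hgm b l
  have hthird : ∀ {g : GL ι F}, g ∈ Mt → ¬ IsMono g → ∀ b l,
      3 * (((g : Matrix ι ι F) *ᵥ ax b) l * σ (((g : Matrix ι ι F) *ᵥ ax b) l)) = 1 := by
    intro g hg hgm b l
    have h1 : sf σ ((g : Matrix ι ι F) *ᵥ ax b) ((g : Matrix ι ι F) *ᵥ ax b) = 1 := col_norm hG hg b
    rw [sf, Finset.sum_congr rfl fun i _ => heq hg hgm b i l, Finset.sum_const, Finset.card_univ, hn,
      nsmul_eq_mul] at h1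
    exact_mod_cast h1
  have hg₀' := hMle g₀ hg₀
  set v := (g₀ : Matrix ι ι F) *ᵥ ax a with hvdef
  have hv : sf σ v v = 1 := col_norm hG hg₀' a
  obtain ⟨i, j, hia, hja, hij, huniv⟩ := exists_two_others hn a
  have h9 : ∀ z : F, Cir σ z → z ^ 9 = 1 := by
    intro z hz
    set δ : Fˣ := Units.mk0 z hz.ne_zero ^ 3 with hδ
    have hδc : Cir σ (δ : F) := hpow (ε := Units.mk0 z hz.ne_zero) hz
    by_cases hδ1 : (δ : F) = 1
    · rw [hδ, Units.val_pow_eq_pow_val, Units.val_mk0] at hδ1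
      rw [show (9 : ℕ) = 3 * 3 by norm_num, pow_mul, hδ1, one_pow]
    have hR' : uRefl hS hv δ ∈ Mt := by
      have e := conj_uRefl hS (hG.iso g₀ hg₀') (sf_ax_self (σ := σ) a) δ
      have := Mt.mul_mem (Mt.mul_mem hg₀' (hRt (Units.mk0 z hz.ne_zero) hz a)) (Mt.inv_mem hg₀')
      rwa [e] at this
    have hD : (δ : F) - 1 ≠ 0 := sub_ne_zero.2 hδ1
    have hcolR : ∀ p, p ≠ i → ((uRefl hS hv δ : Matrix ι ι F) *ᵥ ax i) p = ((δ : F) - 1) * σ (v i) * v p :=
      fun p hp => by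
        rw [uRefl_mulVec, sf_ax_left, Pi.add_apply, Pi.single_eq_of_ne hp, zero_add, Pi.smul_apply, smul_eq_mul]
    have hvne := hfull hg₀' hgm₀ a
    have hne0 : ∀ p, p ≠ i → ((δ : F) - 1) * σ (v i) * v p ≠ 0 := fun p hp =>
      mul_ne_zero (mul_ne_zero hD ((map_ne_zero σ).2 (hvne i))) (hvne p)
    have hnm : ¬ IsMono (uRefl hS hv δ) := fun hm => by
      have h1 := mono_col hm (by rw [hcolR j hij.symm]; exact hne0 j hij.symm) hja.symm
      rw [hcolR a hia.symm] at h1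
      exact hne0 a hia.symm h1
    have h1 := hthird hR' hnm i j
    rw [hcolR j hij.symm, map_mul, map_mul, hS.invol] at h1
    have hi := hthird hg₀' hgm₀ a i
    have hj := hthird hg₀' hgm₀ a j
    rw [← hvdef] at hi hj
    have hDD : ((δ : F) - 1) * σ ((δ : F) - 1) = 3 := by
      linear_combination 3 * h1 - (((δ : F) - 1) * σ ((δ : F) - 1)) * (3 * (v j * σ (v j))) * hi
        - (((δ : F) - 1) * σ ((δ : F) - 1)) * hj
    rw [map_sub, map_one, hδc.conj_eq] at hDD
    have h0 := hδc.ne_zero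
    field_simp at hDD
    have h31 : (δ : F) ^ 3 = 1 := by linear_combination (-((δ : F) - 1)) * hDD
    rw [hδ, Units.val_pow_eq_pow_val, Units.val_mk0, ← pow_mul] at h31
    exact h31
  have hq8 : q = 8 := by
    have h := hdiv 9 (by norm_num) h9
    have := Nat.le_of_dvd (by norm_num) h
    exact (by decide : ∀ n < 9, 3 ≤ n → n + 1 ∣ 9 → n = 8) q (by omega) hq h
  have h20 : (2 : F) = 0 := by
    have h5 := Nat.cast_card_eq_zero F
    rw [hS.card, hq8] at h5
    push_cast at h5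
    have : (2 : F) ^ 6 = 0 := by linear_combination h5
    exact pow_eq_zero_iff (show 6 ≠ 0 by norm_num) |>.1 this
  have hN1 : ∀ l, v l * σ (v l) = 1 := fun l => by
    have := hthird hg₀' hgm₀ a l
    rw [← hvdef] at this
    linear_combination this - (v l * σ (v l)) * h20
  have hc3 : ∀ z : F, Cir σ z → z ^ 3 = 1 := by
    intro z hz
    set ζ : Fˣ := Units.mk0 z hz.ne_zero with hζ
    set h := g₀⁻¹ * dg (torPair i j ζ) * g₀ with hh
    have hhM : h ∈ Mt := Mt.mul_mem (Mt.mul_mem (Mt.inv_mem hg₀') (hMle _ (hO.torPair_mem hij hz))) hg₀'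
    set S := ((h : Matrix ι ι F) *ᵥ ax a) a with hSdef
    have hSe : S = z + z⁻¹ + 1 := by
      have e1 : S = sf σ ((dg (torPair i j ζ) : Matrix ι ι F) *ᵥ v) v := by
        rw [hSdef, hh, Units.val_mul, Units.val_mul, ← mulVec_mulVec, ← mulVec_mulVec, ← hvdef,
          ← sf_ax_right (σ := σ) a (((g₀⁻¹ : GL ι F) : Matrix ι ι F) *ᵥ _), ← hO.iso g₀ hg₀, mulVec_inv_mulVec]
      rw [e1, sf, Finset.sum_congr rfl (g := fun p => ((torPair i j ζ p : Fˣ) : F)) fun p _ => by
        rw [dg_mulVec, mul_assoc, hN1, mul_one]]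
      rw [Finset.eq_univ_of_forall (s := ({i, j, a} : Finset ι)) (fun p => by
        rcases huniv p with rfl | rfl | rfl <;> simp) |>.symm,
        Finset.sum_insert (by simp [hij, hia]), Finset.sum_pair hja]
      simp [torPair, hij.symm, hia.symm, hja.symm, hζ]
      ring
    have hSσ : σ S = S := by
      rw [hSe, map_add, map_add, map_one, map_inv₀, hz.conj_eq, inv_inv]; ring
    have hS01 : S = 0 ∨ S * σ S = 1 := by
      by_cases hm : IsMono h
      · by_cases hS0 : S = 0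
        · exact Or.inl hS0
        refine Or.inr ?_
        have hn1 : sf σ ((h : Matrix ι ι F) *ᵥ ax a) ((h : Matrix ι ι F) *ᵥ ax a) = 1 := col_norm hG hhM a
        rwa [sf, Finset.sum_eq_single a (fun p _ hp => by
          rw [mono_col hm hS0 hp, zero_mul]) (by simp), ← hSdef] at hn1
      · refine Or.inr ?_
        have := hthird hhM hm a a
        rw [← hSdef] at this
        linear_combination this - (S * σ S) * h20
    have hz0 := hz.ne_zero
    rcases hS01 with h0 | h1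
    · rw [hSe] at h0
      field_simp at h0
      linear_combination (z - 1) * h0
    · rw [hSσ] at h1
      have h1' : (S - 1) * (S - 1) = 0 := by linear_combination h1 - (S - 1) * h20
      have hS1 := sub_eq_zero.1 (mul_self_eq_zero.1 h1')
      rw [hSe] at hS1
      field_simp at hS1
      have h1'' : (z - 1) * (z - 1) = 0 := by linear_combination hS1 - z * h20
      rw [sub_eq_zero.1 (mul_self_eq_zero.1 h1''), one_pow]
  have := Nat.le_of_dvd (by norm_num) (hdiv 3 (by norm_num) hc3)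
  omega

end CfsgLib.SUThree90.Mono
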