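import Mathlib
import Cfsg.Agent.SUThree90.Point

/-!
Dimension three: the involutions attached to rational anisotropic vectors, and frames, for a rational
structure of index two.
-/

set_option autoImplicit false

namespace CfsgLib.SUThree90.Orth

open Matrix CfsgLib.TransvGL CfsgLib.UnitCentres

variable {F : Type*} [Field F]

local notation "GL3" => GL (Fin 3) F
local notation:max g "⬝" x:max => Units.val g *ᵥ x

/-- A rational structure of index two: the field, the form and the semilinear involution. -/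
structure RatSys [Fintype F] (q : ℕ) (σ : F ≃+* F) (f : (Fin 3 → F) → (Fin 3 → F) → F)
    (τ : (Fin 3 → F) → (Fin 3 → F)) : Prop where
  card : Fintype.card F = q ^ 2
  pow : ∀ x, σ x = x ^ q
  herm : Cfsg.Geo.IsUnitaryForm σ f
  two : (2 : F) ≠ 0
  big : 7 ≤ q
  tadd : ∀ x y, τ (x + y) = τ x + τ y
  tsmul : ∀ (c : F) x, τ (c • x) = σ c • τ x
  tinv : ∀ x, τ (τ x) = x
  tform : ∀ x y, f (τ x) (τ y) = σ (f x y)

/-- Commuting with `τ` up to a scalar. -/
def Semi (τ : (Fin 3 → F) → (Fin 3 → F)) (g : GL3) : Prop :=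
  ∃ κ : F, ∀ x, τ (g⬝x) = κ • g⬝(τ x)

section Basis

/-- Vectors with a non-singular Gram matrix span. -/
theorem mul_left_ext {a b c : Fin 3 → F} (hdet : (Matrix.of fun i j => ![a, b, c] j i).det ≠ 0) {g h : GL3}
    (ha : g⬝a = h⬝a) (hb : g⬝b = h⬝b) (hc : g⬝c = h⬝c) : g = h := by
  set B : Matrix (Fin 3) (Fin 3) F := Matrix.of fun i j => ![a, b, c] j i
  have hu : IsUnit B := (Matrix.isUnit_iff_isUnit_det _).2 (Ne.isUnit hdet)
  refine Units.ext (hu.mul_left_inj.1 ?_)
  ext i j
  fin_cases j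
  · exact congrFun ha i
  · exact congrFun hb i
  · exact congrFun hc i

/-- The determinant read in a basis. -/
theorem det_of_action {a b c : Fin 3 → F} (hdet : (Matrix.of fun i j => ![a, b, c] j i).det ≠ 0) {g : GL3}
    (T : Matrix (Fin 3) (Fin 3) F) (ha : g⬝a = T 0 0 • a + T 1 0 • b + T 2 0 • c)
    (hb : g⬝b = T 0 1 • a + T 1 1 • b + T 2 1 • c) (hc : g⬝c = T 0 2 • a + T 1 2 • b + T 2 2 • c) :
    (g : Matrix (Fin 3) (Fin 3) F).det = T.det := by
  set B : Matrix (Fin 3) (Fin 3) F := Matrix.of fun i j => ![a, b, c] j i with hB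
  have e : (g : Matrix (Fin 3) (Fin 3) F) * B = B * T := by
    ext i j
    have key : ∀ v, ((g : Matrix (Fin 3) (Fin 3) F) *ᵥ v) i = ∑ k, (g : Matrix (Fin 3) (Fin 3) F) i k * v k :=
      fun v => rfl
    fin_cases j
    · have := congrFun ha i
      simp only [key, Pi.add_apply, Pi.smul_apply, smul_eq_mul] at this
      simp [Matrix.mul_apply, Fin.sum_univ_three, hB] at this ⊢
      linear_combination this
    · have := congrFun hb i
      simp only [key, Pi.add_apply, Pi.smul_apply, smul_eq_mul] at this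
      simp [Matrix.mul_apply, Fin.sum_univ_three, hB] at this ⊢
      linear_combination this
    · have := congrFun hc i
      simp only [key, Pi.add_apply, Pi.smul_apply, smul_eq_mul] at this
      simp [Matrix.mul_apply, Fin.sum_univ_three, hB] at this ⊢
      linear_combination this
  have := congrArg Matrix.det e
  rw [det_mul, det_mul, mul_comm] at this
  exact mul_left_cancel₀ hdet this

theorem exists_span {a b c : Fin 3 → F} (hdet : (Matrix.of fun i j => ![a, b, c] j i).det ≠ 0) (v : Fin 3 → F) :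
    ∃ α β γ : F, v = α • a + β • b + γ • c := by
  set B : Matrix (Fin 3) (Fin 3) F := Matrix.of fun i j => ![a, b, c] j i with hB
  obtain ⟨w, hw⟩ := (Matrix.mulVec_surjective_iff_isUnit (A := B)).2
    ((Matrix.isUnit_iff_isUnit_det _).2 (Ne.isUnit hdet)) v
  refine ⟨w 0, w 1, w 2, hw ▸ funext fun i => ?_⟩
  simp [hB, Matrix.mulVec, dotProduct, Fin.sum_univ_three]
  ring

/-- A basis from orthogonality relations. -/
theorem det_ne_zero_of_pairing {a b c a' b' c' : Fin 3 → F} (φ : (Fin 3 → F) → (Fin 3 → F) → F)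
    (hadd : ∀ x y v, φ (x + y) v = φ x v + φ y v) (hsmul : ∀ (k : F) x v, φ (k • x) v = k * φ x v)
    (ha : φ a a' ≠ 0) (hb : φ b b' ≠ 0) (hc : φ c c' ≠ 0) (hba : φ b a' = 0) (hca : φ c a' = 0)
    (hab : φ a b' = 0) (hcb : φ c b' = 0) (hac : φ a c' = 0) (hbc : φ b c' = 0) :
    (Matrix.of fun i j => ![a, b, c] j i).det ≠ 0 := by
  intro h
  obtain ⟨v, hv0, hv⟩ := Matrix.exists_mulVec_eq_zero_iff.2 h
  have e : v 0 • a + v 1 • b + v 2 • c = 0 := by
    rw [← hv]; funext i
    simp [Matrix.mulVec, dotProduct, Fin.sum_univ_three]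
    ring
  have p : ∀ z, v 0 * φ a z + v 1 * φ b z + v 2 * φ c z = 0 := fun z => by
    rw [← hsmul, ← hsmul, ← hsmul, ← hadd, ← hadd, e]
    simpa using hsmul 0 0 z
  have h0 := p a'
  have h1 := p b'
  have h2 := p c'
  simp [hba, hca, ha] at h0
  simp [hab, hcb, hb] at h1
  simp [hac, hbc, hc] at h2
  exact hv0 (funext fun i => by fin_cases i <;> assumption)

end Basis

variable [Fintype F] {q : ℕ} {σ : F ≃+* F} {f : (Fin 3 → F) → (Fin 3 → F) → F}
  {τ : (Fin 3 → F) → (Fin 3 → F)}

/-- The linear map `x ↦ -x + (2 f x p / f p p) p`. -/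
noncomputable def sLin (hf : Cfsg.Geo.IsUnitaryForm σ f) (p : Fin 3 → F) :
    (Fin 3 → F) →ₗ[F] (Fin 3 → F) :=
  -LinearMap.id + ((2 / f p p) • upair hf p).smulRight p

omit [Fintype F] in
theorem sLin_invol (hf : Cfsg.Geo.IsUnitaryForm σ f) {p : Fin 3 → F} (hp : f p p ≠ 0) (x : Fin 3 → F) :
    sLin hf p (sLin hf p x) = x := by
  simp only [sLin, LinearMap.add_apply, LinearMap.neg_apply, LinearMap.id_coe, id_eq, LinearMap.smulRight_apply,
    LinearMap.smul_apply, upair_apply, smul_eq_mul, hf.add_left, hf.smul_left]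
  rw [show f (-x) p = -f x p by rw [← neg_one_smul F x, hf.smul_left]; ring]
  match_scalars <;> field_simp <;> ring

open Classical in
/-- The involution of determinant one with fixed line `⟨p⟩` and eigenvalue `-1` on its complement. -/
noncomputable def sref (hf : Cfsg.Geo.IsUnitaryForm σ f) (p : Fin 3 → F) : GL3 :=
  if hp : f p p = 0 then 1 else
    ofEquiv (LinearEquiv.ofInvolutive (sLin hf p) (sLin_invol hf hp))

namespace RatSys

variable (R : RatSys q σ f τ)
include R

theorem pow_card_sub {x : F} (hx : x ≠ 0) : x ^ (q ^ 2 - 1) = 1 := by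
  rw [← R.card]; exact FiniteField.pow_card_sub_one_eq_one x hx

theorem neg_ne {x : F} (hx : x ≠ 0) : -x ≠ x := fun h => by
  have : (2 : F) * x = 0 := by linear_combination -h
  rcases mul_eq_zero.1 this with h2 | h2
  exacts [R.two h2, hx h2]

theorem tzero : τ 0 = 0 := by
  have := R.tsmul 0 0
  simpa using this

theorem tsub (x y : Fin 3 → F) : τ (x - y) = τ x - τ y := by
  rw [sub_eq_add_neg, R.tadd, ← neg_one_smul F y, R.tsmul, map_neg, map_one, neg_one_smul, ← sub_eq_add_neg]

theorem tneg (x : Fin 3 → F) : τ (-x) = -τ x := by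
  rw [← neg_one_smul F x, R.tsmul, map_neg, map_one, neg_one_smul]

theorem tinj {x y : Fin 3 → F} (h : τ x = τ y) : x = y := by rw [← R.tinv x, h, R.tinv]

theorem rat_form {x y : Fin 3 → F} (hx : τ x = x) (hy : τ y = y) : σ (f x y) = f x y := by
  rw [← R.tform, hx, hy]

theorem rat_symm {x y : Fin 3 → F} (hx : τ x = x) (hy : τ y = y) : f y x = f x y := by
  rw [R.herm.herm, R.rat_form hx hy]

theorem exists_trace_zero : ∃ t : F, t ≠ 0 ∧ σ t = -t := by
  obtain ⟨c, hc0, hc⟩ := exists_traceZero R.herm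
  exact ⟨c, hc0, by linear_combination hc⟩

/-- Rational vectors span. -/
theorem ext_rat {x : Fin 3 → F} (h : ∀ y, τ y = y → f x y = 0) : x = 0 := by
  by_contra hx
  obtain ⟨-, z, hz⟩ := R.herm.nondegenerate x hx
  obtain ⟨t, ht0, ht⟩ := R.exists_trace_zero
  obtain ⟨a, ha⟩ : ∃ a, a = z + τ z := ⟨_, rfl⟩
  obtain ⟨b, hb⟩ : ∃ b, b = t • (z - τ z) := ⟨_, rfl⟩
  have ha' : τ a = a := by rw [ha, R.tadd, R.tinv, add_comm]
  have hb' : τ b = b := by
    rw [hb, R.tsmul, R.tsub, R.tinv, ht, neg_smul, ← smul_neg, neg_sub]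
  have e1 : f x z + f x (τ z) = 0 := by rw [← add_right R.herm, ← ha]; exact h a ha'
  have e2 : σ t * (f x z - f x (τ z)) = 0 := by rw [← sub_right R.herm, ← smul_right R.herm, ← hb]; exact h b hb'
  have e3 := (mul_eq_zero.1 e2).resolve_left ((map_ne_zero σ).2 ht0)
  exact hz ((mul_eq_zero.1 (show (2 : F) * f x z = 0 by linear_combination e1 + e3)).resolve_left R.two)

/-- A scalar multiple of a vector on a line fixed by `τ` is rational. -/
theorem exists_rat_scalar {v : Fin 3 → F} (hv : v ≠ 0) {k : F} (h : τ v = k • v) :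
    ∃ s : F, s ≠ 0 ∧ τ (s • v) = s • v := by
  have hk : σ k * k = 1 := by
    have := congrArg τ h
    rw [R.tinv, R.tsmul, h, smul_smul] at this
    have h2 : (σ k * k - 1) • v = 0 := by rw [sub_smul, one_smul, ← this, sub_self]
    exact sub_eq_zero.1 ((smul_eq_zero.1 h2).resolve_right hv)
  by_cases hk1 : k = -1
  · obtain ⟨t, ht0, ht⟩ := R.exists_trace_zero
    exact ⟨t, ht0, by rw [R.tsmul, h, smul_smul, ht, hk1]; congr 1; ring⟩
  · refine ⟨k + 1, fun h0 => hk1 (eq_neg_of_add_eq_zero_left h0), ?_⟩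
    rw [R.tsmul, h, smul_smul, map_add, map_one]
    congr 1
    linear_combination hk

/-- Hilbert 90. -/
theorem exists_div_conj {k : F} (hk : k * σ k = 1) : ∃ a : F, a ≠ 0 ∧ a = k * σ a := by
  by_cases hk1 : k = -1
  · obtain ⟨t, ht0, ht⟩ := R.exists_trace_zero
    exact ⟨t, ht0, by rw [ht, hk1]; ring⟩
  · refine ⟨k + 1, fun h0 => hk1 (eq_neg_of_add_eq_zero_left h0), ?_⟩
    rw [map_add, map_one]
    linear_combination -hk

theorem sref_apply {p : Fin 3 → F} (hp : f p p ≠ 0) (x : Fin 3 → F) :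
    (sref R.herm p)⬝x = -x + (2 * f x p / f p p) • p := by
  rw [sref, dif_neg hp, ofEquiv_mulVec]
  show sLin R.herm p x = _
  simp only [sLin, LinearMap.add_apply, LinearMap.neg_apply, LinearMap.id_coe, id_eq,
    LinearMap.smulRight_apply, LinearMap.smul_apply, upair_apply, smul_eq_mul]
  rw [div_mul_eq_mul_div]

theorem sref_self {p : Fin 3 → F} (hp : f p p ≠ 0) : (sref R.herm p)⬝p = p := by
  rw [R.sref_apply hp, mul_div_assoc, div_self hp, mul_one, two_smul]; abel

theorem sref_perp {p x : Fin 3 → F} (hp : f p p ≠ 0) (hx : f x p = 0) : (sref R.herm p)⬝x = -x := by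
  rw [R.sref_apply hp, hx, mul_zero, zero_div, zero_smul, add_zero]

theorem sref_sq {p : Fin 3 → F} (hp : f p p ≠ 0) : sref R.herm p * sref R.herm p = 1 :=
  ext_mulVec fun x => by
    rw [Units.val_mul, ← mulVec_mulVec, sref, dif_neg hp, ofEquiv_mulVec, ofEquiv_mulVec, Units.val_one,
      one_mulVec]
    exact sLin_invol R.herm hp x

theorem sref_iso {p : Fin 3 → F} (hp : f p p ≠ 0) : Iso f (sref R.herm p) := fun x y => by
  have hf := R.herm
  have hn : σ (f p p) = f p p := norm_fixed hf p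
  have hneg : ∀ u v, f (-u) v = -f u v := fun u v => by rw [← neg_one_smul F u, hf.smul_left]; ring
  have hneg' : ∀ u v, f u (-v) = -f u v := fun u v => by
    rw [← neg_one_smul F v, smul_right hf, map_neg, map_one]; ring
  rw [R.sref_apply hp, R.sref_apply hp]
  simp only [hf.add_left, add_right hf, hf.smul_left, smul_right hf, hneg, hneg', map_div₀, map_mul, map_ofNat, hn]
  rw [← hf.herm p y]
  field_simp
  ring

theorem sref_det {p : Fin 3 → F} (hp : f p p ≠ 0) : (sref R.herm p).val.det = 1 := by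
  rw [sref, dif_neg hp, det_ofEquiv,
    show (LinearEquiv.ofInvolutive (sLin R.herm p) (sLin_invol R.herm hp)).toLinearMap =
      (-1 : F) • LinearMap.transvection ((-2 / f p p) • upair R.herm p) p from LinearMap.ext fun x => by
      show sLin R.herm p x = (-1 : F) • _
      rw [LinearMap.transvection.apply]
      simp only [sLin, LinearMap.add_apply, LinearMap.neg_apply, LinearMap.id_coe, id_eq,
        LinearMap.smulRight_apply, LinearMap.smul_apply, upair_apply, smul_eq_mul]
      match_scalars <;> ring,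
    LinearMap.det_smul, Module.finrank_fintype_fun_eq_card, Fintype.card_fin, LinearMap.transvection.det]
  simp only [LinearMap.smul_apply, upair_apply, smul_eq_mul]
  rw [div_mul_cancel₀ _ hp]
  ring

theorem sref_tau {p : Fin 3 → F} (hp : f p p ≠ 0) (hr : τ p = p) (x : Fin 3 → F) :
    τ ((sref R.herm p)⬝x) = (sref R.herm p)⬝(τ x) := by
  rw [R.sref_apply hp, R.sref_apply hp, R.tadd, R.tneg, R.tsmul, hr, map_div₀, map_mul, map_ofNat,
    norm_fixed R.herm, ← R.tform x p, hr]

theorem sref_smul {p : Fin 3 → F} (hp : f p p ≠ 0) {s : F} (hs : s ≠ 0) :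
    sref R.herm (s • p) = sref R.herm p := by
  have hf := R.herm
  have hσs : σ s ≠ 0 := (map_ne_zero σ).2 hs
  have hp' : f (s • p) (s • p) ≠ 0 := by
    rw [hf.smul_left, smul_right hf]; exact mul_ne_zero hs (mul_ne_zero hσs hp)
  refine ext_mulVec fun x => ?_
  rw [R.sref_apply hp', R.sref_apply hp, hf.smul_left, smul_right hf, smul_right hf, smul_smul]
  congr 2
  field_simp

theorem sref_conj {p : Fin 3 → F} (hp : f p p ≠ 0) {g : GL3} (hg : Iso f g) :
    g * sref R.herm p * g⁻¹ = sref R.herm (g⬝p) := by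
  refine ext_mulVec fun x => ?_
  rw [Units.val_mul, Units.val_mul, ← mulVec_mulVec, ← mulVec_mulVec, R.sref_apply hp,
    R.sref_apply (by rw [hg]; exact hp), mulVec_add, mulVec_neg, mulVec_inv_mulVec, mulVec_smul, hg,
    ← hg (_ *ᵥ x) p, mulVec_inv_mulVec]

/-- The fixed space of the involution is the line. -/
theorem sref_fix {p : Fin 3 → F} (hp : f p p ≠ 0) {x : Fin 3 → F} (h : (sref R.herm p)⬝x = x) :
    ∃ k : F, x = k • p := by
  rw [R.sref_apply hp, neg_add_eq_iff_eq_add] at h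
  refine ⟨f x p / f p p, smul_right_injective (M := Fin 3 → F) R.two ?_⟩
  show (2 : F) • x = (2 : F) • _
  rw [two_smul, ← h, smul_smul, mul_div_assoc]

theorem sref_inj {p p' : Fin 3 → F} (hp : f p p ≠ 0) (hp' : f p' p' ≠ 0)
    (h : sref R.herm p = sref R.herm p') : ∃ k : F, p' = k • p :=
  R.sref_fix hp (h ▸ R.sref_self hp')

/-- Commuting with the involution is fixing the line. -/
theorem sref_comm_iff {p : Fin 3 → F} (hp : f p p ≠ 0) {g : GL3} (hg : Iso f g) :
    g * sref R.herm p = sref R.herm p * g ↔ ∃ k : F, g⬝p = k • p := by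
  rw [← mul_inv_eq_iff_eq_mul, R.sref_conj hp hg]
  refine ⟨fun h => R.sref_inj hp (by rw [hg]; exact hp) h.symm, fun ⟨k, hk⟩ => ?_⟩
  have hk0 : k ≠ 0 := fun h => hp (by
    have := hg p p
    rw [hk, h, zero_smul, zero_left R.herm] at this
    exact this.symm)
  rw [hk, R.sref_smul hp hk0]

end RatSys

/-- A rational hyperbolic pair and a rational vector orthogonal to it. -/
structure Frame (σ : F ≃+* F) (f : (Fin 3 → F) → (Fin 3 → F) → F) (τ : (Fin 3 → F) → (Fin 3 → F))
    (e f₀ u : Fin 3 → F) : Prop where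
  te : τ e = e
  tf : τ f₀ = f₀
  tu : τ u = u
  ee : f e e = 0
  ff : f f₀ f₀ = 0
  ef : f e f₀ = 1
  ue : f u e = 0
  uf : f u f₀ = 0
  uu : f u u ≠ 0

/-- The torus element. -/
noncomputable def hEl (hf : Cfsg.Geo.IsUnitaryForm σ f) (e f₀ : Fin 3 → F) (c : F) : GL3 :=
  sref hf (e + c • f₀) * sref hf (e + f₀)

/-- The unipotent element. -/
noncomputable def uEl (hf : Cfsg.Geo.IsUnitaryForm σ f) (e u : Fin 3 → F) (a : F) : GL3 :=
  sref hf (u + a • e) * sref hf u

namespace Frame

variable {e f₀ u : Fin 3 → F} (R : RatSys q σ f τ) (W : Frame σ f τ e f₀ u)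
include R W

theorem fe : f f₀ e = 1 := by rw [R.herm.herm, W.ef, map_one]

theorem eu : f e u = 0 := orth_comm R.herm W.ue

theorem fu : f f₀ u = 0 := orth_comm R.herm W.uf

theorem e_ne : e ≠ 0 := fun h => by
  have h1 := W.ef
  rw [h, zero_left R.herm] at h1
  exact zero_ne_one h1

theorem basis : (Matrix.of fun i j => ![e, f₀, u] j i).det ≠ 0 :=
  det_ne_zero_of_pairing (a' := f₀) (b' := e) (c' := u) f R.herm.add_left R.herm.smul_left
    (by rw [W.ef]; exact one_ne_zero) (by rw [W.fe R]; exact one_ne_zero) W.uu W.ff W.uf W.ee W.ue (W.eu R)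
    (W.fu R)

theorem hEl_apply {c : F} (hc : σ c = c) (hc0 : c ≠ 0) :
    (hEl R.herm e f₀ c)⬝e = c⁻¹ • e ∧ (hEl R.herm e f₀ c)⬝f₀ = c • f₀ ∧ (hEl R.herm e f₀ c)⬝u = u := by
  have hf := R.herm
  have n1 : ∀ d : F, f (e + d • f₀) (e + d • f₀) = d + σ d := fun d => by
    simp [hf.add_left, add_right hf, hf.smul_left, smul_right hf, W.ee, W.ff, W.ef, W.fe R]; ring
  have h2c : f (e + c • f₀) (e + c • f₀) ≠ 0 := by
    rw [n1, hc, ← two_mul]; exact mul_ne_zero R.two hc0
  have h21 : f (e + f₀) (e + f₀) = 2 := by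
    have := n1 1; rw [one_smul, map_one] at this; rw [this]; norm_num
  have h2c' := h2c
  rw [n1, hc] at h2c'
  have h2 := R.two
  refine ⟨?_, ?_, ?_⟩ <;>
    rw [hEl, Units.val_mul, ← mulVec_mulVec, R.sref_apply (p := e + f₀) (by rw [h21]; exact h2), R.sref_apply h2c, h21,
      n1, hc] <;>
    simp only [hf.add_left, add_right hf, hf.smul_left, smul_right hf, W.ee, W.ff, W.ef, W.fe R, W.ue, W.uf,
      hc, map_one, ← neg_one_smul F e, ← neg_one_smul F f₀, ← neg_one_smul F u] <;>
    match_scalars <;> field_simp <;> (first | ring1 | (rw [one_add_one_eq_two]; field_simp; ring1) | simp)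

theorem uEl_apply {a : F} (ha : σ a = a) :
    (uEl R.herm e u a)⬝e = e ∧
      (uEl R.herm e u a)⬝f₀ = f₀ - (2 * a / f u u) • u - (2 * a ^ 2 / f u u) • e ∧
      (uEl R.herm e u a)⬝u = u + (2 * a) • e := by
  have hf := R.herm
  have n1 : f (u + a • e) (u + a • e) = f u u := by
    simp [hf.add_left, add_right hf, hf.smul_left, smul_right hf, W.ee, W.ue, W.eu R]
  have hn := W.uu
  refine ⟨?_, ?_, ?_⟩ <;>
    rw [uEl, Units.val_mul, ← mulVec_mulVec, R.sref_apply W.uu, R.sref_apply (p := u + a • e) (by rw [n1]; exact hn), n1] <;>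
    simp only [hf.add_left, add_right hf, hf.smul_left, smul_right hf, W.ee, W.ff, W.ef, W.fe R, W.ue, W.uf,
      W.eu R, W.fu R, ha, ← neg_one_smul F e, ← neg_one_smul F f₀, ← neg_one_smul F u] <;>
    match_scalars <;> field_simp <;> ring

end Frame

end CfsgLib.SUThree90.Orth
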