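import Mathlib

/-!
The count on poles for a group in which every non-identity element fixes exactly two points.

`pole_hom`: if such a group has an element `c` of order at least three inverted by an involution `r`
outside the kernel of a homomorphism to an abelian group killing `c`, then either the group
preserves the pair of poles of `c`, or it has order 24 and `c` order three.
-/

set_option autoImplicit false
set_option linter.unusedSectionVars false
set_option linter.style.haveILetI false

namespace CfsgLib.SUThree90.Pole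

open MulAction
open scoped Classical

variable {G X : Type*} [Group G] [Finite G] [MulAction G X] [Finite X]

/-- Non-identity elements of `K` fixing a point, counted over the points. -/
theorem sum_stab_inf (hfix : ∀ g : G, g ≠ 1 → Nat.card {x : X // g • x = x} = 2) (K : Subgroup G)
    [Fintype X] :
    ∑ x : X, (Nat.card (stabilizer G x ⊓ K : Subgroup G) - 1) = 2 * (Nat.card K - 1) := by
  haveI : Fintype G := Fintype.ofFinite G
  have hone : ∀ x : X, Nat.card (stabilizer G x ⊓ K : Subgroup G) - 1 =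
      Nat.card {g : {g : K // g ≠ 1} // ((g : K) : G) • x = x} := by
    intro x
    let e : {g : {g : K // g ≠ 1} // ((g : K) : G) • x = x} ≃
        {g : (stabilizer G x ⊓ K : Subgroup G) // g ≠ 1} :=
      { toFun := fun g => ⟨⟨((g.1 : K) : G), Subgroup.mem_inf.2 ⟨mem_stabilizer_iff.2 g.2, g.1.1.2⟩⟩,
          fun h => g.1.2 (Subtype.ext (congrArg Subtype.val h :))⟩
        invFun := fun g => ⟨⟨⟨(g.1 : G), (Subgroup.mem_inf.1 g.1.2).2⟩,
          fun h => g.2 (Subtype.ext (congrArg Subtype.val h :))⟩,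
          mem_stabilizer_iff.1 (Subgroup.mem_inf.1 g.1.2).1⟩
        left_inv := fun g => rfl
        right_inv := fun g => rfl }
    rw [Nat.card_congr e, Nat.card_eq_fintype_card, Nat.card_eq_fintype_card,
      Fintype.card_subtype_compl, Fintype.card_subtype_eq]
  simp only [hone]
  rw [← Nat.card_sigma]
  let f : (Σ x : X, {g : {g : K // g ≠ 1} // ((g : K) : G) • x = x}) ≃
      (Σ g : {g : K // g ≠ 1}, {x : X // ((g : K) : G) • x = x}) :=
    { toFun := fun q => ⟨q.2.1, q.1, q.2.2⟩
      invFun := fun q => ⟨q.2.1, q.1, q.2.2⟩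
      left_inv := fun q => rfl
      right_inv := fun q => rfl }
  rw [Nat.card_congr f, Nat.card_sigma,
    Finset.sum_congr rfl fun (g : {g : K // g ≠ 1}) _ =>
      hfix ((g : K) : G) fun h => g.2 (Subtype.ext h),
    Finset.sum_const, Finset.card_univ, smul_eq_mul, Fintype.card_subtype_compl,
    Fintype.card_subtype_eq, Nat.card_eq_fintype_card, mul_comm]

theorem card_stab_inf_smul (K : Subgroup G) [K.Normal] (g : G) (x : X) :
    Nat.card (stabilizer G (g • x) ⊓ K : Subgroup G) =
      Nat.card (stabilizer G x ⊓ K : Subgroup G) := by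
  have hK : K.map (MulAut.conj g).toMonoidHom = K := by
    refine Subgroup.eq_of_le_of_card_ge ?_
      (le_of_eq (Subgroup.card_map_of_injective (MulAut.conj g).injective).symm)
    rintro _ ⟨y, hy, rfl⟩
    exact Subgroup.Normal.conj_mem inferInstance y hy g
  rw [stabilizer_smul_eq_stabilizer_map_conj]
  nth_rewrite 1 [← hK]
  rw [← Subgroup.map_inf _ _ _ (MulAut.conj g).injective,
    Subgroup.card_map_of_injective (MulAut.conj g).injective]

/-- The size of an orbit times the stabiliser of a representative. -/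
theorem orbit_mul_stab [Fintype X] (o : orbitRel.Quotient G X) :
    (Finset.univ.filter fun x : X => Quotient.mk (orbitRel G X) x = o).card *
      Nat.card (stabilizer G o.out) = Nat.card G := by
  have h1 : (Finset.univ.filter fun x : X => Quotient.mk (orbitRel G X) x = o).card =
      Nat.card (orbit G o.out) := by
    rw [Nat.card_eq_fintype_card, ← Set.toFinset_card]
    congr 1
    ext x
    simp only [Finset.mem_filter, Finset.mem_univ, true_and, Set.mem_toFinset]
    rw [← orbitRel_apply, ← Quotient.eq (r := orbitRel G X), Quotient.out_eq]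
  rw [h1, Nat.card_congr (orbitEquivQuotientStabilizer G o.out),
    ← Subgroup.card_eq_card_quotient_mul_card_subgroup]

/-- The three orbit equation. -/
theorem three_orbits {n s1 s2 s3 h1 h2 h3 : ℕ} (e1 : s1 * h1 = n) (e2 : s2 * h2 = n)
    (e3 : s3 * h3 = n) (hn : 0 < n) (g1 : 3 ≤ h1) (g2 : h2 = 2) (g3 : 2 ≤ h3)
    (he : s1 + s2 + s3 = n + 2) :
    s1 = 2 ∧ h3 = 2 ∨ h1 = 3 ∧ h3 = 3 ∧ n = 12 ∨ h1 = 3 ∧ h3 = 4 ∧ n = 24 ∨
      h1 = 4 ∧ h3 = 3 ∧ n = 24 ∨ h1 = 3 ∧ h3 = 5 ∧ n = 60 ∨ h1 = 5 ∧ h3 = 3 ∧ n = 60 := by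
  subst g2
  rcases Nat.lt_or_ge h3 3 with h | h
  · obtain rfl : h3 = 2 := by omega
    left; omega
  right
  have hs1 : 0 < s1 := Nat.pos_of_ne_zero fun e => by rw [e, zero_mul] at e1; omega
  have hs3 : 0 < s3 := Nat.pos_of_ne_zero fun e => by rw [e, zero_mul] at e3; omega
  have a1 : s1 * 3 ≤ n := e1 ▸ Nat.mul_le_mul_left s1 g1
  have a3 : s3 * 3 ≤ n := e3 ▸ Nat.mul_le_mul_left s3 h
  have hor : h1 = 3 ∨ h3 = 3 := by
    by_contra hcon
    push Not at hcon
    have b1 : s1 * 4 ≤ n := e1 ▸ Nat.mul_le_mul_left s1 (by omega)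
    have b3 : s3 * 4 ≤ n := e3 ▸ Nat.mul_le_mul_left s3 (by omega)
    omega
  rcases hor with rfl | rfl
  · have h6 : h3 < 6 := by
      by_contra hcon
      have b3 : s3 * 6 ≤ n := e3 ▸ Nat.mul_le_mul_left s3 (by omega)
      omega
    interval_cases h3 <;> omega
  · have h6 : h1 < 6 := by
      by_contra hcon
      have b1 : s1 * 6 ≤ n := e1 ▸ Nat.mul_le_mul_left s1 (by omega)
      omega
    interval_cases h1 <;> omega

theorem pole_hom {G X A : Type*} [Group G] [Finite G] [MulAction G X] [Finite X] [CommGroup A]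
    (hfix : ∀ g : G, g ≠ 1 → Nat.card {x : X // g • x = x} = 2) {c r : G} (hm : 3 ≤ orderOf c)
    (hr : r * c * r⁻¹ = c⁻¹) (hr2 : r * r = 1) (χ : G →* A) (hc : χ c = 1) (hχ : χ r ≠ 1) :
    (∀ x : X, c • x = x → ∀ g : G, c • (g • x) = g • x) ∨
      (Nat.card G = 24 ∧ orderOf c = 3 ∧ ∀ g : G, χ g ^ 2 = 1) := by
  haveI : Fintype X := Fintype.ofFinite X
  by_cases hempty : ∀ x : X, c • x ≠ x
  · exact Or.inl fun x hx => absurd hx (hempty x)
  push Not at hempty
  obtain ⟨x, hx⟩ := hempty
  have hc1 : c ≠ 1 := fun e => by rw [e, orderOf_one] at hm; omega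
  set n := Nat.card G with hn
  have hnpos : 0 < n := Nat.card_pos
  have hn3 : 3 ≤ n := hm.trans (Nat.le_of_dvd hnpos (orderOf_dvd_natCard c))
  -- orbit data
  let h : orbitRel.Quotient G X → ℕ := fun o => Nat.card (stabilizer G o.out)
  let s : orbitRel.Quotient G X → ℕ :=
    fun o => (Finset.univ.filter fun x : X => Quotient.mk (orbitRel G X) x = o).card
  have hsh : ∀ o, s o * h o = n := fun o => orbit_mul_stab o
  have hrep : ∀ (K : Subgroup G) [K.Normal] (y : X),
      Nat.card (stabilizer G y ⊓ K : Subgroup G) =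
        Nat.card (stabilizer G (Quotient.mk (orbitRel G X) y).out ⊓ K : Subgroup G) := by
    intro K _ y
    obtain ⟨g, hg⟩ : (Quotient.mk (orbitRel G X) y).out ∈ orbit G y := by
      rw [← orbitRel_apply, ← Quotient.eq (r := orbitRel G X), Quotient.out_eq]
    rw [← hg]
    exact (card_stab_inf_smul K g y).symm
  have hsum : ∀ (K : Subgroup G) [K.Normal],
      ∑ o, s o * (Nat.card (stabilizer G o.out ⊓ K : Subgroup G) - 1) = 2 * (Nat.card K - 1) := by
    intro K _
    rw [← sum_stab_inf hfix K, ← Finset.sum_fiberwise Finset.univ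
      (fun x : X => Quotient.mk (orbitRel G X) x)]
    refine Finset.sum_congr rfl fun o _ => ?_
    rw [Finset.sum_congr rfl fun y hy => by rw [hrep K y, (Finset.mem_filter.1 hy).2],
      Finset.sum_const, smul_eq_mul]
  set S := Finset.univ.filter fun o => 2 ≤ h o with hS
  have hsumS : ∑ o ∈ S, s o * (h o - 1) = 2 * (n - 1) := by
    have := hsum ⊤
    rw [Subgroup.card_top] at this
    rw [← this, hS, Finset.sum_filter]
    refine Finset.sum_congr rfl fun o _ => ?_
    rw [inf_top_eq]
    split_ifs with h2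
    · rfl
    · have h0 : 0 < h o := Nat.card_pos
      rw [show Nat.card (stabilizer G o.out) = 1 by simp only [h] at h2 h0; omega, Nat.sub_self,
        mul_zero]
  -- a fixed point of `c`
  have hord : ∀ y : X, c • y = y → orderOf c ∣ h (Quotient.mk (orbitRel G X) y) := by
    intro y hy
    have h1 := hrep ⊤ y
    rw [inf_top_eq, inf_top_eq] at h1
    show orderOf c ∣ Nat.card (stabilizer G (Quotient.mk (orbitRel G X) y).out)
    rw [← h1, ← Subgroup.orderOf_mk c (mem_stabilizer_iff.2 hy)]
    exact orderOf_dvd_natCard _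
  have hge : ∀ y : X, c • y = y → 3 ≤ h (Quotient.mk (orbitRel G X) y) := fun y hy =>
    hm.trans (Nat.le_of_dvd Nat.card_pos (hord y hy))
  have hin : ∀ y : X, c • y = y → Quotient.mk (orbitRel G X) y ∈ S := fun y hy =>
    Finset.mem_filter.2 ⟨Finset.mem_univ _, by have := hge y hy; omega⟩
  set o₁ := Quotient.mk (orbitRel G X) x with ho1
  have hterm : ∀ o ∈ S, n ≤ 2 * (s o * (h o - 1)) := by
    intro o ho
    have h2 := (Finset.mem_filter.1 ho).2
    rw [← hsh o, show 2 * (s o * (h o - 1)) = s o * (2 * (h o - 1)) by ring]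
    exact Nat.mul_le_mul_left _ (by omega)
  have hS3 : S.card ≤ 3 := by
    by_contra hcon
    have := Finset.sum_le_sum hterm
    rw [Finset.sum_const, smul_eq_mul, ← Finset.mul_sum, hsumS] at this
    have := Nat.mul_le_mul_right n (show 4 ≤ S.card by omega)
    omega
  have hval : ∀ o, s o * (h o - 1) + s o = n := fun o => by
    have h0 : 0 < h o := Nat.card_pos
    calc s o * (h o - 1) + s o = s o * (h o - 1 + 1) := by ring
      _ = n := by rw [Nat.sub_add_cancel h0]; exact hsh o
  have hspos : ∀ o, 0 < s o := fun o => Nat.pos_of_ne_zero fun e => by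
    have := hsh o; rw [e, zero_mul] at this; omega
  have h1S : o₁ ∈ S := hin x hx
  rw [← Finset.add_sum_erase _ _ h1S] at hsumS
  have hcardE := Finset.card_erase_of_mem h1S
  -- an orbit which is the pair of fixed points gives the first conclusion
  have hpair : ∀ y : X, c • y = y → s (Quotient.mk (orbitRel G X) y) = 1 →
      ∀ g : G, c • (g • y) = g • y := by
    intro y hy h1 g
    obtain ⟨z, hz⟩ := Finset.card_eq_one.1 h1
    have hmem : ∀ w : X, w ∈ orbit G y → w = z := fun w hw => Finset.mem_singleton.1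
      (hz ▸ Finset.mem_filter.2 ⟨Finset.mem_univ _, Quotient.sound hw⟩)
    rw [hmem (g • y) (mem_orbit _ _), ← hmem y (mem_orbit_self _), hy]
  rcases (show S.card = 1 ∨ S.card = 2 ∨ S.card = 3 by
      have := Finset.card_pos.2 ⟨o₁, h1S⟩; omega) with hk | hk | hk
  · exfalso
    rw [hk, Nat.sub_self, Finset.card_eq_zero] at hcardE
    rw [hcardE, Finset.sum_empty, add_zero] at hsumS
    have := hval o₁
    have := hspos o₁
    omega
  · left
    rw [hk] at hcardE
    obtain ⟨o₂, ho2⟩ := Finset.card_eq_one.1 hcardE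
    rw [ho2, Finset.sum_singleton] at hsumS
    intro y hy
    refine hpair y hy ?_
    have h2 := hspos o₂
    have h1 := hspos o₁
    have e1 := hval o₁
    have e2 := hval o₂
    by_cases e : Quotient.mk (orbitRel G X) y = o₁
    · rw [e]; omega
    · have : Quotient.mk (orbitRel G X) y ∈ S.erase o₁ := Finset.mem_erase.2 ⟨e, hin y hy⟩
      rw [ho2, Finset.mem_singleton] at this
      rw [this]; omega
  -- three orbits
  rw [hk] at hcardE
  obtain ⟨o₂, o₃, hne, ho23⟩ := Finset.card_eq_two.1 hcardE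
  rw [ho23, Finset.sum_pair hne] at hsumS
  obtain ⟨o₂, o₃, h22, hne, ho23, hsumS⟩ : ∃ o₂ o₃, h o₂ = 2 ∧ o₂ ≠ o₃ ∧ S.erase o₁ = {o₂, o₃} ∧
      s o₁ * (h o₁ - 1) + (s o₂ * (h o₂ - 1) + s o₃ * (h o₃ - 1)) = 2 * (n - 1) := by
    have hm2 : ∀ o, o ∈ ({o₂, o₃} : Finset _) → 2 ≤ h o := fun o ho => by
      rw [← ho23] at ho
      exact (Finset.mem_filter.1 (Finset.mem_of_mem_erase ho)).2
    by_cases e2 : h o₂ = 2
    · exact ⟨o₂, o₃, e2, hne, ho23, hsumS⟩
    by_cases e3 : h o₃ = 2
    · exact ⟨o₃, o₂, e3, hne.symm, by rw [ho23, Finset.pair_comm],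
        by rw [add_comm (s o₃ * _)]; exact hsumS⟩
    exfalso
    have g2 := hm2 o₂ (by simp)
    have g3 := hm2 o₃ (by simp)
    have b1 : s o₁ * 3 ≤ n := hsh o₁ ▸ Nat.mul_le_mul_left _ (hge x hx)
    have b2 : s o₂ * 3 ≤ n := hsh o₂ ▸ Nat.mul_le_mul_left _ (by omega)
    have b3 : s o₃ * 3 ≤ n := hsh o₃ ▸ Nat.mul_le_mul_left _ (by omega)
    have e1 := hval o₁
    have e2 := hval o₂
    have e3 := hval o₃
    omega
  have ho3S : o₃ ∈ S := Finset.mem_of_mem_erase (show o₃ ∈ S.erase o₁ by rw [ho23]; simp)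
  have h32 := (Finset.mem_filter.1 ho3S).2
  have hthree := three_orbits (hsh o₁) (hsh o₂) (hsh o₃) hnpos (hge x hx) h22 h32
    (by have := hval o₁; have := hval o₂; have := hval o₃; omega)
  rcases hthree with ⟨hs2, hh3⟩ | hcases
  · -- the dihedral case: the third orbit is the pair of fixed points
    left
    intro y hy g
    have hmk : ∀ z : X, c • z = z → Quotient.mk (orbitRel G X) z = o₁ := by
      intro z hz
      by_contra e
      have hm' : Quotient.mk (orbitRel G X) z ∈ S.erase o₁ := Finset.mem_erase.2 ⟨e, hin z hz⟩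
      rw [ho23, Finset.mem_insert, Finset.mem_singleton] at hm'
      have := hge z hz
      rcases hm' with e' | e' <;> rw [e'] at this <;> omega
    have hsub : (Finset.univ.filter fun z : X => c • z = z) ⊆
        Finset.univ.filter fun z : X => Quotient.mk (orbitRel G X) z = o₁ := fun z hz =>
      Finset.mem_filter.2 ⟨Finset.mem_univ _, hmk z (Finset.mem_filter.1 hz).2⟩
    have h2 : (Finset.univ.filter fun z : X => c • z = z).card = 2 := by
      rw [← hfix c hc1, Nat.card_eq_fintype_card, Fintype.card_subtype]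
    have heq := Finset.eq_of_subset_of_card_le hsub (by rw [h2]; exact le_of_eq hs2)
    have hgy : g • y ∈ Finset.univ.filter fun z : X => Quotient.mk (orbitRel G X) z = o₁ :=
      Finset.mem_filter.2 ⟨Finset.mem_univ _,
        (Quotient.sound (s := orbitRel G X) (mem_orbit y g)).trans (hmk y hy)⟩
    rw [← heq] at hgy
    exact (Finset.mem_filter.1 hgy).2
  -- the polyhedral cases
  set K := χ.ker with hK
  have hm1 : orderOf c = h o₁ := by
    have hd := hord x hx
    rw [← ho1] at hd
    have hle : orderOf c ≤ h o₁ := Nat.le_of_dvd Nat.card_pos hd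
    rcases hcases with ⟨e, -⟩ | ⟨e, -⟩ | ⟨e, -⟩ | ⟨e, -⟩ | ⟨e, -⟩ <;> rw [e] at hd hle ⊢
    all_goals first
      | omega
      | (interval_cases (orderOf c) <;> first | rfl | (norm_num at hd))
  have hfull : Nat.card (stabilizer G o₁.out ⊓ K : Subgroup G) = h o₁ := by
    rw [← hrep K x]
    have hst : Subgroup.zpowers c = stabilizer G x := by
      refine Subgroup.eq_of_le_of_card_ge (Subgroup.zpowers_le.2 (mem_stabilizer_iff.2 hx)) ?_
      rw [Nat.card_zpowers, hm1]
      have h1 := hrep ⊤ x
      rw [inf_top_eq, inf_top_eq] at h1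
      exact le_of_eq h1
    have hle : stabilizer G x ≤ K := hst ▸ Subgroup.zpowers_le.2 (MonoidHom.mem_ker.2 hc)
    rw [inf_eq_left.2 hle, ← hst, Nat.card_zpowers, hm1]
  have hidx1 : K.index ≠ 1 := fun e => hχ (MonoidHom.mem_ker.1
    (show r ∈ K by rw [Subgroup.index_eq_one.1 e]; exact Subgroup.mem_top r))
  have hmul := K.card_mul_index
  have hone : s o₁ * (h o₁ - 1) ≤ 2 * (Nat.card K - 1) := by
    rw [← hsum K, ← hfull]
    exact Finset.single_le_sum
      (f := fun o => s o * (Nat.card (stabilizer G o.out ⊓ K : Subgroup G) - 1))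
      (fun o _ => Nat.zero_le _) (Finset.mem_univ o₁)
  have hKsmall : K.index ≠ 2 → 3 * Nat.card K ≤ n := fun e => by
    have h3 : 3 ≤ K.index := by
      have : K.index ≠ 0 := Subgroup.index_ne_zero_of_finite
      omega
    rw [hn, ← hmul, mul_comm]
    exact Nat.mul_le_mul_left _ h3
  have hodd : K.index = 2 → Odd (h o₃) →
      s o₁ * (h o₁ - 1) + s o₃ * (h o₃ - 1) ≤ 2 * (Nat.card K - 1) := by
    intro e ho
    have h13 : o₁ ≠ o₃ := fun e' => (Finset.mem_erase.1
      (show o₃ ∈ S.erase o₁ by rw [ho23]; simp)).1 e'.symm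
    have h3le : stabilizer G o₃.out ≤ K := by
      intro g hg
      have hd : orderOf g ∣ h o₃ := by
        rw [← Subgroup.orderOf_mk g hg]; exact orderOf_dvd_natCard _
      obtain ⟨k, hk'⟩ := ho.of_dvd_nat hd
      have hg2 : g ^ 2 ∈ K := e ▸ Subgroup.pow_index_mem K g
      have hgk : g = (g ^ 2) ^ (k + 1) := by
        rw [← pow_mul, show 2 * (k + 1) = orderOf g + 1 by omega, pow_succ, pow_orderOf_eq_one,
          one_mul]
      rw [hgk]
      exact pow_mem hg2 _
    have h3full : Nat.card (stabilizer G o₃.out ⊓ K : Subgroup G) = h o₃ := by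
      rw [inf_eq_left.2 h3le]
    rw [← hsum K, ← hfull, ← h3full, ← Finset.sum_pair
      (f := fun o => s o * (Nat.card (stabilizer G o.out ⊓ K : Subgroup G) - 1)) h13]
    exact Finset.sum_le_sum_of_subset (Finset.subset_univ _)
  have e1 := hsh o₁
  have e3 := hsh o₃
  rcases hcases with ⟨a, b, d⟩ | ⟨a, b, d⟩ | ⟨a, b, d⟩ | ⟨a, b, d⟩ | ⟨a, b, d⟩ <;>
    rw [a] at e1 hone hodd hm1 <;> rw [b] at e3 hodd <;> by_cases e : K.index = 2
  all_goals first
    | (exfalso
       have := hKsmall e
       omega)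
    | (exfalso
       have := hodd e (by decide)
       have hcard := e ▸ hmul
       omega)
    | (refine Or.inr ⟨d, hm1, fun g => ?_⟩
       rw [← map_pow]
       exact MonoidHom.mem_ker.1 (e ▸ Subgroup.pow_index_mem K g))

end CfsgLib.SUThree90.Pole
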