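import Mathlib
import Cfsg.Agent.SUThree90.Pole
import Cfsg.Agent.SUThree90.Point

/-!
Dimension three: the action of the stabiliser of an anisotropic point on the lines of its complement, for a group
without transvections.
-/

set_option autoImplicit false
set_option linter.unusedSectionVars false

namespace CfsgLib.SUThree90

open Matrix CfsgLib.TransvGL CfsgLib.UnitCentres

variable {ι : Type} [Fintype ι] [DecidableEq ι] {F : Type*} [Field F] [Fintype F]
variable {q : ℕ} {σ : F ≃+* F} {f : (ι → F) → (ι → F) → F}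

/-- `g` acts as a scalar on the complement of `p`. -/
def ScalarPerp (f : (ι → F) → (ι → F) → F) (p : ι → F) (g : GL ι F) : Prop :=
  ∃ β : F, ∀ x, f x p = 0 → (g : Matrix ι ι F) *ᵥ x = β • x

theorem exists_perp_coord (hf : Cfsg.Geo.IsUnitaryForm σ f) (h3 : Fintype.card ι = 3) {p : ι → F}
    (hp : f p p ≠ 0) :
    ∃ e e', f e p = 0 ∧ f e' p = 0 ∧ f e e = 0 ∧ f e' e' = 0 ∧ f e e' = 1 ∧ f e' e = 1 ∧
      (∀ v, ∃ α β γ : F, v = α • e + β • e' + γ • p) ∧
      ∀ v, f v p = 0 → ∃ α β : F, v = α • e + β • e' := by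
  obtain ⟨e, e', hep, he'p, hee, he'e', h1⟩ := exists_pair_perp hf h3 hp
  have hall : ∀ v, ∃ α β γ : F, v = α • e + β • e' + γ • p := fun v =>
    exists_coord hf h3 hee he'e' h1 (orth_comm hf hep) (orth_comm hf he'p) hp v
  refine ⟨e, e', hep, he'p, hee, he'e', h1, by rw [hf.herm, h1, map_one], hall, fun v hv => ?_⟩
  obtain ⟨α, β, γ, rfl⟩ := hall v
  rw [hf.add_left, hf.add_left, hf.smul_left, hf.smul_left, hf.smul_left, hep, he'p] at hv
  have hγ : γ = 0 := by simpa [hp] using hv
  exact ⟨α, β, by rw [hγ]; simp⟩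

theorem perp_span (hf : Cfsg.Geo.IsUnitaryForm σ f) (h3 : Fintype.card ι = 3) {p : ι → F} (hp : f p p ≠ 0)
    {x y z : ι → F} (hx : f x p = 0) (hy : f y p = 0) (hx0 : x ≠ 0) (hyx : y ∉ Submodule.span F {x})
    (hz : f z p = 0) : ∃ a b : F, z = a • x + b • y := by
  classical
  obtain ⟨e, e', -, -, -, -, -, -, -, hL⟩ := exists_perp_coord hf h3 hp
  have hmem : ∀ v, f v p = 0 → v ∈ Submodule.span F ({e, e'} : Set (ι → F)) := fun v hv => by
    obtain ⟨α, β, rfl⟩ := hL v hv
    exact Submodule.mem_span_pair.2 ⟨α, β, rfl⟩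
  have hle : Submodule.span F ({x, y} : Set (ι → F)) ≤ Submodule.span F {e, e'} := Submodule.span_le.2 (by
    rintro v (rfl | rfl)
    exacts [hmem _ hx, hmem _ hy])
  have h2 : Module.finrank F (Submodule.span F ({e, e'} : Set (ι → F))) ≤ 2 := by
    have h := finrank_span_finset_le_card (R := F) ({e, e'} : Finset (ι → F))
    rw [Set.finrank, Finset.coe_pair] at h
    exact h.trans Finset.card_le_two
  have h1 : Submodule.span F {x} < Submodule.span F ({x, y} : Set (ι → F)) := lt_of_le_of_ne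
    (Submodule.span_mono (by simp)) fun h => hyx (by rw [h]; exact Submodule.subset_span (by simp))
  have h4 := Submodule.finrank_lt_finrank_of_lt h1
  rw [finrank_span_singleton hx0] at h4
  have he := Submodule.eq_of_le_of_finrank_le hle (by omega)
  obtain ⟨a, b, h⟩ := Submodule.mem_span_pair.1 (he ▸ hmem z hz)
  exact ⟨a, b, h.symm⟩

theorem exists_eigen_pair (hF : Fintype.card F = q ^ 2) (hσ : ∀ x, σ x = x ^ q)
    (hf : Cfsg.Geo.IsUnitaryForm σ f) (h3 : Fintype.card ι = 3) (h2 : (2 : F) ≠ 0) {p : ι → F}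
    (hp : f p p ≠ 0) {g : GL ι F} (hg : Iso f g) (hgp : (g : Matrix ι ι F) *ᵥ p ∈ Submodule.span F {p})
    (hns : ¬ ScalarPerp f p g)
    (hnt : ∀ x, x ≠ 0 → f x p = 0 → ∀ (hx : f x x = 0) (c : F), c ≠ 0 → c + σ c = 0 →
      uT hf hx c ∉ Subgroup.zpowers g) :
    ∃ x y : ι → F, f x p = 0 ∧ f y p = 0 ∧ x ≠ 0 ∧ y ∉ Submodule.span F {x} ∧ ∃ α β : F,
      α ≠ β ∧ (g : Matrix ι ι F) *ᵥ x = α • x ∧ (g : Matrix ι ι F) *ᵥ y = β • y := by
  obtain ⟨e, e', hep, he'p, hee, he'e', hee', he'e, hall, hL⟩ := exists_perp_coord hf h3 hp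
  obtain ⟨ε, hε⟩ := Submodule.mem_span_singleton.1 hgp
  have hε0 : ε ≠ 0 := fun h => by
    have := hg p p
    rw [← hε, h, zero_smul, zero_left hf] at this
    exact hp this.symm
  have hperp : ∀ v, f v p = 0 → f ((g : Matrix ι ι F) *ᵥ v) p = 0 := fun v hv => by
    have h1 := hg v p
    rw [← hε, smul_right hf, hv] at h1
    exact (mul_eq_zero.1 h1).resolve_left ((map_ne_zero σ).2 hε0)
  obtain ⟨a, c, hge⟩ := hL _ (hperp e hep)
  obtain ⟨b, d, hge'⟩ := hL _ (hperp e' he'p)
  have F1 : σ d * a + σ b * c = 1 := by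
    have := hg e e'
    rw [hge, hge', hee'] at this
    simp only [hf.add_left, add_right hf, hf.smul_left, smul_right hf, hee, he'e', hee', he'e] at this
    linear_combination this
  have F2 : σ d * b + σ b * d = 0 := by
    have := hg e' e'
    rw [hge', he'e'] at this
    simp only [hf.add_left, add_right hf, hf.smul_left, smul_right hf, hee, he'e', hee', he'e] at this
    linear_combination this
  have F3 : σ c * a + σ a * c = 0 := by
    have := hg e e
    rw [hge, hee] at this
    simp only [hf.add_left, add_right hf, hf.smul_left, smul_right hf, hee, he'e', hee', he'e] at this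
    linear_combination this
  have F4 : σ c * b + σ a * d = 1 := by
    have := congrArg σ F1
    rw [map_add, map_mul, map_mul, hf.involutive, hf.involutive, map_one] at this
    linear_combination this
  have he0 : e ≠ 0 := fun h => by rw [h, zero_left hf] at hee'; exact zero_ne_one hee'
  have neq : ∀ {x y : ι → F} {α β : F}, x ≠ 0 → y ≠ 0 → α ≠ β → (g : Matrix ι ι F) *ᵥ x = α • x →
      (g : Matrix ι ι F) *ᵥ y = β • y → y ∉ Submodule.span F {x} := by
    intro x y α β hx0 hy0 hne hx hy hm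
    obtain ⟨k, rfl⟩ := Submodule.mem_span_singleton.1 hm
    rw [mulVec_smul, hx, smul_comm] at hy
    have hk : k ≠ 0 := fun h => hy0 (by rw [h, zero_smul])
    have h0 : (α - β) • (k • x) = 0 := by rw [sub_smul, hy, sub_self]
    exact smul_ne_zero (sub_ne_zero.2 hne) (smul_ne_zero hk hx0) h0
  -- no Jordan block
  have jordan : ∀ {x y : ι → F} {l m : F}, x ≠ 0 → f x p = 0 → f y p = 0 → f x x = 0 → f y x = 1 →
      (∀ v, ∃ α β γ : F, v = α • x + β • y + γ • p) → (g : Matrix ι ι F) *ᵥ x = l • x →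
      (g : Matrix ι ι F) *ᵥ y = l • y + m • x → l ≠ 0 → m ≠ 0 → m * σ l + l * σ m = 0 → False := by
    intro x y l m hx0 hxp hyp hxx hyx hspan hgx hgy hl hm hrel
    set n := Fintype.card F - 1 with hn
    have hpn : ∀ k : ℕ, ((g ^ k : GL ι F) : Matrix ι ι F) *ᵥ x = l ^ k • x ∧
        ((g ^ k : GL ι F) : Matrix ι ι F) *ᵥ p = ε ^ k • p ∧
        l • ((g ^ k : GL ι F) : Matrix ι ι F) *ᵥ y = l ^ (k + 1) • y + ((k : F) * l ^ k * m) • x := by
      intro k
      induction k with
      | zero => simp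
      | succ k ih =>
        obtain ⟨i1, i2, i3⟩ := ih
        refine ⟨?_, ?_, ?_⟩
        · rw [pow_succ', Units.val_mul, ← mulVec_mulVec, i1, mulVec_smul, hgx, smul_smul, pow_succ]
        · rw [pow_succ', Units.val_mul, ← mulVec_mulVec, i2, mulVec_smul, ← hε, smul_smul, pow_succ]
        · rw [pow_succ' g, Units.val_mul, ← mulVec_mulVec, ← mulVec_smul, i3, mulVec_add, mulVec_smul,
            mulVec_smul, hgx, hgy]
          push_cast
          match_scalars <;> ring
    obtain ⟨h1, h2', h3'⟩ := hpn n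
    have hln : l ^ n = 1 := FiniteField.pow_card_sub_one_eq_one l hl
    have hεn : ε ^ n = 1 := FiniteField.pow_card_sub_one_eq_one ε hε0
    have hcast : (n : F) = -1 := by
      rw [hn, Nat.cast_sub Fintype.card_pos, FiniteField.cast_card_eq_zero, Nat.cast_one, zero_sub]
    rw [hln, one_smul] at h1
    rw [hεn, one_smul] at h2'
    rw [pow_succ, hln, hcast, one_mul, mul_one] at h3'
    obtain ⟨c', hc'⟩ : ∃ c', c' = -m / l := ⟨_, rfl⟩
    have hct : c' + σ c' = 0 := by
      have hσl : σ l ≠ 0 := (map_ne_zero σ).2 hl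
      rw [hc', map_div₀, map_neg]
      field_simp
      linear_combination -hrel
    refine hnt x hx0 hxp hxx c' (hc' ▸ div_ne_zero (neg_ne_zero.2 hm) hl) hct (?_ : _ ∈ _)
    have heq : g ^ n = uT hf hxx c' := ext_mulVec fun v => by
      obtain ⟨α, β, γ, rfl⟩ := hspan v
      rw [uT_mulVec]
      simp only [mulVec_add, mulVec_smul, h1, h2', hf.add_left, hf.smul_left, hxx, hyx, orth_comm hf hxp]
      refine smul_right_injective _ hl ?_
      show l • _ = l • _
      simp only [smul_add, smul_comm l β, h3', hc']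
      match_scalars <;> field_simp <;> ring
    exact heq ▸ Subgroup.npow_mem_zpowers g n
  have hσ0 : ∀ {z : F}, z ≠ 0 → σ z ≠ 0 := fun hz => (map_ne_zero σ).2 hz
  by_cases hc : c = 0
  · rw [hc, zero_smul, add_zero] at hge
    rw [hc, mul_zero, add_zero] at F1
    have ha : a ≠ 0 := fun h => by rw [h, mul_zero] at F1; exact zero_ne_one F1
    by_cases had : a = d
    · exfalso
      subst had
      have hb : b ≠ 0 := fun hb => hns ⟨a, fun x hx => by
        obtain ⟨α, β, rfl⟩ := hL x hx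
        rw [mulVec_add, mulVec_smul, mulVec_smul, hge, hge', hb, zero_smul, zero_add, smul_add, smul_comm α,
          smul_comm β]⟩
      exact jordan (x := e) (y := e') (l := a) (m := b) he0 hep he'p hee he'e hall hge
        (by rw [hge', add_comm]) ha hb (by linear_combination F2)
    · refine ⟨e, (b / (d - a)) • e + e', hep, by rw [hf.add_left, hf.smul_left, hep, he'p]; ring, he0, ?_⟩
      have hda : d - a ≠ 0 := sub_ne_zero.2 (Ne.symm had)
      have hy0 : (b / (d - a)) • e + e' ≠ 0 := fun h => by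
        have := congrArg (fun v => f v e) h
        simp [hf.add_left, hf.smul_left, hee, he'e, zero_left hf] at this
      have hy : (g : Matrix ι ι F) *ᵥ ((b / (d - a)) • e + e') = d • ((b / (d - a)) • e + e') := by
        rw [mulVec_add, mulVec_smul, hge, hge']
        match_scalars <;> field_simp
        ring
      exact ⟨neq he0 hy0 had hge hy, a, d, had, hge, hy⟩
  -- the quadratic equation
  obtain ⟨D, hD⟩ : ∃ D, D = a * d - b * c := ⟨_, rfl⟩
  have Dd : D * σ d = d := by rw [hD]; linear_combination d * F1 - c * F2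
  have Da : D * σ a = a := by rw [hD]; linear_combination a * F4 - b * F3
  have Db : D * σ b = -b := by rw [hD]; linear_combination a * F2 - b * F1
  have Dc : D * σ c = -c := by rw [hD]; linear_combination d * F3 - c * F4
  have hD0 : D ≠ 0 := fun h => hc (by rw [h, zero_mul] at Dc; exact neg_eq_zero.1 Dc.symm)
  have hDD : D * σ D = 1 := by
    refine mul_left_cancel₀ hD0 ?_
    rw [hD, map_sub, map_mul, map_mul, ← hD, mul_one]
    linear_combination (D * σ d) * Da + a * Dd - (D * σ c) * Db + b * Dc - hD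
  have hsq : ∀ z : F, z = 0 ∨ z ^ (q - 1) = 1 ∨ z ^ (q + 1) = 1 → ∃ s, s * s = z := by
    intro z hz
    rcases eq_or_ne z 0 with rfl | hz0
    · exact ⟨0, mul_zero 0⟩
    have hc2 : ringChar F ≠ 2 := fun h => h2 (by
      have := ringChar.spec F 2
      rw [h] at this
      exact_mod_cast this.2 dvd_rfl)
    have hodd := FiniteField.odd_card_of_char_ne_two hc2
    obtain ⟨m, hm⟩ : ∃ m, q = 2 * m + 1 := ⟨q / 2, by
      rw [hF, Nat.pow_mod] at hodd
      rcases Nat.mod_two_eq_zero_or_one q with h | h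
      · rw [h] at hodd; norm_num at hodd
      · omega⟩
    have hhalf : Fintype.card F / 2 = 2 * (m * (m + 1)) := by
      rw [hF, hm, show (2 * m + 1) ^ 2 = 1 + 2 * (2 * (m * (m + 1))) by ring,
        Nat.add_mul_div_left _ _ (by norm_num)]
      simp
    obtain ⟨s, hs⟩ := (FiniteField.isSquare_iff hc2 hz0).2 (by
      rw [hhalf]
      rcases hz with h | h | h
      · exact absurd h hz0
      · rw [show 2 * (m * (m + 1)) = (q - 1) * (m + 1) by rw [hm, show 2 * m + 1 - 1 = 2 * m by omega]; ring,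
          pow_mul, h, one_pow]
      · rw [show 2 * (m * (m + 1)) = (q + 1) * m by rw [hm]; ring, pow_mul, h, one_pow])
    exact ⟨s, hs.symm⟩
  obtain ⟨u, hu⟩ := hsq D (Or.inr (Or.inr (by rw [pow_succ', ← hσ, hDD])))
  obtain ⟨w, hw⟩ := hsq ((a + d) * σ (a + d) - 4) (by
    by_cases h0 : (a + d) * σ (a + d) - 4 = 0
    · exact Or.inl h0
    refine Or.inr (Or.inl (mul_left_cancel₀ h0 ?_))
    rw [mul_one, ← pow_succ', show q - 1 + 1 = q by
      rcases Nat.eq_zero_or_pos q with h | h
      · subst h; simp at hF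
      · omega, ← hσ, map_sub, map_mul, hf.involutive, map_ofNat, mul_comm])
  obtain ⟨s, hs⟩ : ∃ s, s = u * w := ⟨_, rfl⟩
  have hdisc : s * s = (d - a) ^ 2 + 4 * b * c := by
    calc s * s = D * ((a + d) * σ (a + d) - 4) := by rw [hs, ← hu, ← hw]; ring
      _ = _ := by rw [map_add]; linear_combination (a + d) * Da + (a + d) * Dd - 4 * hD
  -- an eigenvector for each root
  have root : ∀ r : F, r * r = s * s →
      (g : Matrix ι ι F) *ᵥ (((a - d + r) / (2 * c)) • e + e') =
        ((a + d + r) / 2) • (((a - d + r) / (2 * c)) • e + e') := by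
    intro r hr
    rw [hdisc] at hr
    rw [mulVec_add, mulVec_smul, hge, hge']
    match_scalars
    · field_simp
      linear_combination -hr
    · field_simp
      ring
  have hne : ∀ r : F, r • e + e' ≠ 0 := fun r h => by
    have := congrArg (fun v => f v e) h
    simp [hf.add_left, hf.smul_left, hee, he'e, zero_left hf] at this
  have hperp' : ∀ r : F, f (r • e + e') p = 0 := fun r => by
    rw [hf.add_left, hf.smul_left, hep, he'p]; ring
  by_cases hs0 : s = 0
  swap
  · have hd : (a + d + s) / 2 ≠ (a + d + -s) / 2 := fun h => hs0 (by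
      field_simp at h
      exact (mul_eq_zero.1 (show (2 : F) * s = 0 by linear_combination h)).resolve_left h2)
    exact ⟨_, _, hperp' _, hperp' _, hne _, neq (hne _) (hne _) hd (root s rfl) (root (-s) (by ring)),
      _, _, hd, root s rfl, root (-s) (by ring)⟩
  exfalso
  have hr := root 0 (by rw [hs0])
  obtain ⟨ξ, hξ⟩ : ∃ ξ, ξ = (a - d + 0) / (2 * c) := ⟨_, rfl⟩
  obtain ⟨l, hl⟩ : ∃ l, l = (a + d + 0) / 2 := ⟨_, rfl⟩
  rw [← hξ, ← hl] at hr
  set x := ξ • e + e' with hx
  have hgy : (g : Matrix ι ι F) *ᵥ e = l • e + c • x := by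
    rw [hge, hx, hξ, hl]
    match_scalars <;> field_simp
    ring
  have hxe : f x e = 1 := by rw [hx, hf.add_left, hf.smul_left, hee, he'e]; ring
  have hex : f e x = 1 := by rw [hf.herm, hxe, map_one]
  have k1 := hg x x
  rw [hr, hf.smul_left, smul_right hf] at k1
  have k2 := hg x e
  rw [hr, hgy, add_right hf, smul_right hf, smul_right hf, hf.smul_left, hf.smul_left, hxe] at k2
  have hll : l * σ l = 1 := by
    by_contra hne
    have hxx : f x x = 0 := (mul_eq_zero.1
      (show (l * σ l - 1) * f x x = 0 by linear_combination k1)).resolve_left (sub_ne_zero.2 hne)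
    rw [hxx] at k2
    exact hne (by linear_combination k2)
  have hl0 : l ≠ 0 := fun h => by rw [h, zero_mul] at hll; exact zero_ne_one hll
  have hxx : f x x = 0 := (mul_eq_zero.1
    (show (l * σ c) * f x x = 0 by linear_combination k2 - hll)).resolve_left (mul_ne_zero hl0 (hσ0 hc))
  have k3 := hg e e
  rw [hgy, hf.add_left, add_right hf, add_right hf, smul_right hf, smul_right hf, smul_right hf, smul_right hf,
    hf.smul_left, hf.smul_left, hf.smul_left, hf.smul_left, hee, hxx, hxe, hex] at k3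
  refine jordan (x := x) (y := e) (l := l) (m := c) (hne ξ) (hperp' ξ) hep hxx hex (fun v => ?_) hr hgy hl0 hc
    (by linear_combination k3)
  obtain ⟨α, β, γ, rfl⟩ := hall v
  exact ⟨β, α - β * ξ, γ, by rw [hx]; module⟩

/-- The lines in the complement of `p`. -/
abbrev PerpLine (f : (ι → F) → (ι → F) → F) (p : ι → F) : Type _ :=
  {W : Submodule F (ι → F) // ∃ x, x ≠ 0 ∧ f x p = 0 ∧ W = Submodule.span F {x}}

theorem perp_cases (hF : Fintype.card F = q ^ 2) (hσ : ∀ x, σ x = x ^ q)
    (hf : Cfsg.Geo.IsUnitaryForm σ f) (h3 : Fintype.card ι = 3) (h2 : (2 : F) ≠ 0) {p : ι → F}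
    (hp : f p p ≠ 0) (Γ : Subgroup (GL ι F)) (hiso : ∀ g ∈ Γ, Iso f g)
    (hfix : ∀ g ∈ Γ, (g : Matrix ι ι F) *ᵥ p ∈ Submodule.span F {p})
    (hnt : ∀ x, x ≠ 0 → f x p = 0 → ∀ (hx : f x x = 0) (c : F), c ≠ 0 → c + σ c = 0 → uT hf hx c ∉ Γ)
    (hker : ∀ g ∈ Γ, ScalarPerp f p g → ∀ ε : F, (g : Matrix ι ι F) *ᵥ p = ε • p → ε ^ 3 = 1)
    {c r : GL ι F} (hc : c ∈ Γ) (hr : r ∈ Γ) (hcp : (c : Matrix ι ι F) *ᵥ p = p)
    (hrp : (r : Matrix ι ι F) *ᵥ p = -p) (hc2 : ¬ ScalarPerp f p (c * c)) (hrc : r * c * r⁻¹ = c⁻¹)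
    (hr2 : r * r = 1) :
    (∀ g ∈ Γ, ∀ x, f x p = 0 → x ≠ 0 → (c : Matrix ι ι F) *ᵥ x ∈ Submodule.span F {x} →
      (c : Matrix ι ι F) *ᵥ ((g : Matrix ι ι F) *ᵥ x) ∈ Submodule.span F {(g : Matrix ι ι F) *ᵥ x}) ∨
    (ScalarPerp f p (c * c * c) ∧ (∀ g ∈ Γ, ∀ ε : F, (g : Matrix ι ι F) *ᵥ p = ε • p → ε ^ 6 = 1) ∧
      ((∃ z ∈ Γ, z ≠ 1 ∧ z * z = 1 ∧ ScalarPerp f p z) → 16 ∣ Nat.card Γ)) := by
  classical
  haveI : Finite (Submodule F (ι → F)) := Finite.of_injective (fun W => (W : Set (ι → F))) SetLike.coe_injective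
  have hperp : ∀ g ∈ Γ, ∀ x, f x p = 0 → f ((g : Matrix ι ι F) *ᵥ x) p = 0 := by
    intro g hg x hx
    obtain ⟨k, hk⟩ := Submodule.mem_span_singleton.1 (hfix g hg)
    have h1 := hiso g hg x p
    rw [← hk, smul_right hf, hx] at h1
    refine (mul_eq_zero.1 h1).resolve_left ((map_ne_zero σ).2 fun h0 => hp ?_)
    have h := hiso g hg p p
    rw [← hk, h0, zero_smul, zero_left hf] at h
    exact h.symm
  have hmap : ∀ (g : GL ι F) (x : ι → F), (Submodule.span F {x}).map (Matrix.toLin' (g : Matrix ι ι F)) =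
      Submodule.span F {(g : Matrix ι ι F) *ᵥ x} := fun g x => by
    rw [Submodule.map_span, Set.image_singleton, Matrix.toLin'_apply]
  have hne : ∀ (g : GL ι F) (x : ι → F), x ≠ 0 → (g : Matrix ι ι F) *ᵥ x ≠ 0 := fun g x hx h => hx (by
    rw [← inv_mulVec_mulVec g x, h, mulVec_zero])
  let act : Γ → PerpLine f p → PerpLine f p := fun g W =>
    ⟨W.1.map (Matrix.toLin' ((g : GL ι F) : Matrix ι ι F)), by
      obtain ⟨x, hx0, hxp, hW⟩ := W.2
      exact ⟨_, hne _ x hx0, hperp _ g.2 x hxp, by rw [hW, hmap]⟩⟩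
  letI : MulAction Γ (PerpLine f p) :=
    { smul := act
      one_smul := fun W => Subtype.ext (by
        show W.1.map _ = W.1
        simp)
      mul_smul := fun a b W => Subtype.ext (by
        show W.1.map _ = (W.1.map _).map _
        rw [← Submodule.map_comp, ← Matrix.toLin'_mul]; rfl) }
  have hsmul : ∀ (g : Γ) (W : PerpLine f p) (x : ι → F), W.1 = Submodule.span F {x} →
      (g • W).1 = Submodule.span F {((g : GL ι F) : Matrix ι ι F) *ᵥ x} := fun g W x hW => by
    show W.1.map _ = _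
    rw [hW, hmap]
  have hfixed : ∀ (g : Γ) (W : PerpLine f p) (x : ι → F), W.1 = Submodule.span F {x} →
      (g • W = W ↔ ((g : GL ι F) : Matrix ι ι F) *ᵥ x ∈ Submodule.span F {x}) := by
    intro g W x hW
    obtain ⟨x', hx'0, -, hW'⟩ := W.2
    have hx0 : x ≠ 0 := fun h => hx'0 (by
      have : x' ∈ Submodule.span F {x} := by rw [← hW, hW']; exact Submodule.mem_span_singleton_self x'
      rw [h] at this
      simpa using this)
    rw [← Subtype.coe_inj, hsmul g W x hW, hW]
    refine ⟨fun h => h ▸ Submodule.mem_span_singleton_self _, fun h => ?_⟩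
    refine Submodule.eq_of_le_of_finrank_eq ((Submodule.span_singleton_le_iff_mem _ _).2 h) ?_
    rw [finrank_span_singleton (hne _ x hx0), finrank_span_singleton hx0]
  have hnt' : ∀ g : Γ, ∀ x, x ≠ 0 → f x p = 0 → ∀ (hx : f x x = 0) (c : F), c ≠ 0 → c + σ c = 0 →
      uT hf hx c ∉ Subgroup.zpowers (g : GL ι F) := fun g x a b hx c' h1 h2 hm =>
    hnt x a b hx c' h1 h2 ((Subgroup.zpowers_le.2 g.2) hm)
  set π := MulAction.toPermHom Γ (PerpLine f p) with hπ
  have hπ1 : ∀ g : Γ, π g = 1 ↔ ScalarPerp f p (g : GL ι F) := by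
    intro g
    constructor
    · intro h
      by_contra hns
      obtain ⟨x, y, hx, hy, hx0, hyx, α, β, hαβ, hgx, hgy⟩ :=
        exists_eigen_pair hF hσ hf h3 h2 hp (hiso _ g.2) (hfix _ g.2) hns (hnt' g)
      have hxy : x + y ≠ 0 := fun e => hyx (by
        rw [eq_neg_of_add_eq_zero_right e]
        exact Submodule.neg_mem _ (Submodule.mem_span_singleton_self x))
      let W : PerpLine f p := ⟨_, x + y, hxy, by rw [hf.add_left, hx, hy, add_zero], rfl⟩
      have hW : g • W = W := by
        have := congrArg (fun e : Equiv.Perm (PerpLine f p) => e W) h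
        simpa [hπ] using this
      obtain ⟨k, hk⟩ := Submodule.mem_span_singleton.1 ((hfixed g W (x + y) rfl).1 hW)
      rw [mulVec_add, hgx, hgy] at hk
      by_cases hβ : β = k
      · subst hβ
        have h0 : (α - β) • x = 0 := by linear_combination (norm := module) -hk
        exact smul_ne_zero (sub_ne_zero.2 hαβ) hx0 h0
      · refine hyx (Submodule.mem_span_singleton.2 ⟨(k - α) / (β - k), ?_⟩)
        have hb := sub_ne_zero.2 hβ
        refine smul_right_injective _ hb ?_
        show (β - k) • _ = (β - k) • y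
        rw [smul_smul, mul_div_cancel₀ _ hb]
        linear_combination (norm := module) hk
    · rintro ⟨β, hβ⟩
      refine Equiv.ext fun W => ?_
      obtain ⟨x, hx0, hxp, hW⟩ := W.2
      show g • W = W
      refine (hfixed g W x hW).2 ?_
      rw [hβ x hxp]
      exact Submodule.smul_mem _ _ (Submodule.mem_span_singleton_self x)
  -- two fixed lines
  have htwo : ∀ e : π.range, e ≠ 1 → Nat.card {W : PerpLine f p // e • W = W} = 2 := by
    rintro ⟨_, g, rfl⟩ hne1
    have hns : ¬ ScalarPerp f p (g : GL ι F) := fun h => hne1 (Subtype.ext ((hπ1 g).2 h))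
    obtain ⟨x, y, hx, hy, hx0, hyx, α, β, hαβ, hgx, hgy⟩ :=
      exists_eigen_pair hF hσ hf h3 h2 hp (hiso _ g.2) (hfix _ g.2) hns (hnt' g)
    have hy0 : y ≠ 0 := fun h => hyx (h ▸ Submodule.zero_mem _)
    let Wx : PerpLine f p := ⟨_, x, hx0, hx, rfl⟩
    let Wy : PerpLine f p := ⟨_, y, hy0, hy, rfl⟩
    have fx : g • Wx = Wx := (hfixed g Wx x rfl).2 (hgx ▸ Submodule.smul_mem _ _ (Submodule.mem_span_singleton_self x))
    have fy : g • Wy = Wy := (hfixed g Wy y rfl).2 (hgy ▸ Submodule.smul_mem _ _ (Submodule.mem_span_singleton_self y))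
    refine Nat.card_eq_two_iff.2 ⟨⟨Wx, fx⟩, ⟨Wy, fy⟩, fun h => hyx ?_, ?_⟩
    · have h' : Submodule.span F {x} = Submodule.span F {y} := congrArg (fun W => W.1.1) h
      rw [h']; exact Submodule.mem_span_singleton_self y
    · refine Set.eq_univ_iff_forall.2 fun W => ?_
      obtain ⟨z, hz0, hzp, hW⟩ := W.1.2
      obtain ⟨k, hk⟩ := Submodule.mem_span_singleton.1 ((hfixed g W.1 z hW).1 W.2)
      obtain ⟨a, b, hz⟩ := perp_span hf h3 hp hx hy hx0 hyx hzp
      rw [hz, mulVec_add, mulVec_smul, mulVec_smul, hgx, hgy] at hk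
      have key : (a * (α - k)) • x + (b * (β - k)) • y = 0 := by linear_combination (norm := module) -hk
      have hb : b * (β - k) = 0 := by
        by_contra hb
        refine hyx (Submodule.mem_span_singleton.2 ⟨-(a * (α - k)) / (b * (β - k)), ?_⟩)
        refine smul_right_injective _ hb ?_
        show (b * (β - k)) • _ = (b * (β - k)) • y
        rw [smul_smul, mul_div_cancel₀ _ hb]
        linear_combination (norm := module) -key
      have ha : a * (α - k) = 0 := by
        rw [hb, zero_smul, add_zero] at key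
        exact (smul_eq_zero.1 key).resolve_right hx0
      rcases mul_eq_zero.1 hb with hb0 | hbk
      · left
        refine Subtype.ext (Subtype.ext ?_)
        rw [hW, hz, hb0, zero_smul, add_zero]
        exact Submodule.span_singleton_smul_eq
          (IsUnit.mk0 a fun h => hz0 (by rw [hz, hb0, h]; simp)) x
      · right
        have ha0 : a = 0 := (mul_eq_zero.1 ha).resolve_right fun h => hαβ (by
          linear_combination h - hbk)
        refine Subtype.ext (Subtype.ext ?_)
        rw [hW, hz, ha0, zero_smul, zero_add]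
        exact Submodule.span_singleton_smul_eq
          (IsUnit.mk0 b fun h => hz0 (by rw [hz, ha0, h]; simp)) y
  -- the character
  have hev : ∀ g : Γ, ∃ ε : Fˣ, ((g : GL ι F) : Matrix ι ι F) *ᵥ p = (ε : F) • p := fun g => by
    obtain ⟨k, hk⟩ := Submodule.mem_span_singleton.1 (hfix _ g.2)
    refine ⟨Units.mk0 k fun h0 => hp ?_, hk.symm⟩
    have h := hiso _ g.2 p p
    rw [← hk, h0, zero_smul, zero_left hf] at h
    exact h.symm
  choose ev hev using hev
  have huniq : ∀ (g : Γ) (ε : F), ((g : GL ι F) : Matrix ι ι F) *ᵥ p = ε • p → ε = (ev g : F) := fun g ε h => by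
    have := congrArg (fun v => f v p) (h.symm.trans (hev g))
    simp only [hf.smul_left] at this
    exact mul_right_cancel₀ hp this
  let ψ : Γ →* Fˣ := MonoidHom.mk' (fun g => ev g ^ 3) fun a b => by
    rw [← mul_pow]
    congr 1
    refine Units.ext ((huniq (a * b) _ ?_).symm)
    rw [Subgroup.coe_mul, Units.val_mul, ← mulVec_mulVec, hev b, mulVec_smul, hev a, smul_smul, Units.val_mul,
      mul_comm]
  have hkerle : π.rangeRestrict.ker ≤ ψ.ker := fun g hg => by
    rw [MonoidHom.ker_rangeRestrict, MonoidHom.mem_ker] at hg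
    refine MonoidHom.mem_ker.2 (Units.ext ?_)
    show ((ev g ^ 3 : Fˣ) : F) = 1
    rw [Units.val_pow_eq_pow_val]
    exact hker _ g.2 ((hπ1 g).1 hg) _ (hev g)
  let χ : π.range →* Fˣ := π.rangeRestrict.liftOfSurjective π.rangeRestrict_surjective ⟨ψ, hkerle⟩
  have hχ : ∀ g : Γ, χ (π.rangeRestrict g) = ev g ^ 3 := fun g =>
    MonoidHom.liftOfRightInverse_comp_apply _ _ _ ⟨ψ, hkerle⟩ g
  set cΓ : Γ := ⟨c, hc⟩
  set rΓ : Γ := ⟨r, hr⟩
  set c' := π.rangeRestrict cΓ with hc'
  set r' := π.rangeRestrict rΓ with hr'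
  have hc2' : c' * c' ≠ 1 := fun h => hc2 ((hπ1 (cΓ * cΓ)).1 (by
    rw [map_mul]; exact congrArg Subtype.val h))
  have hm : 3 ≤ orderOf c' := by
    have h0 : 0 < orderOf c' := orderOf_pos c'
    by_contra hlt
    have hdvd : orderOf c' = 1 ∨ orderOf c' = 2 := by omega
    rcases hdvd with h | h
    · exact hc2' (by rw [orderOf_eq_one_iff.1 h, one_mul])
    · exact hc2' (by rw [← sq, ← h, pow_orderOf_eq_one])
  have hrc' : r' * c' * r'⁻¹ = c'⁻¹ := by
    rw [hr', hc', ← map_inv, ← map_mul, ← map_mul, ← map_inv]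
    exact congrArg _ (Subtype.ext hrc)
  have hr2' : r' * r' = 1 := by
    rw [hr', ← map_mul, show rΓ * rΓ = 1 from Subtype.ext hr2, map_one]
  have hχc : χ c' = 1 := by
    rw [hc', hχ]
    have : ev cΓ = 1 := Units.ext (huniq cΓ 1 (by rw [one_smul]; exact hcp)).symm
    rw [this, one_pow]
  have hχr : χ r' ≠ 1 := by
    rw [hr', hχ]
    intro h
    have h1 : (-1 : F) = (ev rΓ : F) := huniq rΓ (-1) (by rw [neg_one_smul]; exact hrp)
    have h2' := congrArg (fun u : Fˣ => (u : F)) h
    simp only [Units.val_pow_eq_pow_val, Units.val_one, ← h1] at h2'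
    exact h2 (by linear_combination -h2')
  rcases Pole.pole_hom htwo hm hrc' hr2' χ hχc hχr with hl | ⟨h24, h3', h6⟩
  · refine Or.inl fun g hg x hxp hx0 hcx => ?_
    let W : PerpLine f p := ⟨_, x, hx0, hxp, rfl⟩
    have hcW : c' • W = W := (hfixed cΓ W x rfl).2 hcx
    have := hl W hcW (π.rangeRestrict ⟨g, hg⟩)
    exact (hfixed cΓ ((⟨g, hg⟩ : Γ) • W) ((g : Matrix ι ι F) *ᵥ x) (hsmul _ W x rfl)).1 this
  · refine Or.inr ⟨(hπ1 (cΓ * cΓ * cΓ)).1 ?_, fun g hg ε hε => ?_, ?_⟩
    · have := pow_orderOf_eq_one c'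
      rw [h3', pow_succ, pow_two] at this
      rw [map_mul, map_mul]
      exact congrArg Subtype.val this
    · have := h6 (π.rangeRestrict ⟨g, hg⟩)
      rw [hχ, ← pow_mul] at this
      rw [huniq ⟨g, hg⟩ ε hε, ← Units.val_pow_eq_pow_val]
      exact congrArg Units.val this
    · rintro ⟨z, hz, hz1, hz2, hzs⟩
      have hcard := π.ker.card_mul_index
      rw [Subgroup.index_ker, h24] at hcard
      have hzk : (⟨z, hz⟩ : Γ) ∈ π.ker := (hπ1 _).2 hzs
      have hord : orderOf (⟨⟨z, hz⟩, hzk⟩ : π.ker) = 2 := by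
        refine orderOf_eq_prime (Subtype.ext (Subtype.ext ?_)) fun h => hz1 ?_
        · simp [sq, hz2]
        · exact congrArg (fun x : π.ker => ((x : Γ) : GL ι F)) h
      have h2' : 2 ∣ Nat.card π.ker := hord ▸ orderOf_dvd_natCard _
      obtain ⟨k, hk⟩ := h2'
      exact ⟨3 * k, by rw [← hcard, hk]; ring⟩

end CfsgLib.SUThree90
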