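import Mathlib
import Cfsg.Agent.SUThree90.OrthBasic
import Cfsg.Agent.Classical.CircleSums

/-!
Dimension three, rational structure of index two: frames, and elements of an overgroup of the rational
group fixing a rational isotropic line.
-/

set_option autoImplicit false

namespace CfsgLib.SUThree90.Orth

open Matrix CfsgLib.TransvGL CfsgLib.UnitCentres

variable {F : Type*} [Field F] [Fintype F] {q : ℕ} {σ : F ≃+* F}
  {f : (Fin 3 → F) → (Fin 3 → F) → F} {τ : (Fin 3 → F) → (Fin 3 → F)}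

local notation "GL3" => GL (Fin 3) F
local notation:max g "⬝" x:max => Units.val g *ᵥ x

/-- The scalar element. -/
def scal (η : Fˣ) : GL3 := Units.map (Matrix.scalar (Fin 3) : F →+* Matrix (Fin 3) (Fin 3) F).toMonoidHom η

omit [Fintype F] in
theorem scal_apply (η : Fˣ) (x : Fin 3 → F) : (scal η)⬝x = (η : F) • x := by
  funext i
  simp [scal, Matrix.scalar_apply, Matrix.mulVec_diagonal]

omit [Fintype F] in
theorem scal_det (η : Fˣ) : (scal η).val.det = (η : F) ^ 3 := by
  simp [scal, Matrix.scalar_apply, Matrix.det_diagonal]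

omit [Fintype F] in
theorem uT_smul {hf : Cfsg.Geo.IsUnitaryForm σ f} {v : Fin 3 → F} (hv : f v v = 0) {s : F}
    (hv' : f (s • v) (s • v) = 0) (c : F) : uT hf hv' c = uT hf hv (c * (s * σ s)) :=
  ext_mulVec fun x => by
    rw [uT_mulVec, uT_mulVec, smul_right hf, smul_smul]
    congr 2; ring

omit [Fintype F] in
theorem uT_add {hf : Cfsg.Geo.IsUnitaryForm σ f} {v : Fin 3 → F} (hv : f v v = 0) (c c' : F) :
    uT hf hv c * uT hf hv c' = uT hf hv (c + c') :=
  ext_mulVec fun x => by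
    rw [Units.val_mul, ← mulVec_mulVec, uT_mulVec, uT_mulVec, uT_mulVec, hf.add_left, hf.smul_left, hv]
    module

omit [Fintype F] in
theorem uT_zero {hf : Cfsg.Geo.IsUnitaryForm σ f} {v : Fin 3 → F} (hv : f v v = 0) : uT hf hv 0 = 1 :=
  ext_mulVec fun x => by rw [uT_mulVec, Units.val_one, one_mulVec]; simp

omit [Fintype F] in
theorem uT_conj {hf : Cfsg.Geo.IsUnitaryForm σ f} {v : Fin 3 → F} (hv : f v v = 0) {g : GL3} (hg : Iso f g)
    (hv' : f (g⬝v) (g⬝v) = 0) (c : F) : g * uT hf hv c * g⁻¹ = uT hf hv' c :=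
  mul_inv_eq_iff_eq_mul.2 (ext_mulVec fun x => by
    simp only [Units.val_mul, ← mulVec_mulVec, uT_mulVec, mulVec_add, mulVec_smul]
    rw [hg])

namespace RatSys

variable (R : RatSys q σ f τ)
include R

theorem semi_one : Semi τ (1 : GL3) := ⟨1, fun x => by simp⟩

theorem semi_mul {g h : GL3} (hg : Semi τ g) (hh : Semi τ h) : Semi τ (g * h) := by
  obtain ⟨a, ha⟩ := hg
  obtain ⟨b, hb⟩ := hh
  refine ⟨a * b, fun x => ?_⟩
  simp only [Units.val_mul, ← mulVec_mulVec]
  rw [ha, hb, mulVec_smul, smul_smul]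

theorem semi_inv {g : GL3} (hg : Semi τ g) : Semi τ g⁻¹ := by
  obtain ⟨a, ha⟩ := hg
  by_cases ha0 : a = 0
  · exfalso
    have h := ha (g⁻¹⬝(Pi.single 0 1))
    rw [mulVec_inv_mulVec, ha0, zero_smul] at h
    have := congrArg τ h
    rw [R.tinv, R.tzero] at this
    simpa using congrFun this 0
  refine ⟨a⁻¹, fun x => ?_⟩
  have h := ha (g⁻¹⬝x)
  rw [mulVec_inv_mulVec] at h
  rw [h, mulVec_smul, smul_smul, inv_mul_cancel₀ ha0, one_smul, inv_mulVec_mulVec]

theorem semi_sref {p : Fin 3 → F} (hp : f p p ≠ 0) (hr : τ p = p) : Semi τ (sref R.herm p) :=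
  ⟨1, fun x => by rw [R.sref_tau hp hr, one_smul]⟩

theorem semi_scal (η : Fˣ) : Semi τ (scal η) :=
  ⟨σ (η : F) / η, fun x => by
    rw [scal_apply, scal_apply, R.tsmul, smul_smul, div_mul_cancel₀ _ η.ne_zero]⟩

theorem q_odd : q % 2 = 1 := by
  have hc : ringChar F ≠ 2 := fun h => R.two (by
    have := ringChar.spec F 2
    rw [h] at this
    exact_mod_cast this.2 dvd_rfl)
  have := FiniteField.odd_card_of_char_ne_two hc
  rw [R.card, Nat.pow_mod] at this
  rcases Nat.mod_two_eq_zero_or_one q with h | h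
  · rw [h] at this; norm_num at this
  · exact h

/-- An anisotropic rational vector in a rational subspace described by projections. -/
theorem rat_aniso (Q : (Fin 3 → F) → Prop) (hQ : ∀ z, Q z → τ z = z) (hadd : ∀ z z', Q z → Q z' → Q (z + z'))
    {x : Fin 3 → F} (hx0 : x ≠ 0)
    (hdec : ∀ y, τ y = y → ∃ z, Q z ∧ (∀ z', Q z' → f z' y = f z' z) ∧ f x y = f x z) :
    ∃ z, Q z ∧ f z z ≠ 0 := by
  by_contra hall
  push Not at hall
  have horth : ∀ z z', Q z → Q z' → f z z' = 0 := fun z z' hz hz' => by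
    have h := hall _ (hadd z z' hz hz')
    rw [R.herm.add_left, add_right R.herm, add_right R.herm, hall z hz, hall z' hz',
      R.rat_symm (hQ z hz) (hQ z' hz')] at h
    exact (mul_eq_zero.1 (show (2 : F) * f z z' = 0 by linear_combination h)).resolve_left R.two
  refine hx0 (R.ext_rat fun y hy => ?_)
  obtain ⟨z, hz, hzy, hxy⟩ := hdec y hy
  have hz0 : z = 0 := R.ext_rat fun y' hy' => by
    obtain ⟨z', hz', hzy', -⟩ := hdec y' hy'
    rw [hzy' z hz]; exact horth z z' hz hz'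
  rw [hxy, hz0, zero_right R.herm]

theorem exists_rat_aniso : ∃ p, τ p = p ∧ f p p ≠ 0 := by
  refine R.rat_aniso (fun z => τ z = z) (fun _ h => h) (fun z z' h h' => by rw [R.tadd, h, h'])
    (x := Pi.single 0 1) (fun h => by simpa using congrFun h 0) fun y hy => ⟨y, hy, fun _ _ => rfl, rfl⟩

theorem exists_rat_orth {p : Fin 3 → F} (hp : τ p = p) (hpp : f p p ≠ 0) :
    ∃ u, τ u = u ∧ f u p = 0 ∧ f u u ≠ 0 := by
  obtain ⟨x, hx, hxx⟩ := exists_aniso_orth R.herm {p} (by simp)
  have hxp := hx p (Finset.mem_singleton_self p)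
  obtain ⟨z, ⟨hz, hzp⟩, hzz⟩ := R.rat_aniso (fun z => τ z = z ∧ f z p = 0) (fun _ h => h.1)
    (fun z z' h h' => ⟨by rw [R.tadd, h.1, h'.1], by rw [R.herm.add_left, h.2, h'.2, add_zero]⟩)
    (x := x) (fun h => hxx (by rw [h, zero_left R.herm])) fun y hy => ⟨y - (f y p / f p p) • p,
      ⟨by rw [R.tsub, R.tsmul, hy, hp, map_div₀, R.rat_form hy hp, R.rat_form hp hp], by
        rw [sub_left R.herm, R.herm.smul_left, div_mul_cancel₀ _ hpp, sub_self]⟩,
      fun z' hz' => by rw [sub_right R.herm, smul_right R.herm, hz'.2, mul_zero, sub_zero],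
      by rw [sub_right R.herm, smul_right R.herm, hxp, mul_zero, sub_zero]⟩
  exact ⟨z, hz, hzp, hzz⟩

theorem exists_rat_orth₂ {p p' : Fin 3 → F} (hp : τ p = p) (hp' : τ p' = p') (hpp : f p p ≠ 0)
    (hpp' : f p' p' ≠ 0) (h : f p' p = 0) : ∃ u, τ u = u ∧ f u p = 0 ∧ f u p' = 0 ∧ f u u ≠ 0 := by
  obtain ⟨x, hxp, hxp', hxx⟩ := exists_third R.herm (Fintype.card_fin 3) hpp hpp' h
  have h' := orth_comm R.herm h
  obtain ⟨z, ⟨hz, hzp, hzp'⟩, hzz⟩ := R.rat_aniso (fun z => τ z = z ∧ f z p = 0 ∧ f z p' = 0) (fun _ h => h.1)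
    (fun z z' a b => ⟨by rw [R.tadd, a.1, b.1], by rw [R.herm.add_left, a.2.1, b.2.1, add_zero],
      by rw [R.herm.add_left, a.2.2, b.2.2, add_zero]⟩)
    (x := x) (fun e => hxx (by rw [e, zero_left R.herm]))
    fun y hy => ⟨y - (f y p / f p p) • p - (f y p' / f p' p') • p',
      ⟨by rw [R.tsub, R.tsub, R.tsmul, R.tsmul, hy, hp, hp', map_div₀, map_div₀, R.rat_form hy hp,
            R.rat_form hp hp, R.rat_form hy hp', R.rat_form hp' hp'],
        by rw [sub_left R.herm, sub_left R.herm, R.herm.smul_left, R.herm.smul_left, h,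
            div_mul_cancel₀ _ hpp]; ring,
        by rw [sub_left R.herm, sub_left R.herm, R.herm.smul_left, R.herm.smul_left, h',
            div_mul_cancel₀ _ hpp']; ring⟩,
      fun z' hz' => by
        rw [sub_right R.herm, sub_right R.herm, smul_right R.herm, smul_right R.herm, hz'.2.1, hz'.2.2]
        ring,
      by rw [sub_right R.herm, sub_right R.herm, smul_right R.herm, smul_right R.herm, hxp, hxp']; ring⟩
  exact ⟨z, hz, hzp, hzp', hzz⟩

/-- A frame through an isotropic vector and an orthogonal anisotropic one. -/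
theorem frame_of_orth {e u : Fin 3 → F} (he : τ e = e) (he0 : e ≠ 0) (hee : f e e = 0) (hu : τ u = u)
    (huu : f u u ≠ 0) (hue : f u e = 0) : ∃ f₀, Frame σ f τ e f₀ u := by
  have hf := R.herm
  obtain ⟨y, hy, hey⟩ : ∃ y, τ y = y ∧ f e y ≠ 0 := by
    by_contra h
    push Not at h
    exact he0 (R.ext_rat h)
  obtain ⟨z, hz⟩ : ∃ z, z = (f e y)⁻¹ • (y - (f y u / f u u) • u) := ⟨_, rfl⟩
  have hzr : τ z = z := by
    rw [hz, R.tsmul, R.tsub, R.tsmul, hy, hu, map_inv₀, map_div₀, R.rat_form he hy, R.rat_form hy hu,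
      R.rat_form hu hu]
  have hzu : f z u = 0 := by
    rw [hz, hf.smul_left, sub_left hf, hf.smul_left, div_mul_cancel₀ _ huu, sub_self, mul_zero]
  have hze : f e z = 1 := by
    rw [hz, smul_right hf, sub_right hf, smul_right hf, orth_comm hf hue, mul_zero, sub_zero, map_inv₀,
      R.rat_form he hy, inv_mul_cancel₀ hey]
  have hze' : f z e = 1 := by rw [hf.herm, hze, map_one]
  have hzz := R.rat_form hzr hzr
  have heu := orth_comm hf hue
  refine ⟨z - (f z z / 2) • e, he, ?_, hu, hee, ?_, ?_, hue, ?_, huu⟩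
  · rw [R.tsub, R.tsmul, hzr, he, map_div₀, hzz, map_ofNat]
  · rw [sub_left hf, sub_right hf, sub_right hf, hf.smul_left, hf.smul_left, smul_right hf, smul_right hf, hee,
      hze, hze', map_div₀, hzz, map_ofNat]
    have h2 := R.two
    field_simp
    ring
  · rw [sub_right hf, smul_right hf, hee, hze, mul_zero, sub_zero]
  · rw [sub_right hf, smul_right hf, hue, orth_comm hf hzu, mul_zero, sub_zero]

theorem exists_frame_at {e : Fin 3 → F} (he : τ e = e) (he0 : e ≠ 0) (hee : f e e = 0) :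
    ∃ f₀ u, Frame σ f τ e f₀ u := by
  have hf := R.herm
  obtain ⟨y, hy, hey⟩ : ∃ y, τ y = y ∧ f e y ≠ 0 := by
    by_contra h
    push Not at h
    exact he0 (R.ext_rat h)
  obtain ⟨t, ht⟩ : ∃ t, t = (1 - f y y) / (2 * f e y) := ⟨_, rfl⟩
  obtain ⟨p, hp⟩ : ∃ p, p = y + t • e := ⟨_, rfl⟩
  have htf : σ t = t := by
    rw [ht, map_div₀, map_sub, map_mul, map_one, map_ofNat, R.rat_form hy hy, R.rat_form he hy]
  have hpr : τ p = p := by rw [hp, R.tadd, R.tsmul, hy, he, htf]
  have hpp : f p p = 1 := by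
    rw [hp, norm_add_smul hf, hee, htf, R.rat_symm he hy, ht]
    have h2 := R.two
    field_simp
    ring
  have hpe : f p e = f e y := by
    rw [hp, hf.add_left, hf.smul_left, hee, R.rat_symm he hy, mul_zero, add_zero]
  obtain ⟨p', hp'⟩ : ∃ p', p' = (f p e)⁻¹ • e - p := ⟨_, rfl⟩
  have hep : f e p = f e y := by rw [hp, add_right hf, smul_right hf, hee, mul_zero, add_zero]
  have hpe0 : f p e ≠ 0 := hpe ▸ hey
  have hp'r : τ p' = p' := by rw [hp', R.tsub, R.tsmul, he, hpr, map_inv₀, R.rat_form hpr he]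
  have hp'p : f p' p = 0 := by
    rw [hp', sub_left hf, hf.smul_left, hep, hpp, hpe, inv_mul_cancel₀ hey, sub_self]
  have hp'p' : f p' p' = -1 := by
    nth_rewrite 1 [hp']
    rw [sub_left hf, hf.smul_left, orth_comm hf hp'p, hp', sub_right hf, smul_right hf, hee, hep, hpe,
      mul_zero, zero_sub, sub_zero, mul_neg, inv_mul_cancel₀ hey]
  obtain ⟨u, hu, hup, hup', huu⟩ := R.exists_rat_orth₂ hpr hp'r (by rw [hpp]; exact one_ne_zero)
    (by rw [hp'p']; exact neg_ne_zero.2 one_ne_zero) hp'p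
  have hue : f u e = 0 := by
    rw [hp', sub_right hf, smul_right hf, hup, sub_zero] at hup'
    exact (mul_eq_zero.1 hup').resolve_left ((map_ne_zero σ).2 (inv_ne_zero hpe0))
  exact (R.frame_of_orth he he0 hee hu huu hue).imp fun f₀ h => ⟨u, h⟩

omit R in
theorem exists_fixed_square_sum [DecidableEq F] (R : RatSys q σ f τ) {a b c : F} (ha : σ a = a)
    (hb : σ b = b) (hc : σ c = c) (ha0 : a ≠ 0) (hb0 : b ≠ 0) :
    ∃ x y : F, σ x = x ∧ σ y = y ∧ a * x ^ 2 + b * y ^ 2 + c = 0 := by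
  set E := Finset.univ.filter fun z : F => σ z = z with hE
  have hEc : E.card = q := by rw [hE]; convert CfsgLib.CircleSums.card_fixed R.card R.pow
  have hodd := R.q_odd
  have half : ∀ φ : F → F, (∀ x y, φ x = φ y → x = y ∨ x = -y) → q + 1 ≤ 2 * (E.image φ).card := by
    intro φ hφ
    have h1 : E.card ≤ 2 * (E.image φ).card := by
      refine Finset.card_le_mul_card_image E 2 fun z hz => ?_
      obtain ⟨x, -, rfl⟩ := Finset.mem_image.1 hz
      refine (Finset.card_le_card (t := {x, -x}) fun y hy => ?_).trans Finset.card_le_two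
      rcases hφ y x (Finset.mem_filter.1 hy).2 with h | h <;> simp [h]
    omega
  have e2 : ∀ d : F, d ≠ 0 → ∀ x y, d * x ^ 2 = d * y ^ 2 → x = y ∨ x = -y := fun d hd x y h =>
    sq_eq_sq_iff_eq_or_eq_neg.1 (mul_left_cancel₀ hd h)
  have hA := half (fun x => a * x ^ 2) (e2 a ha0)
  have hB := half (fun y => -c - b * y ^ 2) fun x y h => e2 b hb0 x y (by linear_combination -h)
  obtain ⟨z, hz⟩ : ((E.image fun x => a * x ^ 2) ∩ E.image fun y => -c - b * y ^ 2).Nonempty := by
    refine Finset.inter_nonempty_of_card_lt_card_add_card (s := E) ?_ ?_ (by omega)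
    · intro z hz
      obtain ⟨x, hx, rfl⟩ := Finset.mem_image.1 hz
      exact Finset.mem_filter.2 ⟨Finset.mem_univ _, by rw [map_mul, map_pow, ha, (Finset.mem_filter.1 hx).2]⟩
    · intro z hz
      obtain ⟨x, hx, rfl⟩ := Finset.mem_image.1 hz
      exact Finset.mem_filter.2 ⟨Finset.mem_univ _, by
        rw [map_sub, map_neg, map_mul, map_pow, hb, hc, (Finset.mem_filter.1 hx).2]⟩
  obtain ⟨hz1, hz2⟩ := Finset.mem_inter.1 hz
  obtain ⟨x, hx, rfl⟩ := Finset.mem_image.1 hz1
  obtain ⟨y, hy, hxy⟩ := Finset.mem_image.1 hz2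
  exact ⟨x, y, (Finset.mem_filter.1 hx).2, (Finset.mem_filter.1 hy).2, by linear_combination -hxy⟩

theorem exists_frame : ∃ e f₀ u, Frame σ f τ e f₀ u := by
  classical
  have hf := R.herm
  obtain ⟨p, hp, hpp⟩ := R.exists_rat_aniso
  obtain ⟨p', hp', hp'p, hpp'⟩ := R.exists_rat_orth hp hpp
  obtain ⟨r, hr, hrp, hrp', hrr⟩ := R.exists_rat_orth₂ hp hp' hpp hpp' hp'p
  obtain ⟨x, y, hx, hy, hxy⟩ := exists_fixed_square_sum R (R.rat_form hp hp) (R.rat_form hp' hp')
    (R.rat_form hr hr) hpp hpp'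
  refine ⟨_, R.exists_frame_at (e := x • p + y • p' + r) ?_ (fun h => hrr ?_) ?_⟩
  · rw [R.tadd, R.tadd, R.tsmul, R.tsmul, hp, hp', hr, hx, hy]
  · have := congrArg (fun z => f z r) h
    simpa [hf.add_left, hf.smul_left, zero_left hf, orth_comm hf hrp, orth_comm hf hrp'] using this
  · simp only [hf.add_left, add_right hf, hf.smul_left, smul_right hf, hp'p, orth_comm hf hp'p, hrp, hrp',
      orth_comm hf hrp, orth_comm hf hrp', hx, hy]
    linear_combination hxy

end RatSys

/-- A group of isometries of determinant one containing the rational group, with not all centres. -/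
structure Over (R : RatSys q σ f τ) (M : Subgroup GL3) : Prop where
  iso : ∀ g ∈ M, Iso f g
  det : ∀ g ∈ M, g.val.det = 1
  semi : ∀ g : GL3, Iso f g → g.val.det = 1 → Semi τ g → g ∈ M
  notAll : ¬ ∀ v, f v v = 0 → Centre R.herm M v

namespace Over

variable {R : RatSys q σ f τ} {M : Subgroup (GL (Fin 3) F)} (O : Over R M)
include O

theorem sref_mem {p : Fin 3 → F} (hp : f p p ≠ 0) (hr : τ p = p) : sref R.herm p ∈ M :=
  O.semi _ (R.sref_iso hp) (R.sref_det hp) (R.semi_sref hp hr)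

theorem scal_mem (η : Fˣ) (h1 : (η : F) * σ η = 1) (h3 : (η : F) ^ 3 = 1) : scal η ∈ M :=
  O.semi _ (fun x y => by rw [scal_apply, scal_apply, R.herm.smul_left, smul_right R.herm, ← mul_assoc, h1, one_mul])
    (by rw [scal_det, h3]) (R.semi_scal η)

variable {e f₀ u : Fin 3 → F} (W : Frame σ f τ e f₀ u)
include W

theorem plus_aniso {c : F} (hc : σ c = c) (hc0 : c ≠ 0) : f (e + c • f₀) (e + c • f₀) ≠ 0 := by
  rw [norm_add_smul R.herm, W.ee, W.ff, W.ef, W.fe R, hc]
  intro h
  exact mul_ne_zero R.two hc0 (by linear_combination h)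

theorem hEl_semi {c : F} (hc : σ c = c) (hc0 : c ≠ 0) : Semi τ (hEl R.herm e f₀ c) ∧ hEl R.herm e f₀ c ∈ M := by
  have h1 : τ (e + c • f₀) = e + c • f₀ := by rw [R.tadd, R.tsmul, W.te, W.tf, hc]
  have h2 : τ (e + f₀) = e + f₀ := by rw [R.tadd, W.te, W.tf]
  have h3 : f (e + f₀) (e + f₀) ≠ 0 := by simpa using O.plus_aniso W (c := 1) (map_one σ) one_ne_zero
  exact ⟨R.semi_mul (R.semi_sref (O.plus_aniso W hc hc0) h1) (R.semi_sref h3 h2),
    M.mul_mem (O.sref_mem (O.plus_aniso W hc hc0) h1) (O.sref_mem h3 h2)⟩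

theorem uEl_semi {a : F} (ha : σ a = a) : Semi τ (uEl R.herm e u a) ∧ uEl R.herm e u a ∈ M := by
  have h1 : τ (u + a • e) = u + a • e := by rw [R.tadd, R.tsmul, W.te, W.tu, ha]
  have h2 : f (u + a • e) (u + a • e) ≠ 0 := by
    rw [norm_add_smul R.herm, W.ee, W.ue, W.eu R]
    simpa using W.uu
  exact ⟨R.semi_mul (R.semi_sref h2 h1) (R.semi_sref W.uu W.tu),
    M.mul_mem (O.sref_mem h2 h1) (O.sref_mem W.uu W.tu)⟩

/-- No transvection at a rational isotropic vector. -/
theorem no_rat_transv {c : F} (hc0 : c ≠ 0) (hc : c + σ c = 0) : uT R.herm W.ee c ∉ M := by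
  intro hM
  have hf := R.herm
  have hsq : ∀ l, σ l = l → uT hf W.ee (c * l ^ 2) ∈ M := by
    intro l hl
    by_cases hl0 : l = 0
    · rw [hl0, zero_pow two_ne_zero, mul_zero, uT_zero]; exact M.one_mem
    have hl' : σ l⁻¹ = l⁻¹ := by rw [map_inv₀, hl]
    obtain ⟨-, hH⟩ := O.hEl_semi W hl' (inv_ne_zero hl0)
    have he := (W.hEl_apply R hl' (inv_ne_zero hl0)).1
    rw [inv_inv] at he
    have hv' : f ((hEl R.herm e f₀ l⁻¹)⬝e) ((hEl R.herm e f₀ l⁻¹)⬝e) = 0 := by
      rw [he, hf.smul_left, smul_right hf, W.ee, mul_zero, mul_zero]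
    have key := M.mul_mem (M.mul_mem hH hM) (M.inv_mem hH)
    rw [uT_conj W.ee (O.iso _ hH) hv'] at key
    have : uT hf hv' c = uT hf W.ee (c * l ^ 2) := ext_mulVec fun x => by
      rw [uT_mulVec, uT_mulVec, he, smul_right hf, hl, smul_smul]
      congr 2; ring
    rwa [this] at key
  have hC : Centre hf M e := ⟨W.ee, fun d hd => by
    obtain ⟨y, hy⟩ : ∃ y, y = d / c := ⟨_, rfl⟩
    have hyf : σ y = y := by
      rw [hy, map_div₀, show σ d = -d by linear_combination hd, show σ c = -c by linear_combination hc, neg_div_neg_eq]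
    have h2 := R.two
    have key := M.mul_mem (hsq ((y + 1) / 2) (by rw [map_div₀, map_add, hyf, map_one, map_ofNat]))
      (M.inv_mem (hsq ((y - 1) / 2) (by rw [map_div₀, map_sub, hyf, map_one, map_ofNat])))
    have hd' : uT hf W.ee d * uT hf W.ee (c * ((y - 1) / 2) ^ 2) = uT hf W.ee (c * ((y + 1) / 2) ^ 2) := by
      rw [uT_add, hy]
      congr 1
      field_simp
      ring
    rw [← hd', mul_inv_cancel_right] at key
    exact key⟩
  have hr : f (e + f₀) (e + f₀) ≠ 0 := by simpa using O.plus_aniso W (c := 1) (map_one σ) one_ne_zero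
  have hCf : Centre hf M f₀ := by
    have := hC.image (O.sref_mem hr (by rw [R.tadd, W.te, W.tf])) (R.sref_iso hr)
    have e1 : (sref R.herm (e + f₀))⬝e = f₀ := by
      rw [R.sref_apply hr, hf.add_left, add_right hf, add_right hf, W.ee, W.ef, W.fe R, W.ff]
      have h2 := R.two
      match_scalars <;> field_simp <;> (try ring_nf) <;> (try exact inv_mul_cancel₀ h2) <;> (try simp [inv_mul_cancel₀ h2])
    rwa [e1] at this
  obtain ⟨-, hU⟩ := O.uEl_semi W (map_one σ)
  have hC3 := hCf.image hU (O.iso _ hU)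
  refine O.notAll (centre_all_of_three hf (Fintype.card_fin 3) hC hCf (by rw [W.ef]; exact one_ne_zero) hC3 ?_)
  intro h
  obtain ⟨a, b, hab⟩ := Submodule.mem_span_pair.1 h
  have := congrArg (fun z => f z u) hab
  rw [(W.uEl_apply R (map_one σ)).2.1] at this
  simp [hf.add_left, hf.smul_left, sub_left hf, W.eu R, W.fu R, W.uu] at this
  exact R.two this

/-- A unipotent element fixing `e` is one of the rational ones. -/
theorem unip {k : GL3} (hk : k ∈ M) (he : k⬝e = e) {b : F} (hu : k⬝u = u + b • e) :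
    σ b = b ∧ k = uEl R.herm e u (b / 2) := by
  have hf := R.herm
  have hiso := O.iso k hk
  have shape : ∀ {k : GL (Fin 3) F}, k ∈ M → k⬝e = e → ∀ {b : F}, k⬝u = u + b • e →
      ∃ α : F, k⬝f₀ = α • e + f₀ - (σ b / f u u) • u := by
    intro k hk he b hu
    have hiso := O.iso k hk
    obtain ⟨α, β, γ, h⟩ := exists_span (W.basis R) (k⬝f₀)
    have h1 := hiso f₀ e
    rw [he, h, W.fe R] at h1
    simp [hf.add_left, hf.smul_left, W.ee, W.fe R, W.ue] at h1
    subst h1
    have h2 := hiso f₀ u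
    rw [hu, h, W.fu R] at h2
    simp [hf.add_left, hf.smul_left, add_right hf, smul_right hf, W.ee, W.fe R, W.ue, W.eu R, W.fu R] at h2
    refine ⟨α, ?_⟩
    have hn := W.uu
    rw [h, show γ = -(σ b / f u u) by field_simp; linear_combination h2]
    module
  have hb : σ b = b := by
    by_contra hb
    obtain ⟨α, hf0⟩ := shape hk he hu
    obtain ⟨hUe, hUf, hUu⟩ := W.uEl_apply R (map_one σ)
    obtain ⟨-, hU⟩ := O.uEl_semi W (map_one σ)
    obtain ⟨d, hd⟩ : ∃ d, d = 2 * (σ b - b) / f u u := ⟨_, rfl⟩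
    have hn := W.uu
    have e1 : k * uEl R.herm e u 1 = uT hf W.ee d * (uEl R.herm e u 1 * k) := by
      refine mul_left_ext (W.basis R) ?_ ?_ ?_
      · simp only [Units.val_mul, ← mulVec_mulVec, hUe, he, uT_mulVec, W.ee, mul_zero, zero_smul, add_zero]
      · simp only [Units.val_mul, ← mulVec_mulVec, hUe, hUf, hUu, hf0, uT_mulVec, he, hu, mulVec_add,
          mulVec_sub, mulVec_smul, hf.add_left, sub_left hf, hf.smul_left, W.ee, W.fe R, W.ue]
        rw [hd]
        match_scalars <;> field_simp <;> ring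
      · simp only [Units.val_mul, ← mulVec_mulVec, hUe, hUu, uT_mulVec, he, hu, mulVec_add, mulVec_smul,
          hf.add_left, hf.smul_left, W.ee, W.ue]
        module
    refine O.no_rat_transv W (c := d) ?_ ?_ ?_
    · rw [hd]; exact div_ne_zero (mul_ne_zero R.two (sub_ne_zero.2 hb)) W.uu
    · rw [hd, map_div₀, map_mul, map_sub, hf.involutive, norm_fixed hf, map_ofNat]
      ring
    · rw [← mul_inv_eq_iff_eq_mul] at e1
      rw [← e1]
      exact M.mul_mem (M.mul_mem hk hU) (M.inv_mem (M.mul_mem hU hk))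
  refine ⟨hb, ?_⟩
  have h2 := R.two
  have hb2 : σ (-(b / 2)) = -(b / 2) := by rw [map_neg, map_div₀, hb, map_ofNat]
  have hb2' : σ (b / 2) = b / 2 := by rw [map_div₀, hb, map_ofNat]
  obtain ⟨hUe, hUf, hUu⟩ := W.uEl_apply R hb2
  obtain ⟨-, hU⟩ := O.uEl_semi W hb2
  obtain ⟨hVe, hVf, hVu⟩ := W.uEl_apply R hb2'
  have hinv : uEl R.herm e u (b / 2) * uEl R.herm e u (-(b / 2)) = 1 := by
    refine mul_left_ext (W.basis R) ?_ ?_ ?_ <;>
      simp only [Units.val_mul, ← mulVec_mulVec, hUe, hUf, hUu, hVe, hVf, hVu, mulVec_add, mulVec_sub,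
        mulVec_smul, Units.val_one, one_mulVec] <;>
      match_scalars <;> field_simp <;> ring
  have hk' := M.mul_mem hU hk
  have he' : (uEl R.herm e u (-(b / 2)) * k)⬝e = e := by
    rw [Units.val_mul, ← mulVec_mulVec, he, hUe]
  have hu' : (uEl R.herm e u (-(b / 2)) * k)⬝u = u + (0 : F) • e := by
    rw [Units.val_mul, ← mulVec_mulVec, hu, mulVec_add, mulVec_smul, hUe, hUu]
    match_scalars <;> field_simp <;> ring
  obtain ⟨α, hα⟩ := shape hk' he' hu'
  rw [map_zero, zero_div, zero_smul, sub_zero] at hα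
  have hα0 : α + σ α = 0 := by
    have := O.iso _ hk' f₀ f₀
    rw [hα, W.ff] at this
    simpa [hf.add_left, add_right hf, hf.smul_left, smul_right hf, W.ee, W.ef, W.fe R, W.ff] using this
  have hT : uEl R.herm e u (-(b / 2)) * k = uT hf W.ee α := by
    refine mul_left_ext (W.basis R) ?_ ?_ ?_
    · rw [he', uT_mulVec, W.ee]; simp
    · rw [hα, uT_mulVec, W.fe R]; module
    · rw [hu', uT_mulVec, W.ue]; simp
  have : α = 0 := by
    by_contra h
    exact O.no_rat_transv W h hα0 (hT ▸ hk')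
  rw [this, uT_zero] at hT
  rw [← mul_one (uEl R.herm e u (b / 2)), ← hT, ← mul_assoc, hinv, one_mul]

/-- An element fixing a rational isotropic line is rational up to a scalar. -/
theorem line {g : GL3} (hg : g ∈ M) {μ : F} (he : g⬝e = μ • e) :
    Semi τ g ∧ ∃ η c α : F, σ c = c ∧ η ^ 3 = 1 ∧ η * σ η = 1 ∧ μ = c * η ∧ g⬝u = η • u + α • e := by
  have hf := R.herm
  have hiso := O.iso g hg
  have hμ : μ ≠ 0 := fun h => by
    rw [h, zero_smul] at he
    refine W.e_ne R ?_
    have := congrArg (fun z => g⁻¹⬝z) he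
    simpa using this
  have hσμ : σ μ ≠ 0 := (map_ne_zero σ).2 hμ
  obtain ⟨α, β', η, hu⟩ := exists_span (W.basis R) (g⬝u)
  have h1 := hiso u e
  rw [he, hu, W.ue, smul_right hf] at h1
  simp [hf.add_left, hf.smul_left, W.ee, W.fe R, W.ue, hσμ] at h1
  subst h1
  rw [zero_smul, add_zero] at hu
  obtain ⟨δ, β, γ, hf0⟩ := exists_span (W.basis R) (g⬝f₀)
  have h2 := hiso f₀ e
  rw [he, hf0, W.fe R, smul_right hf] at h2
  simp [hf.add_left, hf.smul_left, W.ee, W.fe R, W.ue] at h2
  have h3 := O.det g hg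
  rw [det_of_action (W.basis R) !![μ, δ, α; 0, β, 0; 0, γ, η] (by simpa using he) (by simpa using hf0)
    (by simpa using hu), det_fin_three] at h3
  simp at h3
  have hη : η = σ μ / μ := by
    rw [eq_div_iff hμ]; linear_combination σ μ * h3 - μ * η * h2
  have hη1 : η * σ η = 1 := by rw [hη, map_div₀, hf.involutive]; field_simp
  have hη0 : η ≠ 0 := fun h => by rw [h, zero_mul] at hη1; exact zero_ne_one hη1
  obtain ⟨hUe, hUf, hUu⟩ := W.uEl_apply R (map_one σ)
  obtain ⟨-, hU⟩ := O.uEl_semi W (map_one σ)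
  have hgi : g⁻¹⬝e = μ⁻¹ • e := by
    have := congrArg (fun z => g⁻¹⬝z) he
    simp only [inv_mulVec_mulVec, mulVec_smul] at this
    nth_rewrite 2 [this]
    rw [smul_smul, inv_mul_cancel₀ hμ, one_smul]
  have hgu : g⁻¹⬝u = η⁻¹ • u - (α / (η * μ)) • e := by
    have := congrArg (fun z => g⁻¹⬝z) hu
    simp only [inv_mulVec_mulVec, mulVec_add, mulVec_smul, hgi] at this
    rw [eq_comm]
    calc η⁻¹ • u - (α / (η * μ)) • e = η⁻¹ • (α • μ⁻¹ • e + η • g⁻¹⬝u) - (α / (η * μ)) • e := by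
          conv_lhs => rw [this]
      _ = g⁻¹⬝u := by match_scalars <;> field_simp <;> ring
  obtain ⟨hb, -⟩ := O.unip W (M.mul_mem (M.mul_mem hg hU) (M.inv_mem hg)) (k := g * uEl R.herm e u 1 * g⁻¹)
    (by simp only [Units.val_mul, ← mulVec_mulVec, hgi, mulVec_smul, hUe, he, smul_smul,
      inv_mul_cancel₀ hμ, one_smul])
    (b := 2 * (μ / η)) (by
      simp only [Units.val_mul, ← mulVec_mulVec, hgu, mulVec_sub, mulVec_smul, hUe, hUu, mulVec_add, hu, he]
      match_scalars <;> field_simp <;> ring)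
  obtain ⟨c, hc⟩ : ∃ c, c = μ / η := ⟨_, rfl⟩
  have hcf : σ c = c := by
    rw [map_mul, map_ofNat] at hb
    rw [hc]; exact mul_left_cancel₀ R.two hb
  have hc0 : c ≠ 0 := hc ▸ div_ne_zero hμ hη0
  have hμc : μ = c * η := by rw [hc, div_mul_cancel₀ _ hη0]
  have hη3 : η ^ 3 = 1 := by
    have hh := hcf
    rw [hc, hη, map_div₀, map_div₀, hf.involutive] at hh
    field_simp at hh
    rw [hη, div_pow, div_eq_one_iff_eq (pow_ne_zero 3 hμ)]
    linear_combination hh
  have hu' : g⬝u = η • u + α • e := by rw [hu, add_comm]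
  refine ⟨?_, η, c, α, hcf, hη3, hη1, hμc, hu'⟩
  obtain ⟨hHs, hH⟩ := O.hEl_semi W hcf hc0
  obtain ⟨hHe, -, hHu⟩ := W.hEl_apply R hcf hc0
  set s : GL3 := scal (Units.mk0 η hη0)⁻¹ with hs
  have hsM : s ∈ M := O.scal_mem _ (by simp [map_inv₀, ← mul_inv, mul_comm (σ η), hη1])
    (by simp [inv_pow, hη3])
  obtain ⟨hb', heq⟩ := O.unip W (M.mul_mem (M.mul_mem hsM hg) hH) (b := α / η)
    (by
      simp only [Units.val_mul, ← mulVec_mulVec, hHe, mulVec_smul, he, hs, scal_apply, smul_smul, hμc,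
        Units.val_inv_eq_inv_val, Units.val_mk0]
      match_scalars
      field_simp)
    (by
      simp only [Units.val_mul, ← mulVec_mulVec, hHu, hu', hs, scal_apply, smul_smul, smul_add,
        Units.val_inv_eq_inv_val, Units.val_mk0]
      match_scalars <;> field_simp)
  have hb2 : σ (α / η / 2) = α / η / 2 := by rw [map_div₀, hb', map_ofNat]
  rw [show g = s⁻¹ * (s * g * hEl R.herm e f₀ c) * (hEl R.herm e f₀ c)⁻¹ by group, heq]
  exact R.semi_mul (R.semi_mul (R.semi_inv (R.semi_scal _)) (O.uEl_semi W hb2).1) (R.semi_inv hHs)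

/-- The fixed vectors of a non-trivial rational unipotent element. -/
theorem uEl_fix {a : F} (ha : σ a = a) (ha0 : a ≠ 0) {x : Fin 3 → F} (hx : (uEl R.herm e u a)⬝x = x) :
    ∃ k : F, x = k • e := by
  have hf := R.herm
  obtain ⟨hUe, hUf, hUu⟩ := W.uEl_apply R ha
  obtain ⟨α, β, γ, rfl⟩ := exists_span (W.basis R) x
  simp only [mulVec_add, mulVec_smul, hUe, hUf, hUu] at hx
  have h1 := congrArg (fun z => f z u) hx
  simp only [hf.add_left, sub_left hf, hf.smul_left, W.eu R, W.fu R] at h1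
  have hn := W.uu
  field_simp at h1
  have hβ : β = 0 := (mul_eq_zero.1 (show (2 * a * f u u) * β = 0 by linear_combination -h1)).resolve_left
    (mul_ne_zero (mul_ne_zero R.two ha0) hn)
  subst hβ
  have h2 := congrArg (fun z => f z f₀) hx
  simp only [zero_smul, hf.add_left, hf.smul_left, W.ef, W.uf, zero_left hf] at h2
  have hγ : γ = 0 := (mul_eq_zero.1 (show (2 * a) * γ = 0 by linear_combination h2)).resolve_left
    (mul_ne_zero R.two ha0)
  exact ⟨α, by rw [hγ]; simp⟩

/-- No transvection at all. -/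
theorem no_transv {x : Fin 3 → F} (hx0 : x ≠ 0) (hx : f x x = 0) {c : F} (hc0 : c ≠ 0) :
    uT R.herm hx c ∉ M := by
  intro hT
  have hf := R.herm
  obtain ⟨p, hp⟩ := CharP.exists F
  have hpp : p.Prime := CharP.char_is_prime F p
  have : Fact p.Prime := ⟨hpp⟩
  let E : AddSubgroup F :=
    { carrier := {a | σ a = a}
      add_mem' := fun {a b} (ha : σ a = a) (hb : σ b = b) => show σ (a + b) = a + b by rw [map_add, ha, hb]
      zero_mem' := map_zero σ
      neg_mem' := fun {a} (ha : σ a = a) => show σ (-a) = -a by rw [map_neg, ha] }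
  have hUM : ∀ a : E, uEl R.herm e u (a : F) ∈ M := fun a => (O.uEl_semi W a.2).2
  have hadd : ∀ a b : E, uEl R.herm e u ((a : F) + b) = uEl R.herm e u (a : F) * uEl R.herm e u (b : F) := by
    intro a b
    obtain ⟨ha1, ha2, ha3⟩ := W.uEl_apply R a.2
    obtain ⟨hb1, hb2, hb3⟩ := W.uEl_apply R b.2
    obtain ⟨hc1, hc2, hc3⟩ := W.uEl_apply R (show σ ((a : F) + b) = (a : F) + b by rw [map_add, a.2, b.2])
    refine mul_left_ext (W.basis R) ?_ ?_ ?_ <;>
      simp only [Units.val_mul, ← mulVec_mulVec, ha1, ha2, ha3, hb1, hb2, hb3, hc1, hc2, hc3, mulVec_add,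
        mulVec_sub, mulVec_smul] <;>
      match_scalars <;> ring
  let φ : Multiplicative E →* M :=
    MonoidHom.mk' (fun a => ⟨uEl R.herm e u (Multiplicative.toAdd a : E), hUM _⟩)
      fun a b => Subtype.ext (hadd _ _)
  set U : Subgroup M := φ.range with hU
  have hUp : IsPGroup p U := by
    rintro ⟨_, a, rfl⟩
    refine ⟨1, Subtype.ext ?_⟩
    rw [pow_one, SubmonoidClass.coe_pow, ← map_pow]
    have : a ^ p = 1 := Multiplicative.toAdd.injective (Subtype.ext (by
      rw [toAdd_pow, AddSubgroup.coe_nsmul, nsmul_eq_mul, CharP.cast_eq_zero F p, zero_mul]; rfl))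
    rw [this, map_one]; rfl
  obtain ⟨P, hP⟩ := hUp.exists_le_sylow
  -- the unipotent group is a Sylow subgroup
  have hmax : (P : Subgroup M) ≤ U := by
    by_contra hlt
    have hne : U.subgroupOf P ≠ ⊤ := fun h => hlt (Subgroup.subgroupOf_eq_top.1 h)
    haveI := P.isPGroup'.isNilpotent
    have hnc := Group.normalizerCondition_of_isNilpotent (U.subgroupOf (P : Subgroup M)) (lt_top_iff_ne_top.2 hne)
    obtain ⟨y, hyN, hyU⟩ := SetLike.exists_of_lt hnc
    set a₁ : E := ⟨1, map_one σ⟩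
    have hmem : φ (Multiplicative.ofAdd a₁) ∈ U := ⟨_, rfl⟩
    have hc1 := (Subgroup.mem_normalizer_iff.1 hyN ⟨_, hP hmem⟩).1 (Subgroup.mem_subgroupOf.2 hmem)
    obtain ⟨a, ha⟩ := Subgroup.mem_subgroupOf.1 hc1
    have hconj : ((y : M) : GL3) * uEl R.herm e u 1 * ((y : M) : GL3)⁻¹ =
        uEl R.herm e u ((Multiplicative.toAdd a : E) : F) :=
      (congrArg (fun z : M => (z : GL3)) ha).symm
    obtain ⟨hUe, hUf, hUu⟩ := W.uEl_apply R (map_one σ)
    have ha0 : ((Multiplicative.toAdd a : E) : F) ≠ 0 := by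
      intro h
      rw [h] at hconj
      have h01 : uEl R.herm e u 0 = 1 := by
        rw [uEl, zero_smul, add_zero, R.sref_sq W.uu]
      rw [h01, mul_inv_eq_one, mul_eq_left] at hconj
      rw [hconj, Units.val_one, one_mulVec, mul_one] at hUu
      have := congrArg (fun z => f z f₀) hUu
      simp [hf.add_left, hf.smul_left, W.uf, W.ef] at this
      exact R.two this.symm
    obtain ⟨μ, hμ⟩ := O.uEl_fix W (show σ _ = _ from (Multiplicative.toAdd a : E).2) ha0
      (x := ((y : M) : GL3)⬝e) (by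
        rw [← hconj]; simp only [Units.val_mul, ← mulVec_mulVec, inv_mulVec_mulVec, hUe])
    obtain ⟨-, η, c', α, hc', hη3, hη1, hμc, hu⟩ := O.line W (y : M).2 hμ
    obtain ⟨k, hk⟩ := P.isPGroup' y
    have hyk : ((y : M) : GL3) ^ p ^ k = 1 :=
      congrArg (fun z : M => (z : GL3)) (congrArg Subtype.val hk)
    have hpow : ∀ n : ℕ, (((y : M) : GL3) ^ n)⬝e = μ ^ n • e := fun n => by
      induction n with
      | zero => simp
      | succ n ih => rw [pow_succ, Units.val_mul, ← mulVec_mulVec, hμ, mulVec_smul, ih, smul_smul, pow_succ']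
    have hμ1 : μ = 1 := by
      have := hpow (p ^ k)
      rw [hyk, Units.val_one, one_mulVec] at this
      have h2 := congrArg (fun z => f z f₀) this
      simp only [hf.smul_left, W.ef, mul_one] at h2
      exact sub_eq_zero.1 (pow_eq_zero_iff (pow_ne_zero k hpp.ne_zero) |>.1 (by
        rw [sub_pow_char_pow, one_pow, ← h2, sub_self]))
    have hη' : η = 1 := by
      rw [hμ1] at hμc
      have hce : c' = σ η := by linear_combination σ η * hμc.symm - c' * hη1
      have hηη : σ η = η := by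
        have := hc'
        rw [hce, hf.involutive] at this
        exact this.symm
      rw [hηη] at hη1
      calc η = η ^ 3 := by linear_combination -η * hη1
        _ = 1 := hη3
    rw [hη', one_smul] at hu
    rw [hμ1, one_smul] at hμ
    obtain ⟨hα, hyeq⟩ := O.unip W (y : M).2 hμ hu
    refine hyU (Subgroup.mem_subgroupOf.2 ⟨Multiplicative.ofAdd
      (⟨α / 2, show σ (α / 2) = α / 2 by rw [map_div₀, hα, map_ofNat]⟩ : E), Subtype.ext hyeq.symm⟩)
  -- conjugate the transvection into it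
  have hTp : IsPGroup p (Subgroup.zpowers (⟨_, hT⟩ : M)) := by
    intro ⟨z, n, hn⟩
    refine ⟨1, Subtype.ext ?_⟩
    subst hn
    rw [pow_one, SubmonoidClass.coe_pow]
    change ((⟨_, hT⟩ : M) ^ n) ^ p = 1
    rw [← zpow_natCast, ← _root_.zpow_mul, mul_comm, _root_.zpow_mul, _root_.zpow_natCast]
    have hpn : ∀ m : ℕ, uT R.herm hx c ^ m = uT R.herm hx ((m : F) * c) := fun m => by
      induction m with
      | zero => rw [pow_zero, Nat.cast_zero, zero_mul, uT_zero]
      | succ m ih => rw [pow_succ, ih, uT_add, Nat.cast_succ, add_mul, one_mul]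
    have : (⟨_, hT⟩ : M) ^ p = 1 := Subtype.ext (by
      rw [SubmonoidClass.coe_pow]
      exact (hpn p).trans (by rw [CharP.cast_eq_zero F p, zero_mul, uT_zero]; rfl))
    rw [this, _root_.one_zpow]
  obtain ⟨Q, hQ⟩ := hTp.exists_le_sylow
  obtain ⟨g, hg⟩ := MulAction.exists_smul_eq M Q P
  have hgT : g * (⟨_, hT⟩ : M) * g⁻¹ ∈ U := hmax (by
    rw [← hg, Sylow.coe_subgroup_smul]
    exact ⟨_, hQ (Subgroup.mem_zpowers _), rfl⟩)
  obtain ⟨a, ha⟩ := hgT
  have hgi := O.iso _ g.2
  have hx' : f ((g : GL3)⬝x) ((g : GL3)⬝x) = 0 := by rw [hgi]; exact hx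
  have heq : uEl R.herm e u ((Multiplicative.toAdd a : E) : F) = uT R.herm hx' c :=
    (congrArg (fun z : M => (z : GL3)) ha).trans (uT_conj hx hgi hx' c)
  by_cases ha0 : ((Multiplicative.toAdd a : E) : F) = 0
  · rw [ha0, uEl, zero_smul, add_zero, R.sref_sq W.uu] at heq
    obtain ⟨⟨z, hz⟩, -⟩ := hf.nondegenerate ((g : GL3)⬝x) (fun h0 => hx0 (by
      have := congrArg (fun z => (g : GL3)⁻¹⬝z) h0
      simpa using this))
    have := congrArg (fun h : GL3 => h⬝z) heq
    simp only [Units.val_one, one_mulVec, uT_mulVec, left_eq_add, smul_eq_zero, mul_eq_zero] at this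
    rcases this with (h | h) | h
    exacts [hc0 h, hz h, hz (by rw [h, zero_right hf])]
  obtain ⟨k, hk⟩ := O.uEl_fix W (show σ _ = _ from (Multiplicative.toAdd a : E).2) ha0
    (x := (g : GL3)⬝x) (by rw [heq, uT_mulVec, hx']; simp)
  obtain ⟨-, -, hUu⟩ := W.uEl_apply R (show σ _ = _ from (Multiplicative.toAdd a : E).2)
  rw [heq, uT_mulVec, hk, smul_right hf, W.ue, mul_zero, mul_zero, zero_smul, add_zero, left_eq_add, smul_eq_zero] at hUu
  exact hUu.elim (mul_ne_zero R.two ha0) (W.e_ne R)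

end Over

end CfsgLib.SUThree90.Orth
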