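import Mathlib
import Cfsg.Agent.SUThree90.OrthStab
import Cfsg.Agent.SUThree90.OrthLines

/-!
Dimension three, rational structure of index two: elements of an overgroup of the rational group fixing a
rational anisotropic point are rational up to scalars.
-/

set_option autoImplicit false
set_option linter.unusedSectionVars false

namespace CfsgLib.SUThree90.Orth

open Matrix CfsgLib.TransvGL CfsgLib.UnitCentres

variable {F : Type*} [Field F] [Fintype F] {q : ℕ} {σ : F ≃+* F}
  {f : (Fin 3 → F) → (Fin 3 → F) → F} {τ : (Fin 3 → F) → (Fin 3 → F)}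

local notation:max g "⬝" x:max => Units.val g *ᵥ x

/-- The stabiliser in `M` of the line through `p`. -/
def ptStab (M : Subgroup (GL (Fin 3) F)) (p : Fin 3 → F) : Subgroup (GL (Fin 3) F) :=
  M ⊓ Cfsg.Geo.subspaceStabilizer (Submodule.span F {p})

theorem mem_ptStab {M : Subgroup (GL (Fin 3) F)} {p : Fin 3 → F} {g : GL (Fin 3) F} :
    g ∈ ptStab M p ↔ g ∈ M ∧ ∃ k : F, g⬝p = k • p := by
  refine ⟨fun ⟨h1, h2⟩ => ⟨h1, ?_⟩, fun ⟨h1, k, hk⟩ => ⟨h1, ?_⟩⟩
  · obtain ⟨k, hk⟩ := Submodule.mem_span_singleton.1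
      ((mem_subspaceStabilizer.1 h2 p).1 (Submodule.mem_span_singleton_self p))
    exact ⟨k, hk.symm⟩
  · refine mem_subspaceStabilizer_of_maps fun x hx => ?_
    obtain ⟨m, rfl⟩ := Submodule.mem_span_singleton.1 hx
    rw [mulVec_smul, hk, smul_smul]
    exact Submodule.smul_mem _ _ (Submodule.mem_span_singleton_self p)

/-- A basis attached to a rational anisotropic point whose complement has no rational isotropic vector. -/
structure MFrame (σ : F ≃+* F) (f : (Fin 3 → F) → (Fin 3 → F) → F) (τ : (Fin 3 → F) → (Fin 3 → F))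
    (p b b' : Fin 3 → F) : Prop where
  tp : τ p = p
  tb : τ b = b'
  bp : f b p = 0
  b'p : f b' p = 0
  bb' : f b b' = 0
  pp : f p p ≠ 0
  bb : f b b ≠ 0
  beq : f b' b' = f b b

namespace RatSys

variable (R : RatSys q σ f τ)
include R

/-- Generators of the fixed units and of the circle. -/
theorem exists_gens :
    ∃ l z : F, σ l = l ∧ l ^ (q - 1) = 1 ∧ (∀ k, 0 < k → k < q - 1 → l ^ k ≠ 1) ∧
      z * σ z = 1 ∧ z ^ (q + 1) = 1 ∧ (∀ k, 0 < k → k < q + 1 → z ^ k ≠ 1) := by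
  obtain ⟨γ, hγ⟩ := IsCyclic.exists_ofOrder_eq_natCard (α := Fˣ)
  rw [Nat.card_units, Nat.card_eq_fintype_card, R.card] at hγ
  have hq := R.big
  have hq2 : q ^ 2 - 1 = (q + 1) * (q - 1) := by rw [← Nat.sq_sub_sq, one_pow]
  have h1 : orderOf (γ ^ (q + 1)) = q - 1 := by
    rw [orderOf_pow, hγ, hq2, Nat.gcd_eq_right (dvd_mul_right _ _), Nat.mul_div_cancel_left _ (by omega)]
  have h2 : orderOf (γ ^ (q - 1)) = q + 1 := by
    rw [orderOf_pow, hγ, hq2, Nat.gcd_eq_right (dvd_mul_left _ _), Nat.mul_div_cancel _ (by omega)]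
  have e1 : ((γ ^ (q + 1) : Fˣ) : F) ^ (q - 1) = 1 := by
    rw [← Units.val_pow_eq_pow_val, ← h1, pow_orderOf_eq_one, Units.val_one]
  have e2 : ((γ ^ (q - 1) : Fˣ) : F) ^ (q + 1) = 1 := by
    rw [← Units.val_pow_eq_pow_val, ← h2, pow_orderOf_eq_one, Units.val_one]
  refine ⟨_, _, ?_, e1, fun k hk hk' h => ?_, ?_, e2, fun k hk hk' h => ?_⟩
  · have key : ∀ x : F, x ^ (q - 1) = 1 → x ^ q = x := fun x hx => by
      have := pow_succ x (q - 1)
      rwa [show q - 1 + 1 = q by omega, hx, one_mul] at this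
    rw [R.pow, key _ e1]
  · rw [← Units.val_pow_eq_pow_val, Units.val_eq_one] at h
    have := Nat.le_of_dvd hk (orderOf_dvd_of_pow_eq_one h)
    omega
  · rw [R.pow, ← pow_succ', e2]
  · rw [← Units.val_pow_eq_pow_val, Units.val_eq_one] at h
    have := Nat.le_of_dvd hk (orderOf_dvd_of_pow_eq_one h)
    omega

theorem exists_sqrt {r : F} (hr : σ r = r) (hr0 : r ≠ 0) : ∃ t : F, t * t = r := by
  have hc : ringChar F ≠ 2 := fun h => R.two (by
    have := ringChar.spec F 2
    rw [h] at this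
    exact_mod_cast this.2 dvd_rfl)
  obtain ⟨t, ht⟩ := (FiniteField.isSquare_iff hc hr0).2 (by
    obtain ⟨m, hm⟩ : ∃ m, q = 2 * m + 1 := ⟨q / 2, by have := R.q_odd; omega⟩
    have h1 : r ^ (q - 1) = 1 := by
      rw [R.pow] at hr
      refine mul_right_cancel₀ hr0 ?_
      rw [← pow_succ, show q - 1 + 1 = q by omega, hr, one_mul]
    have h2 : Fintype.card F / 2 = (q - 1) * (m + 1) := by
      rw [R.card, hm, show 2 * m + 1 - 1 = 2 * m by omega,
        show (2 * m + 1) ^ 2 = 1 + 2 * (2 * m * (m + 1)) by ring, Nat.add_mul_div_left _ _ (by norm_num)]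
      simp
    rw [h2, pow_mul, h1, one_pow])
  exact ⟨t, ht.symm⟩

/-- The complement of a rational anisotropic point either contains a rational isotropic vector or gives a basis. -/
theorem frame_or_mframe {p : Fin 3 → F} (hp : τ p = p) (hpp : f p p ≠ 0) :
    (∃ e f₀, Frame σ f τ e f₀ p) ∨ ∃ b b', MFrame σ f τ p b b' := by
  have hf := R.herm
  obtain ⟨v, hv, hvp, hvv⟩ := R.exists_rat_orth hp hpp
  obtain ⟨w, hw, hwp, hwv, hww⟩ := R.exists_rat_orth₂ hp hv hpp hvv hvp
  have hvw := orth_comm hf hwv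
  obtain ⟨t, ht⟩ := R.exists_sqrt (r := -(f v v / f w w))
    (by rw [map_neg, map_div₀, R.rat_form hv hv, R.rat_form hw hw])
    (neg_ne_zero.2 (div_ne_zero hvv hww))
  have htw : t * t * f w w = -f v v := by rw [ht]; field_simp
  rcases eq_or_eq_neg_of_sq_eq_sq (σ t) t (by
    rw [← map_pow, sq, ht, map_neg, map_div₀, R.rat_form hv hv, R.rat_form hw hw]) with hσt | hσt
  · refine Or.inl ⟨v + t • w, R.frame_of_orth ?_ ?_ ?_ hp hpp ?_⟩
    · rw [R.tadd, R.tsmul, hv, hw, hσt]
    · intro h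
      have := congrArg (fun z => f z v) h
      simp [hf.add_left, hf.smul_left, hwv, zero_left hf, hvv] at this
    · rw [norm_add_smul hf, hvw, hwv, hσt]
      linear_combination htw
    · rw [add_right hf, smul_right hf, orth_comm hf hvp, orth_comm hf hwp]; ring
  · have hb : τ (v + t • w) = v - t • w := by
      rw [R.tadd, R.tsmul, hv, hw, hσt, neg_smul, sub_eq_add_neg]
    refine Or.inr ⟨v + t • w, v - t • w, hp, hb, ?_, ?_, ?_, hpp, ?_, ?_⟩
    · rw [hf.add_left, hf.smul_left, hvp, hwp]; ring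
    · rw [sub_left hf, hf.smul_left, hvp, hwp]; ring
    · rw [hf.add_left, sub_right hf, sub_right hf, hf.smul_left, hf.smul_left, smul_right hf, smul_right hf,
        hvw, hwv, hσt]
      linear_combination htw
    · rw [norm_add_smul hf, hvw, hwv, hσt]
      intro h
      exact mul_ne_zero R.two hvv (by linear_combination h + htw)
    · rw [← hb, R.tform, norm_fixed hf]

end RatSys

namespace MFrame

variable {p b b' : Fin 3 → F} (R : RatSys q σ f τ) (B : MFrame σ f τ p b b')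
include R B

theorem tb' : τ b' = b := by rw [← B.tb, R.tinv]

theorem b'b : f b' b = 0 := orth_comm R.herm B.bb'

theorem pb : f p b = 0 := orth_comm R.herm B.bp

theorem pb' : f p b' = 0 := orth_comm R.herm B.b'p

theorem b'b'_ne : f b' b' ≠ 0 := B.beq ▸ B.bb

theorem basis : (Matrix.of fun i j => ![p, b, b'] j i).det ≠ 0 :=
  det_ne_zero_of_pairing (a' := p) (b' := b) (c' := b') f R.herm.add_left R.herm.smul_left
    B.pp B.bb (B.b'b'_ne R) B.bp B.b'p (B.pb R) (B.b'b R) (B.pb' R) B.bb'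

/-- The involutions at rational vectors of the plane. -/
theorem swap_apply {a : F} (ha : a ≠ 0) :
    τ (a • b + σ a • b') = a • b + σ a • b' ∧ f (a • b + σ a • b') (a • b + σ a • b') ≠ 0 ∧
      (sref R.herm (a • b + σ a • b'))⬝p = -p ∧
      (sref R.herm (a • b + σ a • b'))⬝b = (σ a / a) • b' ∧
      (sref R.herm (a • b + σ a • b'))⬝b' = (a / σ a) • b := by
  have hf := R.herm
  have hsa : σ a ≠ 0 := (map_ne_zero σ).2 ha
  have h2 := R.two
  have hn := B.bb
  have n1 : f (a • b + σ a • b') (a • b + σ a • b') = 2 * (a * σ a * f b b) := by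
    simp only [hf.add_left, add_right hf, hf.smul_left, smul_right hf, B.bb', B.b'b R, B.beq, hf.involutive]
    ring
  have hne : f (a • b + σ a • b') (a • b + σ a • b') ≠ 0 := by
    rw [n1]; exact mul_ne_zero h2 (mul_ne_zero (mul_ne_zero ha hsa) hn)
  refine ⟨?_, hne, R.sref_perp hne ?_, ?_, ?_⟩
  · rw [R.tadd, R.tsmul, R.tsmul, B.tb, B.tb' R, hf.involutive, add_comm]
  · rw [add_right hf, smul_right hf, smul_right hf, B.pb R, B.pb' R]; ring
  · rw [R.sref_apply hne, n1, add_right hf, smul_right hf, smul_right hf, B.bb', ← neg_one_smul F b]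
    match_scalars <;> field_simp <;> ring
  · rw [R.sref_apply hne, n1, add_right hf, smul_right hf, smul_right hf, B.b'b R, B.beq, hf.involutive,
      ← neg_one_smul F b']
    match_scalars <;> field_simp <;> ring

end MFrame

namespace Over

variable {R : RatSys q σ f τ} {M : Subgroup (GL (Fin 3) F)} (O : Over R M)
include O

section Plus

variable {e f₀ u : Fin 3 → F} (W : Frame σ f τ e f₀ u)
include W

theorem r_apply :
    sref R.herm (e + f₀) ∈ M ∧ Semi τ (sref R.herm (e + f₀)) ∧ Iso f (sref R.herm (e + f₀)) ∧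
      sref R.herm (e + f₀) * sref R.herm (e + f₀) = 1 ∧
      (sref R.herm (e + f₀))⬝e = f₀ ∧ (sref R.herm (e + f₀))⬝f₀ = e ∧ (sref R.herm (e + f₀))⬝u = -u := by
  have h3 : f (e + f₀) (e + f₀) ≠ 0 := by simpa using O.plus_aniso W (c := 1) (map_one σ) one_ne_zero
  have h4 : τ (e + f₀) = e + f₀ := by rw [R.tadd, W.te, W.tf]
  have hf := R.herm
  have n1 : f (e + f₀) (e + f₀) = 2 := by
    rw [hf.add_left, add_right hf, add_right hf, W.ee, W.ef, W.fe R, W.ff]; norm_num
  refine ⟨O.sref_mem h3 h4, R.semi_sref h3 h4, R.sref_iso h3, R.sref_sq h3, ?_, ?_, R.sref_perp h3 ?_⟩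
  · rw [R.sref_apply h3, n1, add_right hf, W.ee, W.ef, zero_add, mul_one, div_self R.two, one_smul]; abel
  · rw [R.sref_apply h3, n1, add_right hf, W.fe R, W.ff, add_zero, mul_one, div_self R.two, one_smul]; abel
  · rw [add_right hf, W.ue, W.uf, add_zero]

theorem plus_fix {g : GL (Fin 3) F} (hg : g ∈ M) {k μ : F} (hu : g⬝u = k • u) (he : g⬝e = μ • e) :
    Semi τ g ∧ k ^ 3 = 1 := by
  obtain ⟨hs, η, c, α, -, h3, -, -, hu'⟩ := O.line W hg he
  refine ⟨hs, ?_⟩
  rw [hu] at hu'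
  have := congrArg (fun z => f z u) hu'
  simp only [R.herm.add_left, R.herm.smul_left, W.eu R, mul_zero, add_zero] at this
  rw [mul_right_cancel₀ W.uu this, h3]

theorem plus_swap {g : GL (Fin 3) F} (hg : g ∈ M) {k μ : F} (hu : g⬝u = k • u) (he : g⬝e = μ • f₀) :
    Semi τ g ∧ (-k) ^ 3 = 1 := by
  obtain ⟨hr, hrs, -, hr2, -, hrf, hru⟩ := O.r_apply W
  obtain ⟨hs, h3⟩ := O.plus_fix W (M.mul_mem hr hg) (k := -k) (μ := μ)
    (by rw [Units.val_mul, ← mulVec_mulVec, hu, mulVec_smul, hru, smul_neg, neg_smul])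
    (by rw [Units.val_mul, ← mulVec_mulVec, he, mulVec_smul, hrf])
  refine ⟨?_, h3⟩
  rw [show g = sref R.herm (e + f₀) * (sref R.herm (e + f₀) * g) by rw [← mul_assoc, hr2, one_mul]]
  exact R.semi_mul hrs hs

/-- Elements fixing a rational point with a rational isotropic vector in its complement. -/
theorem plus_main {g : GL (Fin 3) F} (hg : g ∈ M) {k : F} (hu : g⬝u = k • u) :
    k ^ 6 = 1 ∧ (Semi τ g ∨ q = 7 ∧ 16 ∣ Nat.card (ptStab M u)) := by
  classical
  have hf := R.herm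
  obtain ⟨l, -, hl, hl1, hlk, -⟩ := R.exists_gens
  have hq := R.big
  have hl0 : l ≠ 0 := fun h => by rw [h, zero_pow (by omega)] at hl1; exact zero_ne_one hl1
  obtain ⟨-, hH⟩ := O.hEl_semi W hl hl0
  obtain ⟨hHe, hHf, hHu⟩ := W.hEl_apply R hl hl0
  obtain ⟨hr, -, -, hr2, hre, hrf, hru⟩ := O.r_apply W
  set h := hEl R.herm e f₀ l
  set r := sref R.herm (e + f₀)
  have he0 := W.e_ne R
  have hsp : ∀ {g' : GL (Fin 3) F}, g' ∈ ptStab M u → ScalarPerp f u g' → ∀ ε : F, g'⬝u = ε • u →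
      ε ^ 3 = 1 := by
    intro g' hg' hsc ε hε
    obtain ⟨β, hβ⟩ := hsc
    exact (O.plus_fix W hg'.1 hε (hβ e (W.eu R))).2
  have hc2 : ¬ ScalarPerp f u (h * h) := by
    rintro ⟨β, hβ⟩
    have h1 := congrArg (fun z => f z f₀) (hβ e (W.eu R))
    have h2 := congrArg (fun z => f z e) (hβ f₀ (W.fu R))
    simp only [Units.val_mul, ← mulVec_mulVec, hHe, hHf, mulVec_smul, hf.smul_left, W.ef, W.fe R, mul_one]
      at h1 h2
    refine hlk 4 (by norm_num) (by omega) ?_
    have h3 : l * l = l⁻¹ * l⁻¹ := h2.trans h1.symm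
    field_simp at h3
    linear_combination h3
  have hrc : r * h * r⁻¹ = h⁻¹ := by
    rw [mul_inv_eq_iff_eq_mul, eq_inv_mul_iff_mul_eq]
    refine mul_left_ext (W.basis R) ?_ ?_ ?_ <;>
      simp only [Units.val_mul, ← mulVec_mulVec, hHe, hHf, hHu, hre, hrf, hru, mulVec_smul, mulVec_neg,
        smul_smul]
    · rw [inv_mul_cancel₀ hl0, one_smul]
    · rw [mul_inv_cancel₀ hl0, one_smul]
  rcases perp_cases R.card R.pow hf (Fintype.card_fin 3) R.two W.uu (ptStab M u)
      (fun g' hg' => O.iso g' hg'.1)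
      (fun g' hg' => by
        obtain ⟨k', hk'⟩ := (mem_ptStab.1 hg').2
        exact hk' ▸ Submodule.smul_mem _ _ (Submodule.mem_span_singleton_self u))
      (fun x hx0 _ hxx c hc0 _ hm => O.no_transv W hx0 hxx hc0 hm.1)
      (fun g' hg' => hsp hg') (c := h) (r := r)
      (mem_ptStab.2 ⟨hH, 1, by rw [hHu, one_smul]⟩) (mem_ptStab.2 ⟨hr, -1, by rw [hru, neg_one_smul]⟩)
      hHu hru hc2 hrc hr2 with hd | ⟨hc3, h6, h16⟩
  · have hmem : g ∈ ptStab M u := mem_ptStab.2 ⟨hg, k, hu⟩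
    have hx := hd g hmem e (W.eu R) he0 (by rw [hHe]; exact Submodule.smul_mem _ _ (Submodule.mem_span_singleton_self e))
    obtain ⟨m, hm⟩ := Submodule.mem_span_singleton.1 hx
    have hgu : f (g⬝e) u = 0 := by
      have h1 := O.iso g hg e u
      rw [hu, smul_right hf, W.eu R] at h1
      refine (mul_eq_zero.1 h1).resolve_left ((map_ne_zero σ).2 fun h0 => ?_)
      rw [h0, zero_smul] at hu
      have := O.iso g hg u u
      rw [hu, zero_left hf] at this
      exact W.uu this.symm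
    obtain ⟨α, β, γ, hge⟩ := exists_span (W.basis R) (g⬝e)
    rw [hge] at hgu
    simp [hf.add_left, hf.smul_left, W.eu R, W.fu R, W.uu] at hgu
    subst hgu
    rw [zero_smul, add_zero] at hge
    rw [hge, mulVec_add, mulVec_smul, mulVec_smul, hHe, hHf] at hm
    have h1 := congrArg (fun z => f z f₀) hm
    have h2 := congrArg (fun z => f z e) hm
    simp only [smul_add, hf.add_left, hf.smul_left, W.ee, W.ef, W.ff, W.fe R, mul_zero, mul_one, add_zero,
      zero_add] at h1 h2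
    by_cases hα : α = 0
    · rw [hα, zero_smul, zero_add] at hge
      obtain ⟨hs, h3⟩ := O.plus_swap W hg hu hge
      exact ⟨by linear_combination (k ^ 3 - 1) * (-1 : F) * h3 + 0, Or.inl hs⟩
    · have hβ : β = 0 := by
        by_contra hβ
        refine hlk 2 (by norm_num) (by omega) ?_
        have e1 : m = l⁻¹ := mul_right_cancel₀ hα (by linear_combination h1)
        have e2 : m = l := mul_right_cancel₀ hβ (by linear_combination h2)
        calc l ^ 2 = m * l := by rw [sq, e2]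
          _ = 1 := by rw [e1, inv_mul_cancel₀ hl0]
      rw [hβ, zero_smul, add_zero] at hge
      obtain ⟨hs, h3⟩ := O.plus_fix W hg hu hge
      exact ⟨by linear_combination (k ^ 3 + 1) * h3, Or.inl hs⟩
  · refine ⟨h6 g (mem_ptStab.2 ⟨hg, k, hu⟩) k hu, Or.inr ⟨?_, h16 ⟨sref R.herm u, ?_, ?_, R.sref_sq W.uu,
      -1, fun x hx => by rw [R.sref_perp W.uu hx, neg_one_smul]⟩⟩⟩
    · obtain ⟨β, hβ⟩ := hc3
      have h1 := congrArg (fun z => f z f₀) (hβ e (W.eu R))
      have h2 := congrArg (fun z => f z e) (hβ f₀ (W.fu R))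
      simp only [Units.val_mul, ← mulVec_mulVec, hHe, hHf, mulVec_smul, hf.smul_left, W.ef, W.fe R, mul_one]
        at h1 h2
      have h3 : l * (l * l) = l⁻¹ * (l⁻¹ * l⁻¹) := h2.trans h1.symm
      have h6' : l ^ 6 = 1 := by field_simp at h3; linear_combination h3
      by_contra hq7
      exact hlk 6 (by norm_num) (by omega) h6'
    · exact mem_ptStab.2 ⟨O.sref_mem W.uu W.tu, 1, by rw [R.sref_self W.uu, one_smul]⟩
    · intro h1
      have h2 := R.sref_perp W.uu (W.eu R)
      rw [h1, Units.val_one, one_mulVec, ← neg_one_smul F e] at h2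
      have := congrArg (fun z => f z f₀) h2
      simp only [hf.smul_left, W.ef, mul_one] at this
      exact R.neg_ne one_ne_zero this.symm

end Plus

section Minus

variable {e f₀ u p b b' : Fin 3 → F} (W : Frame σ f τ e f₀ u) (B : MFrame σ f τ p b b')
include W B

theorem exists_rot {k : F} (hk : k * σ k = 1) :
    ∃ c ∈ M, Semi τ c ∧ c⬝p = p ∧ c⬝b = k • b ∧ c⬝b' = k⁻¹ • b' := by
  obtain ⟨a, ha0, ha⟩ := R.exists_div_conj hk
  obtain ⟨ta, na, pa, ba, b'a⟩ := B.swap_apply R ha0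
  obtain ⟨t1, n1, p1, b1, b'1⟩ := B.swap_apply R (a := 1) one_ne_zero
  have hσa : σ a ≠ 0 := (map_ne_zero σ).2 ha0
  refine ⟨_, M.mul_mem (O.sref_mem na ta) (O.sref_mem n1 t1),
    R.semi_mul (R.semi_sref na ta) (R.semi_sref n1 t1), ?_, ?_, ?_⟩ <;> rw [Units.val_mul, ← mulVec_mulVec]
  · rw [p1, mulVec_neg, pa, neg_neg]
  · rw [b1, map_one, div_one, one_smul, b'a]
    congr 1; rw [div_eq_iff hσa]; exact ha
  · rw [b'1, map_one, div_one, one_smul, ba]
    congr 1
    rw [← inv_div, show a / σ a = k by rw [div_eq_iff hσa]; exact ha]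

/-- A rational involution exchanging the two lines whose axis has a rational isotropic vector in its complement. -/
theorem exists_r :
    ∃ r ∈ M, Semi τ r ∧ r * r = 1 ∧ r⬝p = -p ∧ ∃ p' : Fin 3 → F, ∃ ρ : F, ρ ≠ 0 ∧
      r⬝b = ρ • b' ∧ r⬝b' = ρ⁻¹ • b ∧ f p' p = 0 ∧ ∃ e' f', Frame σ f τ e' f' p' := by
  have hf := R.herm
  obtain ⟨d, hd0, hd⟩ := R.exists_trace_zero
  have hdd : d * σ d ≠ 0 := mul_ne_zero hd0 ((map_ne_zero σ).2 hd0)
  obtain ⟨a, ha⟩ := exists_norm hf (r := -f p p / (2 * (d * σ d) * f b b)) (by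
    rw [map_div₀, map_neg, map_mul, map_mul, map_mul, hf.involutive, norm_fixed hf, norm_fixed hf, map_ofNat]
    ring)
  have hr0 : -f p p / (2 * (d * σ d) * f b b) ≠ 0 :=
    div_ne_zero (neg_ne_zero.2 B.pp) (mul_ne_zero (mul_ne_zero R.two hdd) B.bb)
  have ha0 : a ≠ 0 := fun h => hr0 (by rw [← ha, h, zero_mul])
  obtain ⟨ta, na, pa, ba, b'a⟩ := B.swap_apply R ha0
  refine ⟨_, O.sref_mem na ta, R.semi_sref na ta, R.sref_sq na, pa, a • b + σ a • b', σ a / a,
    div_ne_zero ((map_ne_zero σ).2 ha0) ha0, ba, by rw [inv_div]; exact b'a, ?_, ?_⟩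
  · show f (a • b + σ a • b') p = 0
    rw [hf.add_left, hf.smul_left, hf.smul_left, B.bp, B.b'p]; ring
  · refine ⟨p + d • (a • b - σ a • b'), R.frame_of_orth ?_ ?_ ?_ ta na ?_⟩
    · rw [R.tadd, R.tsmul, R.tsub, R.tsmul, R.tsmul, B.tp, B.tb, B.tb' R, hf.involutive, hd]
      module
    · intro h
      have := congrArg (fun z => f z p) h
      simp [hf.add_left, hf.smul_left, sub_left hf, B.bp, B.b'p, zero_left hf, B.pp] at this
    · have hn := B.bb
      have h2 := R.two
      have hdd' := (map_ne_zero σ).2 hd0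
      field_simp at ha
      simp only [hf.add_left, add_right hf, hf.smul_left, smul_right hf, sub_left hf, sub_right hf, B.bp, B.b'p,
        B.pb R, B.pb' R, B.bb', B.b'b R, B.beq, hf.involutive]
      linear_combination ha
    · simp only [hf.add_left, add_right hf, hf.smul_left, smul_right hf, sub_left hf, sub_right hf, B.bp, B.b'p,
        B.bb', B.b'b R, B.beq, hf.involutive]
      ring

theorem perp_form {g : GL (Fin 3) F} (hg : g ∈ M) {ε : F} (hp : g⬝p = ε • p) {x : Fin 3 → F}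
    (hx : f x p = 0) : ε * σ ε = 1 ∧ ∃ α β : F, g⬝x = α • b + β • b' := by
  have hf := R.herm
  have h0 := O.iso g hg p p
  rw [hp, hf.smul_left, smul_right hf] at h0
  have hε : ε * σ ε = 1 := mul_right_cancel₀ B.pp (by linear_combination h0)
  refine ⟨hε, ?_⟩
  have h1 := O.iso g hg x p
  rw [hp, smul_right hf, hx] at h1
  have hσε : σ ε ≠ 0 := fun h => by rw [h, mul_zero] at hε; exact zero_ne_one hε
  obtain ⟨γ, α, β, h⟩ := exists_span (B.basis R) (g⬝x)
  rw [h] at h1
  simp [hf.add_left, hf.smul_left, B.bp, B.b'p, B.pp, hσε] at h1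
  exact ⟨α, β, by rw [h, h1]; simp⟩

/-- An element scalar on the complement has determinant condition on the point. -/
theorem minus_hker {g : GL (Fin 3) F} (hg : g ∈ M) {ε β : F} (hp : g⬝p = ε • p) (hb : g⬝b = β • b)
    (hb' : g⬝b' = β • b') : ε ^ 3 = 1 := by
  obtain ⟨r, -, -, -, -, p', ρ, -, -, -, hp'p, e', f', W'⟩ := O.exists_r W B
  have hf := R.herm
  obtain ⟨γ, α, α', hp'⟩ := exists_span (B.basis R) p'
  have hγ : γ = 0 := by
    rw [hp', hf.add_left, hf.add_left, hf.smul_left, hf.smul_left, hf.smul_left, B.bp, B.b'p] at hp'p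
    simpa [B.pp] using hp'p
  have h6 := (O.plus_main W' hg (k := β) (by
    rw [hp', hγ, mulVec_add, mulVec_add, mulVec_smul, mulVec_smul, mulVec_smul, hb, hb']; module)).1
  have hd := O.det g hg
  rw [det_of_action (B.basis R) !![ε, 0, 0; 0, β, 0; 0, 0, β] (by simpa using hp) (by simpa using hb)
    (by simpa using hb'), det_fin_three] at hd
  simp at hd
  have : ε ^ 3 * β ^ 6 = 1 := by
    rw [show ε ^ 3 * β ^ 6 = (ε * β * β) ^ 3 by ring, hd, one_pow]
  rwa [h6, mul_one] at this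

theorem minus_mono {g : GL (Fin 3) F} (hg : g ∈ M) {ε : F} (hp : g⬝p = ε • p) :
    (∃ β : F, g⬝b = β • b) ∨ ∃ β : F, g⬝b = β • b' := by
  classical
  have hf := R.herm
  obtain ⟨-, z, -, -, -, hz, hz1, hzk⟩ := R.exists_gens
  have hq := R.big
  have hz0 : z ≠ 0 := fun h => by rw [h, zero_mul] at hz; exact zero_ne_one hz
  obtain ⟨c, hc, -, hcp, hcb, hcb'⟩ := O.exists_rot W B hz
  obtain ⟨r, hr, -, hr2, hrp, -, ρ, hρ, hrb, hrb', -⟩ := O.exists_r W B
  have hb0 : b ≠ 0 := fun h => B.bb (by rw [h, zero_left hf])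
  have hker : ∀ g' ∈ ptStab M p, ScalarPerp f p g' → ∀ ε : F, g'⬝p = ε • p → ε ^ 3 = 1 :=
    fun g' hg' ⟨β, hβ⟩ ε hε => O.minus_hker W B hg'.1 hε (hβ b B.bp) (hβ b' B.b'p)
  have hc2 : ¬ ScalarPerp f p (c * c) := by
    rintro ⟨β, hβ⟩
    have h1 := congrArg (fun x => f x b) (hβ b B.bp)
    have h2 := congrArg (fun x => f x b') (hβ b' B.b'p)
    simp only [Units.val_mul, ← mulVec_mulVec, hcb, hcb', mulVec_smul, hf.smul_left, B.beq] at h1 h2
    refine hzk 4 (by norm_num) (by omega) ?_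
    have h3 : z * (z * f b b) = z⁻¹ * (z⁻¹ * f b b) := h1.trans h2.symm
    have hn := B.bb
    field_simp at h3
    linear_combination h3
  have hrc : r * c * r⁻¹ = c⁻¹ := by
    rw [mul_inv_eq_iff_eq_mul, eq_inv_mul_iff_mul_eq]
    refine mul_left_ext (B.basis R) ?_ ?_ ?_ <;>
      simp only [Units.val_mul, ← mulVec_mulVec, hcp, hcb, hcb', hrp, hrb, hrb', mulVec_smul, mulVec_neg,
        smul_smul] <;>
      (congr 1; field_simp)
  rcases perp_cases R.card R.pow hf (Fintype.card_fin 3) R.two B.pp (ptStab M p)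
      (fun g' hg' => O.iso g' hg'.1)
      (fun g' hg' => by
        obtain ⟨k', hk'⟩ := (mem_ptStab.1 hg').2
        exact hk' ▸ Submodule.smul_mem _ _ (Submodule.mem_span_singleton_self p))
      (fun x hx0 _ hxx c hc0 _ hm => O.no_transv W hx0 hxx hc0 hm.1)
      hker (c := c) (r := r)
      (mem_ptStab.2 ⟨hc, 1, by rw [hcp, one_smul]⟩) (mem_ptStab.2 ⟨hr, -1, by rw [hrp, neg_one_smul]⟩)
      hcp hrp hc2 hrc hr2 with hd | ⟨⟨β, hβ⟩, -⟩
  · obtain ⟨m, hm⟩ := Submodule.mem_span_singleton.1 (hd g (mem_ptStab.2 ⟨hg, ε, hp⟩) b B.bp hb0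
      (by rw [hcb]; exact Submodule.smul_mem _ _ (Submodule.mem_span_singleton_self b)))
    obtain ⟨-, α, α', hgb⟩ := O.perp_form W B hg hp B.bp
    rw [hgb, mulVec_add, mulVec_smul, mulVec_smul, hcb, hcb'] at hm
    have h1 := congrArg (fun x => f x b) hm
    have h2 := congrArg (fun x => f x b') hm
    simp only [smul_add, hf.add_left, hf.smul_left, B.b'b R, B.bb', B.beq, mul_zero, add_zero, zero_add]
      at h1 h2
    by_cases hα : α = 0
    · exact Or.inr ⟨α', by rw [hgb, hα, zero_smul, zero_add]⟩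
    · refine Or.inl ⟨α, ?_⟩
      by_cases hα' : α' = 0
      · rw [hgb, hα', zero_smul, add_zero]
      exfalso
      refine hzk 2 (by norm_num) (by omega) ?_
      have hn := B.bb
      have e1 : m = z := mul_right_cancel₀ (mul_ne_zero hα hn) (by linear_combination h1)
      have e2 : m = z⁻¹ := mul_right_cancel₀ (mul_ne_zero hα' hn) (by linear_combination h2)
      calc z ^ 2 = m * z := by rw [sq, e1]
        _ = 1 := by rw [e2, inv_mul_cancel₀ hz0]
  · exfalso
    have h1 := congrArg (fun x => f x b) (hβ b B.bp)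
    have h2 := congrArg (fun x => f x b') (hβ b' B.b'p)
    simp only [Units.val_mul, ← mulVec_mulVec, hcb, hcb', mulVec_smul, hf.smul_left, B.beq] at h1 h2
    refine hzk 6 (by norm_num) (by omega) ?_
    have h3 : z * (z * (z * f b b)) = z⁻¹ * (z⁻¹ * (z⁻¹ * f b b)) := h1.trans h2.symm
    have hn := B.bb
    field_simp at h3
    linear_combination h3

theorem diag_form {g : GL (Fin 3) F} (hg : g ∈ M) {ε β : F} (hp : g⬝p = ε • p) (hb : g⬝b = β • b) :
    ∃ β' : F, g⬝b' = β' • b' ∧ ε * β * β' = 1 ∧ ε * σ ε = 1 ∧ β * σ β = 1 ∧ ε ^ 6 = 1 := by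
  have hf := R.herm
  obtain ⟨hε, α, β', hb'⟩ := O.perp_form W B hg hp B.b'p
  have h1 := O.iso g hg b b
  rw [hb, hf.smul_left, smul_right hf] at h1
  have hβ : β * σ β = 1 := mul_right_cancel₀ B.bb (by linear_combination h1)
  have h2 := O.iso g hg b' b
  rw [hb', hb, smul_right hf, hf.add_left, hf.smul_left, hf.smul_left, B.b'b R] at h2
  have hσβ : σ β ≠ 0 := fun h => by rw [h, mul_zero] at hβ; exact zero_ne_one hβ
  have hα : α = 0 := by simpa [hσβ, B.bb] using h2
  rw [hα, zero_smul, zero_add] at hb'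
  have hd := O.det g hg
  rw [det_of_action (B.basis R) !![ε, 0, 0; 0, β, 0; 0, 0, β'] (by simpa using hp) (by simpa using hb)
    (by simpa using hb'), det_fin_three] at hd
  simp at hd
  refine ⟨β', hb', hd, hε, hβ, ?_⟩
  obtain ⟨r, hr, -, -, hrp, -, ρ, hρ, hrb, hrb', -⟩ := O.exists_r W B
  have := O.minus_hker W B (M.mul_mem (M.mul_mem (M.mul_mem hg hr) hg) hr) (ε := ε * ε) (β := β * β')
    (by simp only [Units.val_mul, ← mulVec_mulVec, hrp, hp, mulVec_neg, mulVec_smul, smul_smul, smul_neg, neg_neg])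
    (by
      simp only [Units.val_mul, ← mulVec_mulVec, hrb, hrb', hb, hb', mulVec_smul, smul_smul]
      congr 1; field_simp)
    (by
      simp only [Units.val_mul, ← mulVec_mulVec, hrb, hrb', hb, hb', mulVec_smul, smul_smul]
      congr 1; field_simp)
  linear_combination this

/-- Fusion of the two kinds of rational points is impossible. -/
theorem not_fused {g : GL (Fin 3) F} (hg : g ∈ M) {k : F} : g⬝u ≠ k • p := by
  intro hk
  have hf := R.herm
  obtain ⟨l, -, hl, hl1, hlk, -⟩ := R.exists_gens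
  have hq := R.big
  have hl0 : l ≠ 0 := fun h => by rw [h, zero_pow (by omega)] at hl1; exact zero_ne_one hl1
  obtain ⟨-, hH⟩ := O.hEl_semi W hl hl0
  obtain ⟨hHe, hHf, hHu⟩ := W.hEl_apply R hl hl0
  set h := hEl R.herm e f₀ l
  have hgi : ∀ x, f (g⁻¹⬝x) u = σ k * f x p := fun x => by
    rw [← O.iso g hg (g⁻¹⬝x) u, mulVec_inv_mulVec, hk, smul_right hf]
  have hk0 : k ≠ 0 := fun h0 => by
    have := O.iso g hg u u
    rw [hk, h0, zero_smul, zero_left hf] at this
    exact W.uu this.symm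
  set y := g * h * g⁻¹ with hy
  have hyM : y ∈ M := M.mul_mem (M.mul_mem hg hH) (M.inv_mem hg)
  have hgp : g⁻¹⬝p = k⁻¹ • u := by
    rw [eq_inv_smul_iff₀ hk0, ← mulVec_smul, ← hk, inv_mulVec_mulVec]
  have hyp : y⬝p = (1 : F) • p := by
    rw [hy, Units.val_mul, Units.val_mul, ← mulVec_mulVec, ← mulVec_mulVec, hgp, mulVec_smul, hHu, mulVec_smul,
      hk, smul_smul, inv_mul_cancel₀ hk0]
  obtain ⟨γ, hγ⟩ : ∃ γ : F, (y * y)⬝b = γ • b := by
    rcases O.minus_mono W B hyM hyp with ⟨β, hβ⟩ | ⟨β, hβ⟩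
    · exact ⟨β * β, by rw [Units.val_mul, ← mulVec_mulVec, hβ, mulVec_smul, hβ, smul_smul]⟩
    · obtain ⟨-, α, α', h'⟩ := O.perp_form W B hyM hyp B.b'p
      have h1 := O.iso y hyM b' b
      rw [h', hβ, smul_right hf, hf.add_left, hf.smul_left, hf.smul_left, B.bb', B.beq, B.b'b R] at h1
      have hβ0 : σ β ≠ 0 := (map_ne_zero σ).2 fun h0 => B.bb (by
        have := O.iso y hyM b b
        rw [hβ, h0, zero_smul, zero_left hf] at this
        exact this.symm)
      have hα' : α' = 0 := by simpa [hβ0, B.bb] using h1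
      exact ⟨β * α, by rw [Units.val_mul, ← mulVec_mulVec, hβ, mulVec_smul, h', hα', zero_smul, add_zero, smul_smul]⟩
  have hγ1 : γ * σ γ = 1 := by
    have h1 := O.iso _ (M.mul_mem hyM hyM) b b
    rw [hγ, hf.smul_left, smul_right hf] at h1
    exact mul_right_cancel₀ B.bb (by linear_combination h1)
  obtain ⟨α, β, δ, hv⟩ := exists_span (W.basis R) (g⁻¹⬝b)
  have hδ : δ = 0 := by
    have := hgi b
    rw [hv, B.bp] at this
    simpa [hf.add_left, hf.smul_left, W.eu R, W.fu R, W.uu] using this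
  subst hδ
  rw [zero_smul, add_zero] at hv
  have e1 := congrArg (fun z => g⁻¹⬝z) hγ
  simp only [hy, Units.val_mul, ← mulVec_mulVec, inv_mulVec_mulVec, mulVec_smul, hv, mulVec_add, hHe, hHf] at e1
  have h1 := congrArg (fun z => f z f₀) e1
  have h2 := congrArg (fun z => f z e) e1
  simp only [smul_add, hf.add_left, hf.smul_left, W.ee, W.ef, W.ff, W.fe R, mul_zero, mul_one, add_zero, zero_add]
    at h1 h2
  refine hlk 4 (by norm_num) (by omega) ?_
  by_cases hα : α = 0
  · have hβ : β ≠ 0 := fun hβ => B.bb (by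
      have e2 := congrArg (fun z => g⬝z) hv
      simp only [mulVec_inv_mulVec, hα, hβ, zero_smul, add_zero, mulVec_zero] at e2
      rw [e2, zero_left hf])
    have e3 : γ = l * l := mul_right_cancel₀ hβ (by linear_combination -h2)
    rw [e3, map_mul, hl] at hγ1
    linear_combination hγ1
  · have e3 : γ = l⁻¹ * l⁻¹ := mul_right_cancel₀ hα (by linear_combination -h1)
    rw [e3, map_mul, map_inv₀, hl] at hγ1
    field_simp at hγ1
    linear_combination -hγ1

/-- The involution fixing one of the conjugate lines is not in the group. -/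
theorem sref_b_not_mem : sref R.herm b ∉ M := by
  intro hs
  have hf := R.herm
  obtain ⟨l, z, hl, hl1, hlk, hz, hz1, hzk⟩ := R.exists_gens
  have hq := R.big
  have hsp : (sref R.herm b)⬝p = -p := R.sref_perp B.bb (B.pb R)
  have hsb : (sref R.herm b)⬝b = b := R.sref_self B.bb
  have hsb' : (sref R.herm b)⬝b' = -b' := R.sref_perp B.bb (B.b'b R)
  have hodd := R.q_odd
  rcases (show q % 4 = 3 ∨ q % 4 = 1 by omega) with hq4 | hq4
  · obtain ⟨i, hi⟩ : ∃ i, i = z ^ ((q + 1) / 4) := ⟨_, rfl⟩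
    have hi2 : i * i = -1 := by
      have h4 : (i * i) * (i * i) = 1 := by
        rw [hi, ← pow_add, ← pow_add, show (q + 1) / 4 + (q + 1) / 4 + ((q + 1) / 4 + (q + 1) / 4) = q + 1 by omega, hz1]
      refine (mul_self_eq_one_iff.1 h4).resolve_left fun h => hzk ((q + 1) / 4 + (q + 1) / 4) (by omega) (by omega) ?_
      rw [pow_add, ← hi, h]
    have hic : i * σ i = 1 := by rw [hi, map_pow, ← mul_pow, hz, one_pow]
    have hi0 : i ≠ 0 := fun h => by rw [h, zero_mul] at hic; exact zero_ne_one hic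
    obtain ⟨c, hc, -, hcp, hcb, hcb'⟩ := O.exists_rot W B hic
    have hii : i⁻¹ = -i := inv_eq_of_mul_eq_one_right (by rw [mul_neg, hi2, neg_neg])
    have := O.minus_hker W B (M.mul_mem hs hc) (ε := -1) (β := i)
      (by rw [Units.val_mul, ← mulVec_mulVec, hcp, hsp, neg_one_smul])
      (by rw [Units.val_mul, ← mulVec_mulVec, hcb, mulVec_smul, hsb])
      (by rw [Units.val_mul, ← mulVec_mulVec, hcb', mulVec_smul, hsb', hii, smul_neg, neg_smul, neg_neg])
    exact R.two (by linear_combination -this)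
  · classical
    obtain ⟨r, hr, hrs, hr2, hrp, -, ρ, hρ, hrb, hrb', -⟩ := O.exists_r W B
    set s := sref R.herm b with hsdef
    have hs2 : s * s = 1 := R.sref_sq B.bb
    set sM : M := ⟨s, hs⟩
    set rM : M := ⟨r, hr⟩
    set w : M := sM * rM with hw
    have hsM : sM * sM = 1 := Subtype.ext hs2
    have hrM : rM * rM = 1 := Subtype.ext hr2
    have hw4 : w ^ 4 = 1 := Subtype.ext (by
      show ((s * r) ^ 4 : GL (Fin 3) F) = 1
      refine mul_left_ext (B.basis R) ?_ ?_ ?_ <;>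
        simp only [pow_succ, pow_zero, one_mul, Units.val_mul, ← mulVec_mulVec, hrp, hrb, hrb', hsp, hsb, hsb',
          mulVec_smul, mulVec_neg, smul_smul, smul_neg, neg_neg, Units.val_one, one_mulVec] <;>
        match_scalars <;> field_simp)
    have hK : IsPGroup 2 (Subgroup.zpowers w) := by
      rintro ⟨_, n, rfl⟩
      refine ⟨2, Subtype.ext ?_⟩
      rw [SubmonoidClass.coe_pow]
      show (w ^ n) ^ (2 ^ 2) = 1
      rw [← _root_.zpow_natCast, ← _root_.zpow_mul, mul_comm, _root_.zpow_mul, _root_.zpow_natCast,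
        show (2 : ℕ) ^ 2 = 4 by norm_num, hw4, _root_.one_zpow]
    have hH : IsPGroup 2 (Subgroup.zpowers sM) := by
      rintro ⟨_, n, rfl⟩
      refine ⟨1, Subtype.ext ?_⟩
      rw [SubmonoidClass.coe_pow]
      show (sM ^ n) ^ (2 ^ 1) = 1
      rw [← _root_.zpow_natCast, ← _root_.zpow_mul, mul_comm, _root_.zpow_mul, _root_.zpow_natCast, pow_one, sq,
        hsM, _root_.one_zpow]
    have hnorm : Subgroup.zpowers sM ≤ Subgroup.normalizer (Subgroup.zpowers w : Set M) := by
      rw [Subgroup.zpowers_le]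
      refine Subgroup.mem_normalizer_iff.2 fun x => ?_
      have hi : sM⁻¹ = sM := inv_eq_of_mul_eq_one_right hsM
      have hconj : sM * w * sM⁻¹ = w⁻¹ := by
        rw [hi, hw, _root_.mul_inv_rev, hi, inv_eq_of_mul_eq_one_right hrM, ← mul_assoc sM sM, hsM, one_mul]
      have key : ∀ x ∈ Subgroup.zpowers w, sM * x * sM⁻¹ ∈ Subgroup.zpowers w := by
        rintro x ⟨n, rfl⟩
        show sM * w ^ n * sM⁻¹ ∈ _
        rw [← conj_zpow, hconj]
        exact Subgroup.zpow_mem _ (Subgroup.inv_mem _ (Subgroup.mem_zpowers w)) n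
      refine ⟨key x, fun h => ?_⟩
      have := key _ h
      rw [hi, ← mul_assoc, ← mul_assoc, hsM, one_mul, mul_assoc, hsM, mul_one] at this
      exact this
    obtain ⟨S, hS⟩ := (hH.to_sup_of_normal_right' hK hnorm).exists_le_sylow
    have hsS : sM ∈ (S : Subgroup M) := hS (Subgroup.mem_sup_left (Subgroup.mem_zpowers _))
    have hwS : w ∈ (S : Subgroup M) := hS (Subgroup.mem_sup_right (Subgroup.mem_zpowers _))
    have hrS : rM ∈ (S : Subgroup M) := by
      have := Subgroup.mul_mem _ hsS hwS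
      rwa [hw, ← mul_assoc, hsM, one_mul] at this
    -- a central involution is the one at `p`
    have hScomm : ∀ x ∈ (S : Subgroup M), ∃ ε : F, ((x : GL (Fin 3) F))⬝p = ε • p := by
      haveI : Nontrivial (S : Subgroup M) := ⟨⟨⟨sM, hsS⟩, 1, fun h => R.neg_ne one_ne_zero (by
        have := congrArg (fun x : (S : Subgroup M) => ((x : M) : GL (Fin 3) F)⬝p) h
        simp only [OneMemClass.coe_one, Units.val_one, one_mulVec] at this
        rw [show ((sM : M) : GL (Fin 3) F) = s from rfl, hsp] at this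
        have h2 := congrArg (fun v => f v p) this
        rw [← neg_one_smul F p, hf.smul_left] at h2
        exact (mul_right_cancel₀ B.pp (h2.trans (one_mul _).symm)))⟩⟩
      haveI := S.isPGroup'.center_nontrivial
      obtain ⟨z₀, hz₀⟩ := exists_prime_orderOf_dvd_card' (G := Subgroup.center (S : Subgroup M)) 2 (by
        obtain ⟨n, hn⟩ := IsPGroup.iff_card.1 (S.isPGroup'.to_subgroup (Subgroup.center (S : Subgroup M)))
        rw [hn]
        refine dvd_pow_self 2 fun h => ?_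
        rw [h, pow_zero, Nat.card_eq_one_iff_unique] at hn
        exact not_subsingleton _ hn.1)
      set zz : GL (Fin 3) F := (((z₀ : (S : Subgroup M)) : M) : GL (Fin 3) F) with hzz
      have hzM : zz ∈ M := ((z₀ : (S : Subgroup M)) : M).2
      have hcomm : ∀ x : M, x ∈ (S : Subgroup M) → zz * (x : GL (Fin 3) F) = (x : GL (Fin 3) F) * zz := fun x hx =>
        congrArg (fun y : (S : Subgroup M) => ((y : M) : GL (Fin 3) F))
          (Subgroup.mem_center_iff.1 z₀.2 ⟨x, hx⟩).symm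
      have hz2 : zz * zz = 1 := by
        have := pow_orderOf_eq_one z₀
        rw [hz₀, sq] at this
        exact congrArg (fun y : Subgroup.center (S : Subgroup M) => (((y : (S : Subgroup M)) : M) : GL (Fin 3) F)) this
      obtain ⟨β, hβ⟩ := (R.sref_comm_iff B.bb (O.iso _ hzM)).1 (hcomm sM hsS)
      obtain ⟨β', hβ'⟩ : ∃ β' : F, zz⬝b' = β' • b' := by
        refine ⟨β, ?_⟩
        have h1 := congrArg (fun g : GL (Fin 3) F => g⬝b) (hcomm rM hrS)
        simp only [Units.val_mul, ← mulVec_mulVec] at h1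
        rw [show ((rM : M) : GL (Fin 3) F) = r from rfl, hrb, hβ, mulVec_smul, mulVec_smul, hrb] at h1
        refine smul_right_injective _ hρ ?_
        show ρ • _ = ρ • _
        rw [h1, smul_comm]
      obtain ⟨γ, α, α', hzp⟩ := exists_span (B.basis R) (zz⬝p)
      have hb0 : ∀ {x : Fin 3 → F} {k : F}, f x x ≠ 0 → zz⬝x = k • x → σ k ≠ 0 := fun {x k} hx hk h0 => hx (by
        have := O.iso _ hzM x x
        rw [hk, hf.smul_left, smul_right hf, h0, zero_mul, mul_zero] at this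
        exact this.symm)
      have h1 := O.iso _ hzM p b
      rw [hzp, hβ, smul_right hf, B.pb R] at h1
      simp [hf.add_left, hf.smul_left, B.pb R, B.b'b R, B.bb, hb0 B.bb hβ] at h1
      have h2 := O.iso _ hzM p b'
      rw [hzp, hβ', smul_right hf, B.pb' R] at h2
      simp [hf.add_left, hf.smul_left, B.pb' R, B.bb', B.b'b'_ne R, hb0 (B.b'b'_ne R) hβ'] at h2
      rw [h1, h2, zero_smul, zero_smul, add_zero, add_zero] at hzp
      have hββ : β' = β := by
        have h3 := congrArg (fun g : GL (Fin 3) F => g⬝b) (hcomm rM hrS)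
        simp only [Units.val_mul, ← mulVec_mulVec] at h3
        rw [show ((rM : M) : GL (Fin 3) F) = r from rfl, hrb, hβ, mulVec_smul, mulVec_smul, hβ', hrb,
          smul_smul, smul_smul] at h3
        have h4 := congrArg (fun v => f v b') h3
        simp only [hf.smul_left] at h4
        exact mul_left_cancel₀ hρ ((mul_right_cancel₀ (B.b'b'_ne R) h4).trans (mul_comm _ _))
      obtain ⟨β'', hb'', hdet, -, -, -⟩ := O.diag_form W B hzM hzp hβ
      have hb2 : β'' = β := by
        rw [hβ', hββ] at hb''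
        have h4 := congrArg (fun v => f v b') hb''
        simp only [hf.smul_left] at h4
        exact (mul_right_cancel₀ (B.b'b'_ne R) h4).symm
      have hβ2 : β * β = 1 := by
        have h5 := congrArg (fun g : GL (Fin 3) F => f (g⬝b) b) hz2
        simp only [Units.val_mul, ← mulVec_mulVec, hβ, mulVec_smul, Units.val_one, one_mulVec, hf.smul_left] at h5
        exact mul_right_cancel₀ B.bb (by linear_combination h5)
      have hγ : γ = 1 := by rw [hb2, mul_assoc, hβ2, mul_one] at hdet; exact hdet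
      have hzeq : zz = sref R.herm p := by
        rcases mul_self_eq_one_iff.1 hβ2 with e | e
        · exfalso
          have h6 : zz = 1 := mul_left_ext (B.basis R) (by rw [hzp, hγ]; simp) (by rw [hβ, e]; simp)
            (by rw [hβ', hββ, e]; simp)
          have h7 : z₀ = 1 := Subtype.ext (Subtype.ext (Subtype.ext h6))
          rw [h7, orderOf_one] at hz₀
          exact absurd hz₀ (by norm_num)
        · exact mul_left_ext (B.basis R) (by rw [hzp, hγ, one_smul, R.sref_self B.pp])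
            (by rw [hβ, e, R.sref_perp B.pp B.bp, neg_one_smul])
            (by rw [hβ', hββ, e, R.sref_perp B.pp B.b'p, neg_one_smul])
      exact fun x hx => (R.sref_comm_iff B.pp (O.iso _ x.2)).1 (hzeq ▸ (hcomm x hx).symm)
    have hdiag : ∀ x ∈ (S : Subgroup M), ∀ β : F, ((x : GL (Fin 3) F))⬝b = β • b → x * x = 1 := by
      intro x hx β hβ
      obtain ⟨ε, hε⟩ := hScomm x hx
      obtain ⟨β', hβ', hdet, -, hβc, h6⟩ := O.diag_form W B x.2 hε hβ
      obtain ⟨m, hm⟩ := S.isPGroup' ⟨x, hx⟩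
      have hxm : ((x : GL (Fin 3) F)) ^ 2 ^ m = 1 :=
        congrArg (fun y : (S : Subgroup M) => ((y : M) : GL (Fin 3) F)) hm
      have hpw : ∀ {v : Fin 3 → F} {k : F}, f v v ≠ 0 → ((x : GL (Fin 3) F))⬝v = k • v → k ^ 2 ^ m = 1 := by
        intro v k hv hk
        have hn : ∀ n : ℕ, ((x : GL (Fin 3) F) ^ n)⬝v = k ^ n • v := fun n => by
          induction n with
          | zero => simp
          | succ n ih => rw [pow_succ, Units.val_mul, ← mulVec_mulVec, hk, mulVec_smul, ih, smul_smul, pow_succ']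
        have h5 := congrArg (fun w => f w v) (hn (2 ^ m))
        rw [hxm] at h5
        simp only [Units.val_one, one_mulVec, hf.smul_left] at h5
        exact mul_right_cancel₀ hv (h5.symm.trans (one_mul _).symm)
      have two_pow_gcd : ∀ {k : F} {N : ℕ}, k ^ N = 1 → k ^ 2 ^ m = 1 → ¬ 4 ∣ N → k ^ 2 = 1 := by
        intro k N hN hm' h4
        have hd := pow_gcd_eq_one.2 ⟨hN, hm'⟩
        obtain ⟨j, -, hj⟩ := (Nat.dvd_prime_pow Nat.prime_two).1 (Nat.gcd_dvd_right N (2 ^ m))
        rw [hj] at hd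
        have hj1 : j ≤ 1 := by
          by_contra hj1
          exact h4 ((show 4 ∣ 2 ^ j from (pow_dvd_pow 2 (show 2 ≤ j by omega))).trans (hj ▸ Nat.gcd_dvd_left N (2 ^ m)))
        interval_cases j <;> simp_all
      have he2 := two_pow_gcd h6 (hpw B.pp hε) (by norm_num)
      have hb2 : β ^ 2 = 1 := two_pow_gcd (N := q + 1) (by rw [pow_succ', ← R.pow, hβc]) (hpw B.bb hβ) (by omega)
      have hb2' : β' ^ 2 = 1 := by
        have : (ε * β * β') ^ 2 = 1 := by rw [hdet, one_pow]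
        rw [mul_pow, mul_pow, he2, hb2] at this
        linear_combination this
      exact Subtype.ext (mul_left_ext (B.basis R)
        (by rw [Subgroup.coe_mul, Units.val_mul, ← mulVec_mulVec, hε, mulVec_smul, hε, smul_smul, ← sq, he2]; simp)
        (by rw [Subgroup.coe_mul, Units.val_mul, ← mulVec_mulVec, hβ, mulVec_smul, hβ, smul_smul, ← sq, hb2]; simp)
        (by rw [Subgroup.coe_mul, Units.val_mul, ← mulVec_mulVec, hβ', mulVec_smul, hβ', smul_smul, ← sq, hb2']; simp))
    -- an element of order four of the torus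
    obtain ⟨i, hi⟩ : ∃ i, i = l ^ ((q - 1) / 4) := ⟨_, rfl⟩
    have hi2 : i * i = -1 := by
      have h4 : (i * i) * (i * i) = 1 := by
        rw [hi, ← pow_add, ← pow_add, show (q - 1) / 4 + (q - 1) / 4 + ((q - 1) / 4 + (q - 1) / 4) = q - 1 by omega, hl1]
      refine (mul_self_eq_one_iff.1 h4).resolve_left fun h => hlk ((q - 1) / 4 + (q - 1) / 4) (by omega) (by omega) ?_
      rw [pow_add, ← hi, h]
    have hif : σ i = i := by rw [hi, map_pow, hl]
    have hi0 : i ≠ 0 := fun h => by rw [h, zero_mul] at hi2; exact neg_ne_zero.2 one_ne_zero hi2.symm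
    obtain ⟨-, hH'⟩ := O.hEl_semi W hif hi0
    obtain ⟨hHe, hHf, hHu⟩ := W.hEl_apply R hif hi0
    have hsq : hEl R.herm e f₀ i * hEl R.herm e f₀ i = sref R.herm u := mul_left_ext (W.basis R)
      (by rw [Units.val_mul, ← mulVec_mulVec, hHe, mulVec_smul, hHe, smul_smul, ← mul_inv, hi2, R.sref_perp W.uu (W.eu R)]
          norm_num)
      (by rw [Units.val_mul, ← mulVec_mulVec, hHf, mulVec_smul, hHf, smul_smul, hi2, R.sref_perp W.uu (W.fu R)]; simp)
      (by rw [Units.val_mul, ← mulVec_mulVec, hHu, hHu, R.sref_self W.uu])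
    set hM : M := ⟨_, hH'⟩
    have hP : IsPGroup 2 (Subgroup.zpowers hM) := by
      have h4 : hM ^ 4 = 1 := Subtype.ext (by
        rw [SubmonoidClass.coe_pow, show 4 = 2 * 2 from rfl, pow_mul, sq (hM : GL (Fin 3) F)]
        show (hEl R.herm e f₀ i * hEl R.herm e f₀ i) ^ 2 = 1
        rw [hsq, sq, R.sref_sq W.uu])
      rintro ⟨_, n, rfl⟩
      refine ⟨2, Subtype.ext ?_⟩
      rw [SubmonoidClass.coe_pow]
      show (hM ^ n) ^ (2 ^ 2) = 1
      rw [← _root_.zpow_natCast, ← _root_.zpow_mul, mul_comm, _root_.zpow_mul, _root_.zpow_natCast,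
        show (2 : ℕ) ^ 2 = 4 by norm_num, h4, _root_.one_zpow]
    obtain ⟨Q, hQ⟩ := hP.exists_le_sylow
    obtain ⟨g, hg⟩ := MulAction.exists_smul_eq M Q S
    set x := g * hM * g⁻¹ with hx
    have hxS : x ∈ (S : Subgroup M) := by
      rw [← hg, Sylow.coe_subgroup_smul]
      exact ⟨_, hQ (Subgroup.mem_zpowers _), rfl⟩
    have hxx : ((x * x : M) : GL (Fin 3) F) = sref R.herm (g.1⬝u) := by
      rw [hx, show g * hM * g⁻¹ * (g * hM * g⁻¹) = g * (hM * hM) * g⁻¹ by group]
      show g.1 * (hEl R.herm e f₀ i * hEl R.herm e f₀ i) * g.1⁻¹ = _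
      rw [hsq, R.sref_conj W.uu (O.iso _ g.2)]
    have hgu : f (g.1⬝u) (g.1⬝u) ≠ 0 := by rw [O.iso _ g.2]; exact W.uu
    have hne : x * x ≠ 1 := fun h => by
      rw [h, OneMemClass.coe_one] at hxx
      obtain ⟨k, hk⟩ := R.sref_fix hgu (x := g.1⬝e) (by rw [← hxx, Units.val_one, one_mulVec])
      have h8 := congrArg (fun v => f v (g.1⬝f₀)) hk
      have hi : ∀ x y, f (g.1⬝x) (g.1⬝y) = f x y := O.iso _ g.2
      simp only [hf.smul_left, hi, W.ef, W.uf, mul_zero] at h8
      exact one_ne_zero h8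
    have hxxS := Subgroup.mul_mem _ hxS hxS
    obtain ⟨ε, hε⟩ := hScomm x hxS
    rcases O.minus_mono W B x.2 hε with ⟨β, hβ⟩ | ⟨β, hβ⟩
    · exact hne (hdiag x hxS β hβ)
    obtain ⟨-, α, α', hb'⟩ := O.perp_form W B x.2 hε B.b'p
    have h1 := O.iso _ x.2 b' b
    rw [hb', hβ, smul_right hf, hf.add_left, hf.smul_left, hf.smul_left, B.bb', B.beq, B.b'b R] at h1
    have hβ0 : σ β ≠ 0 := (map_ne_zero σ).2 fun h0 => B.bb (by
      have := O.iso _ x.2 b b
      rw [hβ, h0, zero_smul, zero_left hf] at this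
      exact this.symm)
    have hα' : α' = 0 := by simpa [hβ0, B.bb] using h1
    rw [hα', zero_smul, add_zero] at hb'
    set γ := β * α with hγ
    have hxb : ((x * x : M) : GL (Fin 3) F)⬝b = γ • b := by
      rw [Subgroup.coe_mul, Units.val_mul, ← mulVec_mulVec, hβ, mulVec_smul, hb', smul_smul]
    have hxb' : ((x * x : M) : GL (Fin 3) F)⬝b' = γ • b' := by
      rw [Subgroup.coe_mul, Units.val_mul, ← mulVec_mulVec, hb', mulVec_smul, hβ, smul_smul, mul_comm, hγ]
    have hxp : ((x * x : M) : GL (Fin 3) F)⬝p = (ε * ε) • p := by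
      rw [Subgroup.coe_mul, Units.val_mul, ← mulVec_mulVec, hε, mulVec_smul, hε, smul_smul]
    obtain ⟨γ', hγ', hdet, -, -, -⟩ := O.diag_form W B (x * x).2 hxp hxb
    have hγγ : γ' = γ := by
      rw [hxb'] at hγ'
      have h4 := congrArg (fun v => f v b') hγ'
      simp only [hf.smul_left] at h4
      exact (mul_right_cancel₀ (B.b'b'_ne R) h4).symm
    have h22 := hdiag (x * x) hxxS γ hxb
    have hγ2 : γ * γ = 1 := by
      have h5 := congrArg (fun y : M => f ((y : GL (Fin 3) F)⬝b) b) h22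
      simp only [Subgroup.coe_mul (H := M) (x * x) (x * x), Units.val_mul (((x * x : M)) : GL (Fin 3) F),
        ← mulVec_mulVec, hxb, mulVec_smul, OneMemClass.coe_one, Units.val_one, one_mulVec, hf.smul_left] at h5
      exact mul_right_cancel₀ B.bb (by linear_combination h5)
    have hεε : ε * ε = 1 := by rw [hγγ, mul_assoc, hγ2, mul_one] at hdet; exact hdet
    rcases mul_self_eq_one_iff.1 hγ2 with e1 | e1
    · exact hne (Subtype.ext (mul_left_ext (B.basis R) (by rw [hxp, hεε]; simp) (by rw [hxb, e1]; simp)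
        (by rw [hxb', e1]; simp)))
    · have heq : ((x * x : M) : GL (Fin 3) F) = sref R.herm p := mul_left_ext (B.basis R)
        (by rw [hxp, hεε, one_smul, R.sref_self B.pp])
        (by rw [hxb, e1, R.sref_perp B.pp B.bp, neg_one_smul])
        (by rw [hxb', e1, R.sref_perp B.pp B.b'p, neg_one_smul])
      rw [hxx] at heq
      obtain ⟨k, hk⟩ := R.sref_inj B.pp hgu heq.symm
      exact O.not_fused W B g.2 hk

theorem diag_cube {g : GL (Fin 3) F} (hg : g ∈ M) {ε β : F} (hp : g⬝p = ε • p) (hb : g⬝b = β • b) :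
    ε ^ 3 = 1 := by
  obtain ⟨β', hb', hd, -, hβ, h6⟩ := O.diag_form W B hg hp hb
  by_contra h3
  have hε3 : ε ^ 3 = -1 := by
    have : (ε ^ 3) * (ε ^ 3) = 1 := by linear_combination h6
    exact (mul_self_eq_one_iff.1 this).resolve_left h3
  have hβ0 : β ≠ 0 := fun h => by rw [h, zero_mul] at hβ; exact zero_ne_one hβ
  have hk : (β⁻¹ ^ 3) * σ (β⁻¹ ^ 3) = 1 := by
    rw [map_pow, map_inv₀, ← mul_pow, ← mul_inv, hβ, inv_one, one_pow]
  obtain ⟨c, hc, -, hcp, hcb, hcb'⟩ := O.exists_rot W B hk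
  have : g * g * g * c = sref R.herm b := by
    refine mul_left_ext (B.basis R) ?_ ?_ ?_ <;> simp only [Units.val_mul, ← mulVec_mulVec]
    · rw [hcp, hp, mulVec_smul, hp, smul_smul, mulVec_smul, hp, smul_smul, R.sref_perp B.bb (B.pb R),
        show ε * ε * ε = -1 by linear_combination hε3, neg_one_smul]
    · simp only [hcb, mulVec_smul, hb, smul_smul, R.sref_self B.bb]
      conv_rhs => rw [← one_smul F b]
      congr 1; field_simp
    · simp only [hcb', mulVec_smul, hb', smul_smul, R.sref_perp B.bb (B.b'b R), ← neg_one_smul F b']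
      congr 1
      have : (ε * β * β') ^ 3 = 1 := by rw [hd, one_pow]
      rw [inv_pow, inv_inv]
      linear_combination (-1 : F) * this + β ^ 3 * β' ^ 3 * hε3
  exact O.sref_b_not_mem W B (this ▸ M.mul_mem (M.mul_mem (M.mul_mem hg hg) hg) hc)

theorem minus_semi {g : GL (Fin 3) F} (hg : g ∈ M) {ε : F} (hp : g⬝p = ε • p) : Semi τ g := by
  have hf := R.herm
  have diag : ∀ {g : GL (Fin 3) F}, g ∈ M → ∀ {ε β : F}, g⬝p = ε • p → g⬝b = β • b → Semi τ g := by
    intro g hg ε β hp hb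
    have h3 := O.diag_cube W B hg hp hb
    obtain ⟨β', hb', hd, hε, hβ, -⟩ := O.diag_form W B hg hp hb
    have hσε : σ ε = ε * ε := by linear_combination (-σ ε) * h3 + ε ^ 2 * hε
    have hεβ : ε * β' = σ β := by linear_combination σ β * hd - ε * β' * hβ
    refine ⟨ε, fun x => ?_⟩
    obtain ⟨a, c, d, rfl⟩ := exists_span (B.basis R) x
    simp only [mulVec_add, mulVec_smul, hp, hb, hb', R.tadd, R.tsmul, B.tp, B.tb, B.tb' R, smul_add, smul_smul]
    have e1 : σ β' = ε * β := by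
      have := congrArg σ hεβ
      rw [map_mul, hf.involutive, hσε] at this
      linear_combination ε * this - σ β' * h3
    match_scalars <;> simp only [map_mul]
    · linear_combination σ a * hσε
    · linear_combination -σ c * hεβ
    · linear_combination σ d * e1
  rcases O.minus_mono W B hg hp with ⟨β, hb⟩ | ⟨β, hb⟩
  · exact diag hg hp hb
  · obtain ⟨r, hr, hrs, hr2, hrp, -, ρ, -, -, hrb', -⟩ := O.exists_r W B
    have := diag (M.mul_mem hr hg) (ε := -ε) (β := β * ρ⁻¹)
      (by rw [Units.val_mul, ← mulVec_mulVec, hp, mulVec_smul, hrp, smul_neg, neg_smul])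
      (by rw [Units.val_mul, ← mulVec_mulVec, hb, mulVec_smul, hrb', smul_smul])
    rw [show g = r * (r * g) by rw [← mul_assoc, hr2, one_mul]]
    exact R.semi_mul hrs this

/-- The only common axis of the rotations and the exchange is the point. -/
theorem common_axis {x : Fin 3 → F} (hx : f x x ≠ 0) {z : F} (hzk : ∀ k, 0 < k → k < q + 1 → z ^ k ≠ 1)
    {c r : GL (Fin 3) F} (hcp : c⬝p = p) (hcb : c⬝b = z • b) (hcb' : c⬝b' = z⁻¹ • b') {m : F}
    (hm : c⬝x = m • x) {ρ : F} (hρ : ρ ≠ 0) (hrp : r⬝p = -p) (hrb : r⬝b = ρ • b') (hrb' : r⬝b' = ρ⁻¹ • b)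
    {m' : F} (hm' : r⬝x = m' • x) : ∃ k : F, x = k • p := by
  have hf := R.herm
  have hq := R.big
  obtain ⟨γ, α, β, hv⟩ := exists_span (B.basis R) x
  rw [hv] at hm hm'
  simp only [mulVec_add, mulVec_smul, hcp, hcb, hcb', hrp, hrb, hrb', smul_add, smul_smul, smul_neg] at hm hm'
  have pr : ∀ (a a₁ a₂ : F), f (a • p + a₁ • b + a₂ • b') b = a₁ * f b b ∧
      f (a • p + a₁ • b + a₂ • b') b' = a₂ * f b b := fun a a₁ a₂ => by
    simp [hf.add_left, hf.smul_left, B.pb R, B.pb' R, B.b'b R, B.bb', B.beq]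
  have hn := B.bb
  have h1 := congrArg (fun v => f v b) hm
  have h2 := congrArg (fun v => f v b') hm
  simp only [pr] at h1 h2
  have h1' : α * z = m * α := mul_right_cancel₀ hn h1
  have h2' : β * z⁻¹ = m * β := mul_right_cancel₀ hn h2
  have r1 := congrArg (fun v => f v b) hm'
  simp [hf.add_left, hf.smul_left, ← neg_smul, B.pb R, B.b'b R, hn] at r1
  have r2 := congrArg (fun v => f v b') hm'
  simp [hf.add_left, hf.smul_left, ← neg_smul, B.pb' R, B.bb', B.beq, hn] at r2
  by_cases hα : α = 0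
  · subst hα
    have hβ : β = 0 := by simpa [hρ] using r1
    exact ⟨γ, by rw [hv, hβ]; simp⟩
  · exfalso
    have e1 : m = z := mul_left_cancel₀ hα (by linear_combination -h1')
    by_cases hβ : β = 0
    · subst hβ
      simp [hρ] at r2
      exact hα r2
    · have e2 : m = z⁻¹ := mul_left_cancel₀ hβ (by linear_combination -h2')
      refine hzk 2 (by norm_num) (by omega) ?_
      by_cases hz : z = 0
      · rw [e1, hz] at h2'
        exfalso
        have hcb0 : c⬝b = 0 := by rw [hcb, hz, zero_smul]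
        have := congrArg (fun v => c⁻¹⬝v) hcb0
        simp only [inv_mulVec_mulVec, mulVec_zero] at this
        exact hn (by rw [this, zero_left hf])
      · calc z ^ 2 = m * z := by rw [sq, e1]
          _ = 1 := by rw [e2, inv_mul_cancel₀ hz]

/-- For `q = 7` the stabiliser of `u` cannot have a Sylow 2-subgroup of order at least 16. -/
theorem seven_absurd (hq : q = 7) (h16 : 16 ∣ Nat.card (ptStab M u)) : False := by
  classical
  subst hq
  have hf := R.herm
  obtain ⟨-, z, -, -, -, hz, hz1, hzk⟩ := R.exists_gens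
  have hz0 : z ≠ 0 := fun h => by rw [h, zero_mul] at hz; exact zero_ne_one hz
  obtain ⟨c, hc, -, hcp, hcb, hcb'⟩ := O.exists_rot W B hz
  obtain ⟨r, hr, -, hr2, hrp, -, ρ, hρ, hrb, hrb', -⟩ := O.exists_r W B
  have d8 : ∀ {g : GL (Fin 3) F}, g ∈ M → ∀ {ε β : F}, g⬝p = ε • p → g⬝b = β • b →
      ε = 1 ∧ β ^ 8 = 1 ∧ ∃ β' : F, g⬝b' = β' • b' ∧ β * β' = 1 := by
    intro g hg ε β hp hb
    have h3 := O.diag_cube W B hg hp hb
    obtain ⟨β', hb', hd, hε, hβ, -⟩ := O.diag_form W B hg hp hb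
    rw [R.pow, ← pow_succ'] at hε hβ
    have h1 : ε = 1 := by
      calc ε = (ε ^ 3) ^ 3 * (ε ^ (7 + 1))⁻¹ := by
            rw [hε, inv_one, mul_one, ← pow_mul, show 3 * 3 = 7 + 1 + 1 from rfl, pow_succ, hε, one_mul]
        _ = 1 := by rw [h3, hε, one_pow, inv_one, mul_one]
    exact ⟨h1, hβ, β', hb', by rw [h1, one_mul] at hd; exact hd⟩
  set Γ := ptStab M p with hΓ
  let C : Finset F := (Polynomial.nthRoots 8 (1 : F)).toFinset
  have hC : C.card ≤ 8 := (Multiset.toFinset_card_le _).trans (Polynomial.card_nthRoots 8 1)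
  let T : Finset (Fin 3 → F) := (C ×ˢ ({b, b'} : Finset (Fin 3 → F))).image fun x => x.1 • x.2
  have hT : T.card ≤ 16 := Finset.card_image_le.trans (by
    rw [Finset.card_product]
    exact Nat.mul_le_mul hC Finset.card_le_two)
  have hswap : ∀ {g : GL (Fin 3) F}, g ∈ M → ∀ {ε β : F}, g⬝p = ε • p → g⬝b = β • b' →
      ∃ γ : F, (g * g)⬝b = γ • b := by
    intro g hg ε β hp hb
    obtain ⟨-, α, α', h'⟩ := O.perp_form W B hg hp B.b'p
    have h1 := O.iso g hg b' b
    rw [h', hb, smul_right hf, hf.add_left, hf.smul_left, hf.smul_left, B.bb', B.beq, B.b'b R] at h1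
    have hβ0 : σ β ≠ 0 := (map_ne_zero σ).2 fun h0 => B.bb (by
      have := O.iso g hg b b
      rw [hb, h0, zero_smul, zero_left hf] at this
      exact this.symm)
    have hα' : α' = 0 := by simpa [hβ0, B.bb] using h1
    exact ⟨β * α, by rw [Units.val_mul, ← mulVec_mulVec, hb, mulVec_smul, h', hα', zero_smul, add_zero, smul_smul]⟩
  have h16' : ∀ g ∈ Γ, g ^ 16 = 1 := by
    intro g hg
    obtain ⟨hgM, ε, hε⟩ := mem_ptStab.1 hg
    have h8 : ∀ {g : GL (Fin 3) F}, g ∈ M → ∀ {ε β : F}, g⬝p = ε • p → g⬝b = β • b → g ^ 8 = 1 := by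
      intro g hg ε β hp hb
      obtain ⟨h1, h2, β', h3, h4⟩ := d8 hg hp hb
      have hn : ∀ {v : Fin 3 → F} {k : F}, g⬝v = k • v → ∀ n : ℕ, (g ^ n)⬝v = k ^ n • v := fun {v k} hk n => by
        induction n with
        | zero => simp
        | succ n ih => rw [pow_succ, Units.val_mul, ← mulVec_mulVec, hk, mulVec_smul, ih, smul_smul, pow_succ']
      refine mul_left_ext (B.basis R) ?_ ?_ ?_
      · rw [hn hp, h1]; simp
      · rw [hn hb, h2]; simp
      · have : β' ^ 8 = 1 := by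
          have e : (β * β') ^ 8 = 1 := by rw [h4, one_pow]
          rwa [mul_pow, h2, one_mul] at e
        rw [hn h3, this]; simp
    rcases O.minus_mono W B hgM hε with ⟨β, hβ⟩ | ⟨β, hβ⟩
    · rw [show (16 : ℕ) = 8 * 2 from rfl, pow_mul, h8 hgM hε hβ, one_pow]
    · obtain ⟨γ, hγ⟩ := hswap hgM hε hβ
      rw [show (16 : ℕ) = 2 * 8 from rfl, pow_mul, sq]
      exact h8 (M.mul_mem hgM hgM) (ε := ε * ε)
        (by rw [Units.val_mul, ← mulVec_mulVec, hε, mulVec_smul, hε, smul_smul]) hγ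
  have hcard : Nat.card Γ ≤ 16 := by
    let φ : Γ → Fin 3 → F := fun g => (g : GL (Fin 3) F)⬝b
    have hφT : ∀ g : Γ, φ g ∈ T := by
      rintro ⟨g, hg⟩
      obtain ⟨hgM, ε, hε⟩ := mem_ptStab.1 hg
      have hmem : ∀ x : F, x * σ x = 1 → x ∈ C := fun x hx => by
        rw [R.pow, ← pow_succ'] at hx
        exact Multiset.mem_toFinset.2 ((Polynomial.mem_nthRoots (by norm_num)).2 hx)
      rcases O.minus_mono W B hgM hε with ⟨β, hβ⟩ | ⟨β, hβ⟩
      · refine Finset.mem_image.2 ⟨(β, b), Finset.mem_product.2 ⟨hmem β ?_, by simp⟩, hβ.symm⟩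
        have := O.iso g hgM b b
        rw [hβ, hf.smul_left, smul_right hf] at this
        exact mul_right_cancel₀ B.bb (by linear_combination this)
      · refine Finset.mem_image.2 ⟨(β, b'), Finset.mem_product.2 ⟨hmem β ?_, by simp⟩, hβ.symm⟩
        have := O.iso g hgM b b
        rw [hβ, hf.smul_left, smul_right hf, B.beq] at this
        exact mul_right_cancel₀ B.bb (by linear_combination this)
    have hinj : Function.Injective φ := by
      rintro ⟨g, hg⟩ ⟨h, hh⟩ e
      have e' : g⬝b = h⬝b := e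
      have hk := Γ.mul_mem (Γ.inv_mem hh) hg
      obtain ⟨hkM, ε, hε⟩ := mem_ptStab.1 hk
      obtain ⟨h1, -, β', h3, h4⟩ := d8 hkM hε (β := 1)
        (by rw [Units.val_mul, ← mulVec_mulVec, e', inv_mulVec_mulVec, one_smul])
      rw [one_mul] at h4
      have : h⁻¹ * g = 1 := mul_left_ext (B.basis R) (by rw [hε, h1]; simp)
        (by rw [Units.val_mul, ← mulVec_mulVec, e', inv_mulVec_mulVec]; simp) (by rw [h3, h4]; simp)
      exact Subtype.ext (inv_mul_eq_one.1 this).symm
    have := Nat.card_le_card_of_injective (fun g => (⟨φ g, hφT g⟩ : T)) fun a a' e =>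
      hinj (congrArg Subtype.val e)
    rw [Nat.card_eq_finsetCard] at this
    omega
  set ΓM : Subgroup M := Γ.subgroupOf M with hΓM
  have hP : IsPGroup 2 ΓM := fun g => ⟨4, Subtype.ext (Subtype.ext (by
    simpa using h16' _ g.2))⟩
  obtain ⟨P, hP'⟩ := hP.exists_le_sylow
  have hmax : (P : Subgroup M) ≤ ΓM := by
    by_contra hlt
    have hne : ΓM.subgroupOf P ≠ ⊤ := fun h => hlt (Subgroup.subgroupOf_eq_top.1 h)
    haveI := P.isPGroup'.isNilpotent
    obtain ⟨y, hyN, hy⟩ := SetLike.exists_of_lt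
      (Group.normalizerCondition_of_isNilpotent (ΓM.subgroupOf (P : Subgroup M)) (lt_top_iff_ne_top.2 hne))
    refine hy (Subgroup.mem_subgroupOf.2 (Subgroup.mem_subgroupOf.2 ?_))
    set g : GL (Fin 3) F := ((y : M) : GL (Fin 3) F) with hgdef
    have hgM : g ∈ M := (y : M).2
    have hmemΓ : ∀ x : GL (Fin 3) F, x ∈ Γ → g * x * g⁻¹ ∈ Γ ∧ g⁻¹ * x * g ∈ Γ := by
      intro x hx
      have hxM : (⟨x, hx.1⟩ : M) ∈ ΓM := Subgroup.mem_subgroupOf.2 hx
      have h1 := (Subgroup.mem_normalizer_iff.1 hyN ⟨_, hP' hxM⟩).1 (Subgroup.mem_subgroupOf.2 hxM)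
      have h2 := (Subgroup.mem_normalizer_iff.1 (Subgroup.inv_mem _ hyN) ⟨_, hP' hxM⟩).1 (Subgroup.mem_subgroupOf.2 hxM)
      exact ⟨Subgroup.mem_subgroupOf.1 (Subgroup.mem_subgroupOf.1 h1),
        by simpa using Subgroup.mem_subgroupOf.1 (Subgroup.mem_subgroupOf.1 h2)⟩
    have hsΓ : sref R.herm p ∈ Γ := mem_ptStab.2 ⟨O.sref_mem B.pp B.tp, 1, by rw [R.sref_self B.pp, one_smul]⟩
    obtain ⟨hwM, εw, hw⟩ := mem_ptStab.1 (hmemΓ _ hsΓ).1
    set w := g * sref R.herm p * g⁻¹ with hwdef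
    have hcomm : ∀ x ∈ Γ, w * x = x * w := by
      intro x hx
      obtain ⟨hxM, εx, hxp⟩ := mem_ptStab.1 (hmemΓ x hx).2
      have e1 := (R.sref_comm_iff B.pp (O.iso _ hxM)).2 ⟨εx, hxp⟩
      calc w * x = g * (sref R.herm p * (g⁻¹ * x * g)) * g⁻¹ := by rw [hwdef]; group
        _ = g * (g⁻¹ * x * g * sref R.herm p) * g⁻¹ := by rw [e1]
        _ = x * w := by rw [hwdef]; group
    have hcΓ : c ∈ Γ := mem_ptStab.2 ⟨hc, 1, by rw [hcp, one_smul]⟩
    have hrΓ : r ∈ Γ := mem_ptStab.2 ⟨hr, -1, by rw [hrp, neg_one_smul]⟩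
    have hw' : w = sref R.herm (g⬝p) := R.sref_conj B.pp (O.iso g hgM)
    have hgp : f (g⬝p) (g⬝p) ≠ 0 := by rw [O.iso g hgM]; exact B.pp
    obtain ⟨m, hm⟩ := (R.sref_comm_iff hgp (O.iso c hc)).1 (hw' ▸ hcomm c hcΓ).symm
    obtain ⟨m', hm'⟩ := (R.sref_comm_iff hgp (O.iso r hr)).1 (hw' ▸ hcomm r hrΓ).symm
    exact mem_ptStab.2 ⟨hgM, O.common_axis W B hgp hzk hcp hcb hcb' hm hρ hrp hrb hrb' hm'⟩
  -- conjugate a subgroup of order 16
  set U := ptStab M u with hU
  haveI : Fact (Nat.Prime 2) := ⟨Nat.prime_two⟩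
  obtain ⟨T₀, hT₀⟩ := Sylow.exists_subgroup_card_pow_prime 2 (n := 4) (G := U) (by simpa using h16)
  let ι : U →* M := Subgroup.inclusion inf_le_left
  have hTp : IsPGroup 2 (T₀.map ι) := (IsPGroup.of_card (n := 4) hT₀).map ι
  obtain ⟨Q, hQ⟩ := hTp.exists_le_sylow
  obtain ⟨g, hg⟩ := MulAction.exists_smul_eq M Q P
  let ψ : M →* GL (Fin 3) F := M.subtype.comp (MulAut.conj g).toMonoidHom
  have hψ : Function.Injective ψ := fun a a' e => (MulAut.conj g).injective (Subtype.ext e)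
  have hle : (T₀.map ι).map ψ ≤ Γ := by
    rintro _ ⟨x, hx, rfl⟩
    have : g * x * g⁻¹ ∈ ΓM := hmax (by
      rw [← hg, Sylow.coe_subgroup_smul]
      exact ⟨_, hQ hx, rfl⟩)
    exact Subgroup.mem_subgroupOf.1 this
  have heq : (T₀.map ι).map ψ = Γ := by
    refine Subgroup.eq_of_le_of_card_ge hle (le_trans hcard (le_of_eq ?_))
    rw [Subgroup.card_map_of_injective hψ,
      Subgroup.card_map_of_injective (f := ι) (Subgroup.inclusion_injective _), hT₀]
    rfl
  have hgu : f (g.1⬝u) (g.1⬝u) ≠ 0 := by rw [O.iso _ g.2]; exact W.uu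
  have hfix : ∀ x ∈ Γ, ∃ m : F, x⬝(g.1⬝u) = m • g.1⬝u := by
    intro x hx
    rw [← heq] at hx
    obtain ⟨_, ⟨t, -, rfl⟩, rfl⟩ := hx
    obtain ⟨-, m, hm⟩ := mem_ptStab.1 t.2
    refine ⟨m, ?_⟩
    show (g.1 * (t : GL (Fin 3) F) * g.1⁻¹)⬝(g.1⬝u) = _
    rw [Units.val_mul, Units.val_mul, ← mulVec_mulVec, ← mulVec_mulVec, inv_mulVec_mulVec, hm, mulVec_smul]
  obtain ⟨m, hm⟩ := hfix c (mem_ptStab.2 ⟨hc, 1, by rw [hcp, one_smul]⟩)
  obtain ⟨m', hm'⟩ := hfix r (mem_ptStab.2 ⟨hr, -1, by rw [hrp, neg_one_smul]⟩)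
  obtain ⟨k, hk⟩ := O.common_axis W B hgu hzk hcp hcb hcb' hm hρ hrp hrb hrb' hm'
  exact O.not_fused W B g.2 hk

end Minus

end Over

end CfsgLib.SUThree90.Orth
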