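import Mathlib
import Cfsg.Agent.SUThree90.OrthPoints
import Cfsg.Agent.UnitGeo.RatStructure

/-!
The orthogonal type subfield groups are maximal in `SU₃(q)`, `q` odd, `q ≥ 7`.
-/

set_option autoImplicit false
set_option linter.unusedSectionVars false

namespace CfsgLib.SUThree90.Orth

open Matrix CfsgLib.TransvGL CfsgLib.UnitCentres

variable {F : Type*} [Field F] [Fintype F] {q : ℕ} {σ : F ≃+* F}
  {f : (Fin 3 → F) → (Fin 3 → F) → F} {τ : (Fin 3 → F) → (Fin 3 → F)}

local notation:max g "⬝" x:max => Units.val g *ᵥ x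

namespace Over

variable {R : RatSys q σ f τ} {M : Subgroup (GL (Fin 3) F)} (O : Over R M)
include O

theorem exists_minus {e f₀ u : Fin 3 → F} (W : Frame σ f τ e f₀ u) : ∃ p b b', MFrame σ f τ p b b' := by
  have hf := R.herm
  obtain ⟨l, -, hl, hl1, hlk, -⟩ := R.exists_gens
  have hq := R.big
  have hl0 : l ≠ 0 := fun h => by rw [h, zero_pow (by omega)] at hl1; exact zero_ne_one hl1
  obtain ⟨c, hc⟩ : ∃ c, c = f u u * l / 2 := ⟨_, rfl⟩
  have hcf : σ c = c := by rw [hc, map_div₀, map_mul, hl, norm_fixed hf, map_ofNat]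
  have hc0 : c ≠ 0 := hc ▸ div_ne_zero (mul_ne_zero W.uu hl0) R.two
  have hp : τ (e + c • f₀) = e + c • f₀ := by rw [R.tadd, R.tsmul, W.te, W.tf, hcf]
  rcases R.frame_or_mframe hp (O.plus_aniso W hcf hc0) with ⟨x, y, W'⟩ | ⟨b, b', B⟩
  swap
  · exact ⟨_, b, b', B⟩
  exfalso
  obtain ⟨α, β, γ, hx⟩ := exists_span (W.basis R) x
  have e1 := R.rat_form W'.te W.tf
  have e2 := R.rat_form W'.te W.tu
  have hxp := orth_comm hf W'.ue
  have hxx := W'.ee
  rw [hx] at e1 e2 hxp hxx
  simp only [hf.add_left, add_right hf, hf.smul_left, smul_right hf, W.ee, W.ef, W.fe R, W.ff, W.ue, W.uf,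
    W.eu R, W.fu R, mul_zero, mul_one, add_zero, zero_add, map_mul, norm_fixed hf, hcf] at e1 e2 hxp hxx
  have hγ : σ γ = γ := mul_right_cancel₀ W.uu e2
  have hβ : β = -(c * α) := by linear_combination hxp
  rw [hγ, hβ, map_neg, map_mul, hcf, e1] at hxx
  have hα : α ≠ 0 := fun h => by
    subst h
    have : γ = 0 := by simpa [W.uu] using hxx
    exact W'.e_ne R (by rw [hx, hβ, this]; simp)
  have h2 := R.two
  have key : l = (γ / α) * (γ / α) := by
    have hn := W.uu
    field_simp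
    rw [hc] at hxx
    field_simp at hxx
    refine mul_left_cancel₀ (mul_ne_zero h2 hn) ?_
    linear_combination -hxx
  have hy : σ (γ / α) = γ / α := by rw [map_div₀, hγ, e1]
  have hy0 : γ / α ≠ 0 := fun h => hl0 (by rw [key, h, zero_mul])
  refine hlk ((q - 1) / 2) (by omega) (by omega) ?_
  have hodd := R.q_odd
  rw [R.pow] at hy
  rw [key, ← pow_two, ← pow_mul, show 2 * ((q - 1) / 2) = q - 1 by omega]
  refine mul_right_cancel₀ hy0 ?_
  rw [← pow_succ, show q - 1 + 1 = q by omega, hy, one_mul]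

theorem semi_of_fix {e f₀ u : Fin 3 → F} (W : Frame σ f τ e f₀ u) {x : Fin 3 → F} (hx : τ x = x)
    (hxx : f x x ≠ 0) {g : GL (Fin 3) F} (hg : g ∈ M) {k : F} (hk : g⬝x = k • x) : Semi τ g := by
  rcases R.frame_or_mframe hx hxx with ⟨e', f', W'⟩ | ⟨b, b', B⟩
  · rcases (O.plus_main W' hg hk).2 with h | ⟨h7, h16⟩
    · exact h
    · obtain ⟨p, b, b', B⟩ := O.exists_minus W'
      exact (O.seven_absurd W' B h7 h16).elim
  · exact O.minus_semi W B hg hk

/-- An element sending three pairwise non-orthogonal points to rational points is rational up to a scalar. -/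
theorem semi_of_points {e f₀ u : Fin 3 → F} (W : Frame σ f τ e f₀ u) {g : GL (Fin 3) F} (hg : g ∈ M)
    (h : ∀ x, x = u ∨ x = u + e ∨ x = u + f u u • f₀ → ∃ k : F, τ (g⬝x) = k • g⬝x) : Semi τ g := by
  have hf := R.herm
  obtain ⟨k, hk⟩ := h u (Or.inl rfl)
  have same : ∀ x, τ x = x → f u x ≠ 0 → ∀ k' : F, τ (g⬝x) = k' • g⬝x → k' = k := by
    intro x hx hux k' hk'
    have h1 := R.tform (g⬝u) (g⬝x)
    have h2 := R.tform (g⬝u) (g⬝u)
    rw [hk, hk', O.iso g hg, R.rat_form W.tu hx, hf.smul_left, smul_right hf, O.iso g hg] at h1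
    rw [hk, O.iso g hg, norm_fixed hf, hf.smul_left, smul_right hf, O.iso g hg] at h2
    have e1 : k * σ k' = 1 := mul_right_cancel₀ hux (by linear_combination h1)
    have e2 : k * σ k = 1 := mul_right_cancel₀ W.uu (by linear_combination h2)
    have hk0 : k ≠ 0 := fun h0 => by rw [h0, zero_mul] at e2; exact zero_ne_one e2
    exact σ.injective (mul_left_cancel₀ hk0 (e1.trans e2.symm))
  have hn : σ (f u u) = f u u := norm_fixed hf u
  obtain ⟨k₂, hk₂⟩ := h (u + e) (Or.inr (Or.inl rfl))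
  obtain ⟨k₃, hk₃⟩ := h (u + f u u • f₀) (Or.inr (Or.inr rfl))
  rw [same _ (by rw [R.tadd, W.tu, W.te])
    (by rw [add_right hf, W.ue, add_zero]; exact W.uu) k₂ hk₂] at hk₂
  rw [same _ (by rw [R.tadd, R.tsmul, W.tu, W.tf, hn])
    (by rw [add_right hf, smul_right hf, W.uf, mul_zero, add_zero]; exact W.uu) k₃ hk₃] at hk₃
  have he : τ (g⬝e) = k • g⬝e := by
    rw [mulVec_add, R.tadd, hk, smul_add] at hk₂
    exact add_left_cancel hk₂
  have hf0 : τ (g⬝f₀) = k • g⬝f₀ := by
    rw [mulVec_add, R.tadd, hk, smul_add, mulVec_smul, R.tsmul, hn, smul_comm] at hk₃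
    exact smul_right_injective _ W.uu (add_left_cancel hk₃)
  refine ⟨k, fun x => ?_⟩
  obtain ⟨α, β, γ, rfl⟩ := exists_span (W.basis R) x
  simp only [mulVec_add, mulVec_smul, R.tadd, R.tsmul, W.te, W.tf, W.tu, he, hf0, hk, smul_add, smul_smul]
  module

/-- Every element of the group is rational up to a scalar. -/
theorem semi_all {g : GL (Fin 3) F} (hg : g ∈ M) : Semi τ g := by
  by_contra hgs
  have hf := R.herm
  obtain ⟨e, f₀, u, W⟩ := R.exists_frame
  obtain ⟨p, b, b', B⟩ := O.exists_minus W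
  obtain ⟨v, e', f', W', hv⟩ : ∃ v e' f', Frame σ f τ e' f' v ∧ ∀ k : F, τ (g⬝v) ≠ k • g⬝v := by
    by_contra hcon
    push Not at hcon
    have hn : σ (f u u) = f u u := norm_fixed hf u
    refine hgs (O.semi_of_points W hg fun x hx => ?_)
    rcases hx with rfl | rfl | rfl
    · exact hcon _ e f₀ W
    · obtain ⟨f', W'⟩ := R.frame_of_orth W.te (W.e_ne R) W.ee (u := u + e)
        (by rw [R.tadd, W.tu, W.te])
        (by rw [hf.add_left, add_right hf, add_right hf, W.ue, W.eu R, W.ee]; simpa using W.uu)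
        (by rw [hf.add_left, W.ue, W.ee, add_zero])
      exact hcon _ e f' W'
    · obtain ⟨f', W'⟩ := R.frame_of_orth W.tf (fun h => one_ne_zero (by rw [← W.ef, h, zero_right hf]))
        W.ff (u := u + f u u • f₀)
        (by rw [R.tadd, R.tsmul, W.tu, W.tf, hn])
        (by rw [norm_add_smul hf, W.uf, W.fu R, W.ff]; simpa using W.uu)
        (by rw [hf.add_left, hf.smul_left, W.uf, W.ff, mul_zero, add_zero])
      exact hcon _ f₀ f' W'
  have hgv : f (g⬝v) (g⬝v) ≠ 0 := by rw [O.iso g hg]; exact W'.uu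
  set t := sref R.herm (g⬝v) with ht
  have hconj : g * sref R.herm v * g⁻¹ = t := R.sref_conj W'.uu (O.iso g hg)
  have htM : t ∈ M := hconj ▸ M.mul_mem (M.mul_mem hg (O.sref_mem W'.uu W'.tu)) (M.inv_mem hg)
  have htt : t * t = 1 := R.sref_sq hgv
  have htS : ¬ Semi τ t := by
    rintro ⟨κ, hκ⟩
    have hfix : t⬝(g⬝v) = g⬝v := R.sref_self hgv
    have hv0 : g⬝v ≠ 0 := fun h => hgv (by rw [h, zero_left hf])
    have hκ2 : κ * κ = 1 := by
      have h1 := hκ (t⬝(g⬝v))
      have key : ∀ y, t⬝(t⬝y) = y := fun y => by rw [mulVec_mulVec, ← Units.val_mul, htt, Units.val_one, one_mulVec]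
      rw [hκ (g⬝v), mulVec_smul, smul_smul, key, key] at h1
      have h2 : τ (g⬝v) ≠ 0 := fun h => hv0 (R.tinj (h.trans R.tzero.symm))
      have h3 : (κ * κ - 1) • τ (g⬝v) = 0 := by rw [sub_smul, one_smul, ← h1, sub_self]
      exact sub_eq_zero.1 ((smul_eq_zero.1 h3).resolve_right h2)
    rcases mul_self_eq_one_iff.1 hκ2 with hk | hk
    · obtain ⟨k, hk'⟩ := R.sref_fix hgv (x := τ (g⬝v)) (by
        have := hκ (g⬝v)
        rw [hfix, hk, one_smul] at this
        exact this.symm)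
      exact hv k hk'
    · have hperp : f (g⬝e') (g⬝v) = 0 := by rw [O.iso g hg]; exact W'.eu R
      obtain ⟨k, hk'⟩ := R.sref_fix hgv (x := τ (g⬝e')) (by
        have := hκ (g⬝e')
        rw [R.sref_perp hgv hperp, hk, R.tneg, neg_one_smul] at this
        exact (neg_inj.1 this).symm)
      have h0 : f (τ (g⬝e')) (τ (g⬝e')) = 0 := by rw [R.tform, O.iso g hg, W'.ee, map_zero]
      rw [hk', hf.smul_left, smul_right hf] at h0
      have hk0 : k = 0 := by simpa [hgv] using h0
      rw [hk0, zero_smul] at hk'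
      have h1 : g⬝e' = 0 := R.tinj (hk'.trans R.tzero.symm)
      have h2 := O.iso g hg e' f'
      rw [h1, zero_left hf, W'.ef] at h2
      exact zero_ne_one h2
  set a := sref R.herm p with ha
  have haM : a ∈ M := O.sref_mem B.pp B.tp
  have haa : a * a = 1 := R.sref_sq B.pp
  have hti : t⁻¹ = t := inv_eq_of_mul_eq_one_right htt
  have hai : a⁻¹ = a := inv_eq_of_mul_eq_one_right haa
  set w := a * t with hw
  have hsw : SemiconjBy t w w⁻¹ := by
    show t * w = w⁻¹ * t
    rw [hw, _root_.mul_inv_rev, hti, hai, ← mul_assoc]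
  have hswa : SemiconjBy a w w⁻¹ := by
    show a * w = w⁻¹ * a
    rw [hw, _root_.mul_inv_rev, hti, hai, ← mul_assoc, haa, one_mul, mul_assoc, haa, mul_one]
  have hwM : w ∈ M := M.mul_mem haM htM
  have hpos : 0 < orderOf w := orderOf_pos w
  rcases Nat.even_or_odd (orderOf w) with ⟨m, hm⟩ | ⟨m, hm⟩
  swap
  · have e1 : w ^ (m + 1) * t * (w ^ (m + 1))⁻¹ = a := by
      have h1 : t * (w⁻¹) ^ (m + 1) = w ^ (m + 1) * t := by
        have := (hsw.inv_right.pow_right (m + 1)).eq
        rwa [inv_inv] at this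
      rw [← inv_pow, mul_assoc, h1, ← mul_assoc, ← pow_add,
        show m + 1 + (m + 1) = orderOf w + 1 by omega, pow_add, pow_orderOf_eq_one, one_mul, pow_one, hw,
        mul_assoc, htt, mul_one]
    have hk := M.pow_mem hwM (m + 1)
    rw [ht, R.sref_conj hgv (O.iso _ hk)] at e1
    obtain ⟨k, hk'⟩ := R.sref_inj B.pp (by rw [O.iso _ hk]; exact hgv) e1.symm
    exact O.not_fused W' B (M.mul_mem hk hg) (k := k) (by rw [Units.val_mul, ← mulVec_mulVec, hk'])
  set c := w ^ m with hc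
  have hcM : c ∈ M := M.pow_mem hwM m
  have hcc : c * c = 1 := by rw [hc, ← pow_add, ← hm, pow_orderOf_eq_one]
  have hc1 : c ≠ 1 := fun h => by
    have := Nat.le_of_dvd (by omega) (orderOf_dvd_of_pow_eq_one (hc ▸ h))
    omega
  have hci : w⁻¹ ^ m = c := by rw [inv_pow, ← hc, inv_eq_of_mul_eq_one_right hcc]
  have hca : c * a = a * c := ((hswa.pow_right m).eq.trans (by rw [hci])).symm
  have hct : c * t = t * c := ((hsw.pow_right m).eq.trans (by rw [hci])).symm
  obtain ⟨ε, hε⟩ := (R.sref_comm_iff B.pp (O.iso c hcM)).1 hca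
  have hε2 : ε * ε = 1 := by
    have h5 := congrArg (fun y : GL (Fin 3) F => f (y⬝p) p) hcc
    simp only [Units.val_mul, ← mulVec_mulVec, hε, mulVec_smul, Units.val_one, one_mulVec, hf.smul_left] at h5
    exact mul_right_cancel₀ B.pp (by linear_combination h5)
  rcases O.minus_mono W B hcM hε with ⟨β, hβ⟩ | ⟨β, hβ⟩
  · have hε1 : ε = 1 := by
      have h3 := O.diag_cube W B hcM hε hβ
      linear_combination h3 - ε * hε2
    obtain ⟨β', hβ', hd, -, -, -⟩ := O.diag_form W B hcM hε hβ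
    have hβ2 : β * β = 1 := by
      have h5 := congrArg (fun y : GL (Fin 3) F => f (y⬝b) b) hcc
      simp only [Units.val_mul, ← mulVec_mulVec, hβ, mulVec_smul, Units.val_one, one_mulVec, hf.smul_left] at h5
      exact mul_right_cancel₀ B.bb (by linear_combination h5)
    have hββ : β' = β := by rw [hε1, one_mul] at hd; linear_combination β * hd - β' * hβ2
    rcases mul_self_eq_one_iff.1 hβ2 with e2 | e2
    · exact hc1 (mul_left_ext (B.basis R) (by rw [hε, hε1]; simp) (by rw [hβ, e2]; simp)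
        (by rw [hβ', hββ, e2]; simp))
    · have hca' : c = a := mul_left_ext (B.basis R) (by rw [hε, hε1, one_smul, ha, R.sref_self B.pp])
        (by rw [hβ, e2, ha, R.sref_perp B.pp B.bp, neg_one_smul])
        (by rw [hβ', hββ, e2, ha, R.sref_perp B.pp B.b'p, neg_one_smul])
      obtain ⟨k, hk⟩ := (R.sref_comm_iff B.pp (O.iso t htM)).1 (by rw [← ha, ← hca']; exact hct.symm)
      exact htS (O.minus_semi W B htM hk)
  have hβc : β * σ β = 1 := by
    have h1 := O.iso c hcM b b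
    rw [hβ, hf.smul_left, smul_right hf, B.beq] at h1
    exact mul_right_cancel₀ B.bb (by linear_combination h1)
  have hβ0 : β ≠ 0 := fun h => by rw [h, zero_mul] at hβc; exact zero_ne_one hβc
  have hβi : σ β = β⁻¹ := eq_inv_of_mul_eq_one_right hβc
  have hb' : c⬝b' = β⁻¹ • b := by
    have h5 := congrArg (fun y : GL (Fin 3) F => y⬝b) hcc
    simp only [Units.val_mul, ← mulVec_mulVec, hβ, mulVec_smul, Units.val_one, one_mulVec] at h5
    rw [← h5, smul_smul, inv_mul_cancel₀ hβ0, one_smul]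
  have hε1 : ε = -1 := by
    have hd := O.det c hcM
    rw [det_of_action (B.basis R) !![ε, 0, 0; 0, 0, β⁻¹; 0, β, 0] (by simpa using hε) (by simpa using hβ)
      (by simpa using hb'), det_fin_three] at hd
    simp [hβ0] at hd
    linear_combination -hd
  obtain ⟨x, hx⟩ : ∃ x, x = b + β • b' := ⟨_, rfl⟩
  have hxx : f x x = 2 * f b b := by
    rw [hx, norm_add_smul hf, B.bb', B.b'b R, B.beq, hβc]; ring
  have hxx0 : f x x ≠ 0 := hxx ▸ mul_ne_zero R.two B.bb
  have hτx : τ x = σ β • x := by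
    rw [hx, R.tadd, R.tsmul, B.tb, B.tb' R, smul_add, smul_smul, mul_comm, hβc, one_smul, add_comm]
  have hcx : c = sref R.herm x := by
    have h2 := R.two
    have hn := B.bb
    refine mul_left_ext (B.basis R) ?_ ?_ ?_
    · rw [hε, hε1, R.sref_perp hxx0, neg_one_smul]
      rw [hx, add_right hf, smul_right hf, B.pb R, B.pb' R]; ring
    · rw [hβ, R.sref_apply hxx0, hxx, hx, add_right hf, smul_right hf, B.bb', ← neg_one_smul F b]
      match_scalars <;> field_simp <;> ring
    · rw [hb', R.sref_apply hxx0, hxx, hx, add_right hf, smul_right hf, B.b'b R, B.beq, hβi, ← neg_one_smul F b']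
      match_scalars <;> field_simp <;> ring
  obtain ⟨s, hs0, hs⟩ := R.exists_rat_scalar (fun h => hxx0 (by rw [h, zero_left hf])) hτx
  have hsx : f (s • x) (s • x) ≠ 0 := by
    rw [hf.smul_left, smul_right hf]; exact mul_ne_zero hs0 (mul_ne_zero ((map_ne_zero σ).2 hs0) hxx0)
  obtain ⟨k, hk⟩ := (R.sref_comm_iff hxx0 (O.iso t htM)).1 (hcx ▸ hct.symm)
  exact htS (O.semi_of_fix W hs hsx htM (k := k) (by rw [mulVec_smul, hk, smul_comm]))

end Over

/-- A group containing the rational group and an irrational element has all centres. -/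
theorem centres_of_not_semi (R : RatSys q σ f τ) {M : Subgroup (GL (Fin 3) F)} (hiso : ∀ g ∈ M, Iso f g)
    (hdet : ∀ g ∈ M, g.val.det = 1)
    (hsemi : ∀ g : GL (Fin 3) F, Iso f g → g.val.det = 1 → Semi τ g → g ∈ M) {g : GL (Fin 3) F} (hg : g ∈ M)
    (hgs : ¬ Semi τ g) : ∀ v, f v v = 0 → Centre R.herm M v := by
  by_contra h
  exact hgs (Over.semi_all (R := R) ⟨hiso, hdet, hsemi, h⟩ hg)

end CfsgLib.SUThree90.Orth

namespace CfsgLib.SUThree90

open Matrix CfsgLib.TransvGL CfsgLib.UnitCentres CfsgLib.SUThree90.Orth CfsgLib.UnitGeo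

open Cfsg in
/-- The orthogonal type subfield groups are maximal. -/
theorem subfield_orth_maximal {F : Type*} [Field F] [Fintype F] (q : ℕ) (hF : Fintype.card F = q ^ 2) (hq : 3 ≤ q) :
    Odd q → 7 ≤ q → ∀ (F₀ : Subfield F) (P : Matrix.GeneralLinearGroup (Fin 3) F), Fintype.card F = Nat.card F₀ ^ 2 → Cfsg.Geo.IsFormRationalStructure (Cfsg.hermForm 3 F q) F₀ 1 P → Cfsg.Geo.IsMaximalIn (Cfsg.GU 3 F q ⊓ Cfsg.Geo.specialLinear (Fin 3) F) (Cfsg.Geo.subfieldSubgroup F₀ P ⊓ (Cfsg.GU 3 F q ⊓ Cfsg.Geo.specialLinear (Fin 3) F)) := by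
  intro hodd h7 F₀ P hcard hrat
  obtain ⟨σ, hσ, hf⟩ := CfsgLib.LinAlg.Witt.exists_isUnitaryForm_hermForm (n := 3) hF
  have hS : RStr q F₀ 1 P := ⟨fix_of_card hF hcard, hrat, one_ne_zero, Or.inl (one_pow q)⟩
  have h2 : (2 : F) ≠ 0 := by
    have hc : ringChar F ≠ 2 := fun h => by
      have := FiniteField.even_card_of_char_two h
      rw [hF, Nat.pow_mod, Nat.odd_iff.1 hodd] at this
      norm_num at this
    exact Ring.two_ne_zero hc
  have R : RatSys q σ (hermForm 3 F q) (sigma q P) :=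
    { card := hF
      pow := hσ
      herm := hf
      two := h2
      big := h7
      tadd := sigma_add hF
      tsmul := fun c x => by rw [sigma_smul hF, hσ]
      tinv := fun x => by
        rw [sigma, sigma]
        simp only [mulVec_inv_P, CfsgLib.Unitary.pow_q_q hF]
        exact mulVec_P_inv P x
      tform := fun x y => by
        have := herm_sigma hF hS x y
        rw [one_mul, one_mul] at this
        rw [hσ, this] }
  have to_sub : ∀ g : GL (Fin 3) F, Semi (sigma q P) g → g ∈ Cfsg.Geo.subfieldSubgroup F₀ P := by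
    rintro g ⟨κ, hκ⟩
    refine mem_subfield_of_lines fun v hv => ?_
    by_cases hgv : (g : Matrix (Fin 3) (Fin 3) F) *ᵥ v = 0
    · exact ⟨0, 0, inW_zero, by rw [hgv, smul_zero]⟩
    obtain ⟨s, hs0, hs⟩ := R.exists_rat_scalar hgv (k := κ) (by rw [hκ, hv.sigma_eq hF hS])
    exact ⟨s⁻¹, _, (inW_iff_sigma hF hS).2 hs, by rw [inv_smul_smul₀ hs0]⟩
  have of_sub : ∀ g : GL (Fin 3) F, g ∈ Cfsg.Geo.subfieldSubgroup F₀ P → Semi (sigma q P) g := by
    intro g hg
    obtain ⟨s, hs0, hs⟩ := scalar_of_mem_subfield hg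
    have hrat' : ∀ v, InW F₀ P v → sigma q P ((g : Matrix (Fin 3) (Fin 3) F) *ᵥ v) =
        (σ s / s) • (g : Matrix (Fin 3) (Fin 3) F) *ᵥ v := fun v hv => by
      obtain ⟨w, hw, e⟩ := hs v hv
      rw [e, R.tsmul, hw.sigma_eq hF hS, smul_smul, div_mul_cancel₀ _ hs0]
    refine ⟨σ s / s, fun x => ?_⟩
    obtain ⟨δ, hδ⟩ := exists_delta hF hS
    obtain ⟨a, b, ha, hb, rfl, hsx⟩ := exists_decomp hF hS hδ x
    rw [hsx, mulVec_add, mulVec_smul, R.tadd, R.tsmul, hrat' a ha, hrat' b hb, mulVec_add, mulVec_smul,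
      smul_add, smul_comm]
    simp only [hσ]
  refine ⟨lt_of_le_not_ge inf_le_right fun hle => ?_, fun M hHM hMK => ?_⟩
  · obtain ⟨e, f₀, u, W⟩ := R.exists_frame
    obtain ⟨c, hc0, hc⟩ := exists_traceZero hf
    obtain ⟨κ, hκ⟩ := of_sub _ (hle (mem_special.2 ⟨uT_iso hf W.ee hc, uT_mem_specialLinear hf W.ee c⟩)).1
    have h1 := hκ e
    have h2' := hκ f₀
    rw [W.te, uT_mulVec, W.ee, mul_zero, zero_smul, add_zero, W.te] at h1
    rw [W.tf, uT_mulVec, W.fe R, mul_one, R.tadd, R.tsmul, W.tf, W.te] at h2'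
    have e1 := congrArg (fun z => hermForm 3 F q z f₀) h1
    simp only [hf.smul_left, W.ef, mul_one] at e1
    rw [← e1, one_smul] at h2'
    have e2 := congrArg (fun z => hermForm 3 F q z f₀) h2'
    simp only [hf.add_left, hf.smul_left, W.ef, W.ff, mul_one, zero_add] at e2
    rcases mul_eq_zero.1 (show (2 : F) * c = 0 by linear_combination hc - e2) with h | h
    exacts [h2 h, hc0 h]
  · by_cases hall : ∀ g ∈ M, Semi (sigma q P) g
    · exact Or.inl (le_antisymm (fun g hg => ⟨to_sub g (hall g hg), hMK hg⟩) hHM)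
    · push Not at hall
      obtain ⟨g, hg, hgs⟩ := hall
      refine Or.inr (le_antisymm hMK (gu_le_of_centres_three hF hq hσ hf ?_))
      exact centres_of_not_semi R (fun h hh => (mem_special.1 (hMK hh)).1)
        (fun h hh => congrArg Units.val (mem_special.1 (hMK hh)).2)
        (fun h hi hd hs => hHM ⟨to_sub h hs, mem_special.2 ⟨hi, Units.ext hd⟩⟩) hg hgs

end CfsgLib.SUThree90
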