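import Cfsg.Agent.MinIndexPSU3.Main

/-!
An orbit count, and the exclusion of subgroups of order `96 · 171` of `SU₃(8)`.
-/

set_option autoImplicit false

namespace CfsgLib.SUThree90

open MulAction

/-- One fixed point and all other stabilisers of the same order. -/
theorem exists_card_eq_one_add {G X : Type*} [Group G] [Finite G] [MulAction G X] [Finite X] (x₀ : X)
    (h0 : ∀ g : G, g • x₀ = x₀) {z c : ℕ} (hz : z * c = Nat.card G)
    (hstab : ∀ x : X, x ≠ x₀ → Nat.card (stabilizer G x) = z) : ∃ j, Nat.card X = 1 + j * c := by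
  classical
  haveI := Fintype.ofFinite X
  set S : Finset X := Finset.univ.erase x₀ with hS
  set f : X → Quotient (orbitRel G X) := fun x => Quotient.mk (orbitRel G X) x with hf
  have hfib : ∀ t ∈ S.image f, (S.filter fun x => f x = t).card = c := by
    intro t ht
    obtain ⟨y, hy, rfl⟩ := Finset.mem_image.1 ht
    have hy0 : y ≠ x₀ := (Finset.mem_erase.1 hy).1
    have horb : ((S.filter fun x => f x = f y) : Set X) = orbit G y := by
      ext x
      rw [Finset.mem_coe, Finset.mem_filter]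
      constructor
      · rintro ⟨-, hx⟩
        exact orbitRel_apply.1 (Quotient.exact hx)
      · intro hx
        refine ⟨Finset.mem_erase.2 ⟨?_, Finset.mem_univ _⟩, Quotient.sound (orbitRel_apply.2 hx)⟩
        rintro rfl
        obtain ⟨g, hg⟩ := hx
        exact hy0 ((MulAction.injective g) (hg.trans (h0 g).symm))
    have h1 := (stabilizer G y).card_mul_index
    rw [index_stabilizer, hstab y hy0, ← hz, ← horb, Set.ncard_coe_finset] at h1
    have hzpos : 0 < z := hstab y hy0 ▸ Nat.card_pos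
    exact Nat.eq_of_mul_eq_mul_left hzpos h1
  have hsum := Finset.card_eq_sum_card_image f S
  rw [Finset.sum_congr rfl hfib, Finset.sum_const, smul_eq_mul] at hsum
  refine ⟨(S.image f).card, ?_⟩
  rw [← hsum, hS, Finset.card_erase_of_mem (Finset.mem_univ x₀), Finset.card_univ, Nat.card_eq_fintype_card]
  have : 0 < Fintype.card X := Fintype.card_pos_iff.2 ⟨x₀⟩
  omega

open Cfsg CfsgLib.Unitary CfsgLib.MinIndexPSU3 in
/-- The Sylow `2`-subgroup would be semiregular on an orbit of length `171` at most. -/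
theorem su_three_eight_false {F : Type*} [Field F] [Fintype F] {q : ℕ} (hq : q = 8)
    (hF : Fintype.card F = q ^ 2) (H : Subgroup ↥(SU 3 F q))
    (hZ : Subgroup.center ↥(SU 3 F q) ≤ H) (hH : Nat.card H = 96 * 171) : False := by
  subst hq
  haveI hp : Fact (Nat.Prime 2) := ⟨Nat.prime_two⟩
  obtain ⟨p, e, hpp, hch, he, hqe⟩ := exists_char hF
  obtain rfl : p = 2 :=
    (Nat.prime_dvd_prime_iff_eq hpp Nat.prime_two).1
      (hpp.dvd_of_dvd_pow (show p ∣ 2 ^ 3 from (show (2 : ℕ) ^ 3 = p ^ e from hqe) ▸ dvd_pow_self p he.ne'))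
  obtain ⟨P⟩ : Nonempty (Sylow 2 ↥H) := inferInstance
  have hP : Nat.card P = 32 := by
    rw [P.card_eq_multiplicity, hH]
    have : (96 * 171 : ℕ).factorization 2 = 5 := by
      rw [Nat.factorization_def _ Nat.prime_two]
      rw [show (96 * 171 : ℕ) = 2 ^ 5 * 513 by norm_num, padicValNat.mul (by norm_num) (by norm_num),
        padicValNat.prime_pow, padicValNat.eq_zero_of_not_dvd (by norm_num : ¬ 2 ∣ 513)]
    rw [this]; rfl
  letI : MulAction ↥(P : Subgroup ↥H) (Pt 8 F) := MulAction.compHom _ (H.subtype.comp (P : Subgroup ↥H).subtype)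
  obtain ⟨L, hL⟩ := P.isPGroup'.nonempty_fixed_point_of_prime_not_dvd_card (Pt 8 F)
    (by rw [card_Pt hF]; norm_num)
  have hPL : ∀ g : ↥(P : Subgroup ↥H), ((g : ↥H) : ↥(SU 3 F 8)) • L = L := hL
  -- the stabiliser
  obtain ⟨x, hx0, hxx, hxL⟩ := exists_eq_pt L
  set S := stabilizer ↥H L with hS
  have hPS : (P : Subgroup ↥H) ≤ S := fun g hg => hPL ⟨g, hg⟩
  have h32 : 32 ∣ Nat.card S := hP ▸ Subgroup.card_dvd_of_le hPS
  have h3 : 3 ∣ Nat.card S := by
    obtain ⟨g, hg⟩ := exists_prime_orderOf_dvd_card' (G := ↥(Subgroup.center ↥(SU 3 F 8))) 3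
      (by rw [card_center_SU hF (by norm_num)]; norm_num)
    have hgH : (g : ↥(SU 3 F 8)) ∈ H := hZ g.2
    have hgS : (⟨(g : ↥(SU 3 F 8)), hgH⟩ : ↥H) ∈ S := by
      show (g : ↥(SU 3 F 8)) • L = L
      obtain ⟨c, hc⟩ := (mem_center_SU_iff hF (by norm_num) (g : ↥(SU 3 F 8))).1 g.2
      rw [hxL, smul_pt_eq_iff]
      exact ⟨c, by simp [sv, hc]⟩
    have := Subgroup.orderOf_dvd_natCard S hgS
    rwa [← Subgroup.orderOf_coe, Subgroup.coe_mk, Subgroup.orderOf_coe, hg] at this
  have h19 : ¬ 19 ∣ Nat.card S := by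
    rw [hS, hxL, ← card_lineStab_eq_stabilizer hx0 hxx, card_lineStab hx0]
    intro h
    rcases (Nat.Prime.dvd_mul (by norm_num)).1 h with h' | h'
    · obtain ⟨k, hk⟩ := (isPGroup_fixV hF 2 hx0 hxx (H := H)).exists_card_eq
      rw [hk] at h'
      exact absurd (Nat.Prime.dvd_of_dvd_pow (by norm_num) h') (by norm_num)
    · have := h'.trans (eigCard_dvd hF hx0 (H := H))
      norm_num at this
  -- the orbit
  have hO := card_orbit_mul (H := H) L
  rw [hH, ← hS] at hO
  have h96 : 96 ∣ Nat.card S := Nat.Coprime.mul_dvd_of_dvd_of_dvd (by norm_num : Nat.Coprime 32 3) h32 h3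
  obtain ⟨s, hs⟩ := h96
  rw [hs] at hO h19
  have hOs : Nat.card (orbit ↥H L) * s = 171 := by
    apply Nat.eq_of_mul_eq_mul_left (show 0 < 96 by norm_num)
    rw [← hO]; ring
  letI : MulAction ↥(P : Subgroup ↥H) ↥(orbit ↥H L) := MulAction.compHom _ (P : Subgroup ↥H).subtype
  obtain ⟨j, hj⟩ := exists_card_eq_one_add (G := ↥(P : Subgroup ↥H)) (⟨L, mem_orbit_self L⟩ : ↥(orbit ↥H L))
    (fun g => Subtype.ext (hPL g)) (z := 1) (c := 32) (by rw [one_mul]; exact hP.symm) (by
      rintro ⟨M, hM⟩ hML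
      rw [Subgroup.card_eq_one]
      rw [Subgroup.eq_bot_iff_forall]
      intro g hg
      by_contra hg1
      refine hML (Subtype.ext ?_)
      obtain ⟨k, hk⟩ := P.isPGroup' g
      exact fixed_unique hF 2 (g := ((g : ↥H) : ↥(SU 3 F 8))) (j := k)
        (congrArg (fun y : ↥(P : Subgroup ↥H) => ((y : ↥H) : ↥(SU 3 F 8))) hk)
        (fun h => hg1 (Subtype.ext (Subtype.ext h))) (congrArg Subtype.val hg) (hPL g))
  rw [hj] at hOs
  have hjb : j ≤ 5 := by
    rcases Nat.eq_zero_or_pos s with h | h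
    · rw [h] at hOs; norm_num at hOs
    · have := Nat.le_mul_of_pos_right (1 + j * 32) h
      omega
  interval_cases j <;> omega

end CfsgLib.SUThree90
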