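import Cfsg.Agent.C3Max.Basic
import Cfsg.Agent.FieldExtMax.MatrixForm
import Cfsg.Agent.LinAlg.Witt.Bases
import Cfsg.Agent.Classical.UnitCentresStd
import Cfsg.Agent.MinIndexPSU3.Main

/-!
An adjoint closed field of degree three inside the matrices of a three dimensional unitary space: the
adjoint is `x ↦ x^(q³)`, so the isometries of determinant one in the field are the `x` with
`x^(q² - q + 1) = 1`.
-/

set_option autoImplicit false
set_option linter.unusedSectionVars false
set_option linter.style.haveILetI false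

namespace CfsgLib.SUThree90

open Module Matrix CfsgLib.C3Max CfsgLib.FieldExtMax

variable {F : Type*} [Field F] [Fintype F] {q : ℕ} {K : Subalgebra F (Matrix (Fin 3) (Fin 3) F)}

/-- The special unitary group inside the general linear group. -/
abbrev suGL (F : Type*) [Field F] (q : ℕ) : Subgroup (GL (Fin 3) F) :=
  Cfsg.GU 3 F q ⊓ Cfsg.Geo.specialLinear (Fin 3) F

lemma mem_suGL {g : GL (Fin 3) F} : g ∈ suGL F q ↔
    (∀ u v, Cfsg.hermForm 3 F q ((g : Matrix (Fin 3) (Fin 3) F) *ᵥ u) ((g : Matrix (Fin 3) (Fin 3) F) *ᵥ v) =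
      Cfsg.hermForm 3 F q u v) ∧ (g : Matrix (Fin 3) (Fin 3) F).det = 1 := by
  refine and_congr Iff.rfl ⟨fun h => congrArg Units.val h, fun h => Units.ext h⟩

variable (hF : Fintype.card F = q ^ 2) (hK : Cfsg.Geo.IsFieldSubalgebra 3 K)
  (hac : Cfsg.Geo.IsAdjointClosedFor (Cfsg.hermForm 3 F q) K)

include hK

lemma exists_cyclic : ∃ v : Fin 3 → F, ∀ y : Fin 3 → F, ∃ k ∈ K, k *ᵥ v = y := by
  letI : Field K := fieldOf hK
  letI : Module K (Fin 3 → F) := moduleOf K
  haveI : IsScalarTower F K (Fin 3 → F) := ⟨fun c k y => smul_mulVec c (k : Matrix (Fin 3) (Fin 3) F) y⟩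
  haveI : FiniteDimensional F K := Module.Finite.of_finite
  obtain ⟨v, hv⟩ := exists_ne (0 : Fin 3 → F)
  let e : K →ₗ[F] (Fin 3 → F) := (LinearMap.toSpanSingleton K (Fin 3 → F) v).restrictScalars F
  have hinj : Function.Injective e := fun a b h => smul_left_injective K hv h
  have hsurj := (LinearMap.injective_iff_surjective_of_finrank_eq_finrank
    (by rw [hK.finrank_eq, Module.finrank_fin_fun])).1 hinj
  exact ⟨v, fun y => let ⟨k, hk⟩ := hsurj y; ⟨k, k.2, hk⟩⟩

/-- The field is its own centraliser. -/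
lemma mem_of_commute {T : Matrix (Fin 3) (Fin 3) F} (hT : ∀ k ∈ K, T * k = k * T) : T ∈ K := by
  obtain ⟨v, hv⟩ := exists_cyclic hK
  obtain ⟨t, ht, htv⟩ := hv (T *ᵥ v)
  suffices T = t by rw [this]; exact ht
  refine Matrix.ext_of_mulVec_single fun i => ?_
  obtain ⟨l, hl, hlv⟩ := hv (Pi.single i 1)
  rw [← hlv, mulVec_mulVec, hT l hl, ← mulVec_mulVec, ← htv, mulVec_mulVec, hK.comm l hl t ht,
    ← mulVec_mulVec]

include hF hac in
/-- The elements of the field that are isometries of determinant one. -/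
lemma mem_suGL_iff {g : GL (Fin 3) F} (hg : (g : Matrix (Fin 3) (Fin 3) F) ∈ K) :
    g ∈ suGL F q ↔ (g : Matrix (Fin 3) (Fin 3) F) ^ (q ^ 2 - q + 1) = 1 := by
  classical
  obtain ⟨σ, hσ, hf⟩ := CfsgLib.LinAlg.Witt.exists_isUnitaryForm_hermForm (n := 3) hF
  obtain ⟨p, e, hp, hch, he, hqe⟩ := CfsgLib.Unitary.exists_char hF
  haveI : Fact p.Prime := ⟨hp⟩
  set f := Cfsg.hermForm 3 F q with hfdef
  letI : Field K := fieldOf hK
  letI : Module K (Fin 3 → F) := moduleOf K
  haveI : IsScalarTower F K (Fin 3 → F) := ⟨fun c k y => smul_mulVec c (k : Matrix (Fin 3) (Fin 3) F) y⟩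
  haveI : Finite K := inferInstance
  haveI : FiniteDimensional F K := Module.Finite.of_finite
  haveI : IsGalois F K := GaloisField.instIsGaloisOfFinite
  haveI : CharP K p := charP_of_injective_algebraMap (algebraMap F K).injective p
  haveI : ExpChar K p := ExpChar.prime hp
  have hFq : ∀ c : F, (c ^ q) ^ q = c := fun c => by rw [← pow_mul, ← sq, ← hF, FiniteField.pow_card]
  have hcardK : Nat.card K = q ^ 6 := by
    rw [Module.natCard_eq_pow_finrank (K := F), hK.finrank_eq, Nat.card_eq_fintype_card, hF, ← pow_mul]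
  -- the adjoint
  choose adj hadjK hadj using fun k : K => hac k k.2
  let a : K → K := fun k => ⟨adj k, hadjK k⟩
  have ha : ∀ (k : K) u v, f (k • u) v = f u (a k • v) := hadj
  have huniq : ∀ k k' : K, (∀ u v : Fin 3 → F, f u (k • v) = f u (k' • v)) → k = k' := by
    intro k k' h
    refine Subtype.ext (Matrix.ext_of_mulVec_single fun i => ?_)
    by_contra hne
    obtain ⟨x, hx⟩ := (hf.nondegenerate _ (sub_ne_zero.2 hne)).1
    refine hx ?_
    rw [CfsgLib.UnitCentres.sub_right hf]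
    have := h x (Pi.single i 1)
    change f x ((k : Matrix (Fin 3) (Fin 3) F) *ᵥ Pi.single i 1) =
      f x ((k' : Matrix (Fin 3) (Fin 3) F) *ᵥ Pi.single i 1) at this
    rw [this, sub_self]
  have a_add : ∀ k l, a (k + l) = a k + a l := fun k l => huniq _ _ fun u v => by
    rw [← ha, add_smul, hf.add_left, ha, ha, ← CfsgLib.UnitCentres.add_right hf, ← add_smul]
  have a_mul : ∀ k l, a (k * l) = a k * a l := fun k l => huniq _ _ fun u v => by
    rw [← ha, mul_comm k l, mul_smul, ha, ha, ← mul_smul, mul_comm]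
  have a_inv : ∀ k, a (a k) = k := fun k => huniq _ _ fun u v => by
    rw [← ha, hf.herm, ← ha, ← hf.herm]
  have a_base : ∀ c : F, a (algebraMap F K c) = algebraMap F K (σ c) := fun c => huniq _ _ fun u v => by
    rw [← ha, algebraMap_smul, algebraMap_smul, hf.smul_left, CfsgLib.UnitCentres.smul_right hf,
      hf.involutive]
  let τ : K ≃+* K :=
    { toFun := a, invFun := a, left_inv := a_inv, right_inv := a_inv, map_mul' := a_mul, map_add' := a_add }
  have hq3 : q ^ 3 = p ^ (e * 3) := by rw [hqe, ← pow_mul]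
  let φ : K →ₐ[F] K :=
    { (τ.toRingHom.comp (iterateFrobenius K p (e * 3))) with
      commutes' := fun c => by
        show τ (iterateFrobenius K p (e * 3) (algebraMap F K c)) = _
        rw [iterateFrobenius_def, ← hq3, ← map_pow]
        show a _ = _
        rw [a_base, hσ, pow_succ q 2, pow_mul, sq, pow_mul, hFq, hFq] }
  have hφ : ∀ x, φ x = a (x ^ q ^ 3) := fun x => by
    show τ (iterateFrobenius K p (e * 3) x) = _
    rw [iterateFrobenius_def, ← hq3]; rfl
  let ψ : K ≃ₐ[F] K := AlgEquiv.ofBijective φ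
    (Finite.injective_iff_bijective.1 φ.toRingHom.injective)
  have hψ2 : ψ * ψ = 1 := AlgEquiv.ext fun x => by
    show φ (φ x) = x
    rw [hφ, hφ, show a (a (x ^ q ^ 3) ^ q ^ 3) = a (a ((x ^ q ^ 3) ^ q ^ 3)) from
      congrArg a (map_pow τ.toRingHom (x ^ q ^ 3) (q ^ 3)).symm, a_inv, ← pow_mul, ← pow_add,
      show q ^ (3 + 3) = Fintype.card K by rw [← Nat.card_eq_fintype_card, hcardK], FiniteField.pow_card]
  have hψ3 : ψ ^ 3 = 1 := by
    have h := pow_card_eq_one' (x := ψ)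
    rwa [IsGalois.card_aut_eq_finrank, hK.finrank_eq] at h
  have hψ : ψ = 1 := by rwa [pow_succ, pow_two, hψ2, one_mul] at hψ3
  have hak : ∀ x, a x = x ^ q ^ 3 := fun x => by
    have h := AlgEquiv.congr_fun hψ x
    change φ x = x at h
    rw [hφ] at h
    have := congrArg a h
    rw [a_inv] at this
    exact this.symm
  -- the element
  set x : K := ⟨(g : Matrix (Fin 3) (Fin 3) F), hg⟩ with hxdef
  have hiso : (∀ u v, f ((g : Matrix (Fin 3) (Fin 3) F) *ᵥ u) ((g : Matrix (Fin 3) (Fin 3) F) *ᵥ v) = f u v) ↔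
      x ^ (q ^ 3 + 1) = 1 := by
    have h0 : ∀ u v, f (x • u) (x • v) = f u ((x ^ (q ^ 3 + 1)) • v) := fun u v => by
      rw [ha, hak, ← mul_smul, ← pow_succ]
    constructor
    · intro h
      refine huniq _ _ fun u v => ?_
      rw [← h0, one_smul]
      exact h u v
    · intro h u v
      have := h0 u v
      rw [h, one_smul] at this
      exact this
  have hdet : (g : Matrix (Fin 3) (Fin 3) F).det = 1 ↔ x ^ (q ^ 4 + q ^ 2 + 1) = 1 := by
    obtain ⟨v, hv⟩ := exists_cyclic hK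
    have hv0 : v ≠ 0 := by
      rintro rfl
      obtain ⟨k, -, hk⟩ := hv (Pi.single 0 1)
      rw [mulVec_zero] at hk
      simpa using congrFun hk 0
    let e' : K ≃ₗ[F] (Fin 3 → F) := LinearEquiv.ofBijective
      ((LinearMap.toSpanSingleton K (Fin 3 → F) v).restrictScalars F)
      ⟨fun a b h => smul_left_injective K hv0 h, fun y => let ⟨k, hk, h⟩ := hv y; ⟨⟨k, hk⟩, h⟩⟩
    have hlin : Matrix.toLin' (g : Matrix (Fin 3) (Fin 3) F) =
        (e' : K →ₗ[F] (Fin 3 → F)) ∘ₗ Algebra.lmul F K x ∘ₗ (e'.symm : (Fin 3 → F) →ₗ[F] K) := by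
      refine LinearMap.ext fun y => ?_
      obtain ⟨k, rfl⟩ := e'.surjective y
      simp only [LinearMap.comp_apply, LinearEquiv.coe_coe, LinearEquiv.symm_apply_apply,
        Matrix.toLin'_apply]
      exact (mul_smul x k v).symm
    have hn : (g : Matrix (Fin 3) (Fin 3) F).det = Algebra.norm F x := by
      rw [← LinearMap.det_toLin', hlin, LinearMap.det_conj, Algebra.norm_apply]
    have hnp : algebraMap F K (Algebra.norm F x) = x ^ (q ^ 4 + q ^ 2 + 1) := by
      rw [FiniteField.algebraMap_norm_eq_pow, hcardK, Nat.card_eq_fintype_card, hF]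
      congr 1
      have h4 : 4 ≤ q ^ 2 := by
        have : 2 ≤ q := CfsgLib.Unitary.two_le_q hF
        calc 4 = 2 ^ 2 := rfl
          _ ≤ q ^ 2 := Nat.pow_le_pow_left this 2
      refine Nat.div_eq_of_eq_mul_left (by omega) ?_
      obtain ⟨t, ht⟩ : ∃ t, t = q ^ 2 := ⟨_, rfl⟩
      rw [show q ^ 6 = t ^ 3 by rw [ht, ← pow_mul], show q ^ 4 = t ^ 2 by rw [ht, ← pow_mul], ← ht]
      have ht1 : 1 ≤ t := by omega
      clear ht h4
      obtain ⟨s, rfl⟩ : ∃ s, t = s + 1 := ⟨t - 1, by omega⟩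
      rw [Nat.add_sub_cancel, show (s + 1) ^ 3 = ((s + 1) ^ 2 + (s + 1) + 1) * s + 1 by ring,
        Nat.add_sub_cancel]
    rw [hn, ← hnp, ← map_one (algebraMap F K), (algebraMap F K).injective.eq_iff]
  rw [mem_suGL, hiso, hdet]
  have hx : x ^ (q ^ 2 - q + 1) = 1 ↔ (g : Matrix (Fin 3) (Fin 3) F) ^ (q ^ 2 - q + 1) = 1 := by
    rw [Subtype.ext_iff]; rfl
  rw [← hx]
  have hqq : q ≤ q ^ 2 := Nat.le_self_pow two_ne_zero q
  obtain ⟨m, hm⟩ : ∃ m, m = q ^ 2 - q + 1 := ⟨_, rfl⟩
  have e1 : q ^ 3 + 1 = m * (q + 1) := by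
    subst hm
    zify [hqq]
    ring
  have e2 : q ^ 4 + q ^ 2 + 1 = m * (q ^ 2 + q + 1) := by
    subst hm
    zify [hqq]
    ring
  rw [← hm, e1, e2, pow_mul, pow_mul]
  constructor
  · rintro ⟨h1, h2⟩
    have h3 : (x ^ m) ^ (q ^ 2 + q + 1) = ((x ^ m) ^ (q + 1)) ^ q * x ^ m := by
      rw [← pow_mul, ← pow_mul, ← pow_mul, ← pow_add]; congr 1; ring
    rw [h2, h1, one_pow, one_mul] at h3
    exact h3.symm
  · intro h
    rw [h, one_pow, one_pow]
    exact ⟨rfl, rfl⟩

end CfsgLib.SUThree90
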