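import Cfsg.Agent.SUThree90.SingerArith
import Cfsg.Agent.SUThree90.SingerField
import Cfsg.Agent.SUThree90.SingerCount

/-!
The normaliser of an adjoint closed field of degree three is maximal in `SU₃(q)` for `q ≥ 4`, `q ≠ 5`.

The isometries `C` in the field act semiregularly, modulo scalars, on the other cosets of the normaliser
`N` in any overgroup, so the index of `N` in an overgroup `M` and the index of `M` are one modulo the order
`c` of `C` modulo scalars; as proper subgroups have index at least `q³ + 1` only `M = N` or the whole group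
remains.
-/

set_option autoImplicit false
set_option linter.unusedSectionVars false
set_option linter.style.haveILetI false

namespace CfsgLib.SUThree90

open Module Matrix CfsgLib.FieldExtMax MulAction

variable {F : Type*} [Field F] [Fintype F] {q : ℕ} {K : Subalgebra F (Matrix (Fin 3) (Fin 3) F)}

/-- The units lying in the field. -/
def fieldPart (hK : Cfsg.Geo.IsFieldSubalgebra 3 K) : Subgroup (GL (Fin 3) F) where
  carrier := {g | (g : Matrix (Fin 3) (Fin 3) F) ∈ K}
  mul_mem' {a b} ha hb := by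
    show ((a * b : GL (Fin 3) F) : Matrix (Fin 3) (Fin 3) F) ∈ K
    rw [Units.val_mul]; exact mul_mem ha hb
  one_mem' := one_mem K
  inv_mem' {a} ha := by
    obtain ⟨y, hy, hay⟩ := hK.inv _ ha a.ne_zero
    show ((a⁻¹ : GL (Fin 3) F) : Matrix (Fin 3) (Fin 3) F) ∈ K
    rw [Units.inv_eq_of_mul_eq_one_right hay]
    exact hy

/-- The isometries of determinant one in the field. -/
def torus (q : ℕ) (hK : Cfsg.Geo.IsFieldSubalgebra 3 K) : Subgroup (GL (Fin 3) F) :=
  fieldPart hK ⊓ suGL F q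

lemma torus_le_normalizer (hK : Cfsg.Geo.IsFieldSubalgebra 3 K) :
    fieldPart hK ≤ Cfsg.Geo.subalgebraNormalizer K := by
  intro g hg
  rw [mem_normalizer_iff hK]
  intro k hk
  exact ⟨k, hk, fun y => by rw [mulVec_mulVec, mulVec_mulVec, hK.comm _ hg k hk]⟩

/-- Conjugation of the field by a normalising element. -/
noncomputable def conjAut (hK : Cfsg.Geo.IsFieldSubalgebra 3 K) :
    ↥(Cfsg.Geo.subalgebraNormalizer K) →* (K ≃ₐ[F] K) where
  toFun g := AlgEquiv.ofBijective
    ({ toFun := fun k => ⟨((g : GL (Fin 3) F) : Matrix (Fin 3) (Fin 3) F) * k *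
          (((g : GL (Fin 3) F)⁻¹ : GL (Fin 3) F) : Matrix (Fin 3) (Fin 3) F), (g.2 k).1 k.2⟩
       map_one' := Subtype.ext (by simp)
       map_mul' := fun a b => Subtype.ext (by simp [mul_assoc])
       map_zero' := Subtype.ext (by simp)
       map_add' := fun a b => Subtype.ext (by simp [mul_add, add_mul])
       commutes' := fun c => Subtype.ext (by
         simp only [Subalgebra.coe_algebraMap]
         rw [← Algebra.commutes, mul_assoc, ← Units.val_mul, mul_inv_cancel, Units.val_one, mul_one]) } :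
      K →ₐ[F] K)
    (Finite.injective_iff_bijective.1 fun a b h => Subtype.ext (by
      have h' := congrArg (fun z => (((g : GL (Fin 3) F)⁻¹ : GL (Fin 3) F) : Matrix (Fin 3) (Fin 3) F) *
        z * ((g : GL (Fin 3) F) : Matrix (Fin 3) (Fin 3) F)) (congrArg Subtype.val h)
      simpa [mul_assoc, ← Units.val_mul] using h'))
  map_one' := AlgEquiv.ext fun k => Subtype.ext (by simp)
  map_mul' a b := AlgEquiv.ext fun k => Subtype.ext (by simp [mul_assoc, Matrix.mul_inv_rev])

lemma isPrimePow_of (hF : Fintype.card F = q ^ 2) : IsPrimePow q := by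
  obtain ⟨p, e, hp, -, he, hqe⟩ := CfsgLib.Unitary.exists_char hF
  exact ⟨p, e, hp.prime, he, hqe.symm⟩

lemma not_primePow_cases (h : IsPrimePow q) (hq : q = 6 ∨ q = 14 ∨ q = 35) : False := by
  rw [isPrimePow_iff_unique_prime_dvd] at h
  obtain ⟨p, -, hu⟩ := h
  rcases hq with rfl | rfl | rfl
  · have := (hu 2 ⟨Nat.prime_two, by norm_num⟩).trans (hu 3 ⟨Nat.prime_three, by norm_num⟩).symm
    omega
  · have := (hu 2 ⟨Nat.prime_two, by norm_num⟩).trans (hu 7 ⟨by norm_num, by norm_num⟩).symm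
    omega
  · have := (hu 5 ⟨Nat.prime_five, by norm_num⟩).trans (hu 7 ⟨by norm_num, by norm_num⟩).symm
    omega

variable (hK : Cfsg.Geo.IsFieldSubalgebra 3 K)
include hK

lemma card_aut : Nat.card (K ≃ₐ[F] K) = 3 := by
  letI : Field K := fieldOf hK
  haveI : Finite K := inferInstance
  haveI : FiniteDimensional F K := Module.Finite.of_finite
  haveI : IsGalois F K := GaloisField.instIsGaloisOfFinite
  rw [IsGalois.card_aut_eq_finrank, hK.finrank_eq]

lemma conjAut_ker {g : ↥(Cfsg.Geo.subalgebraNormalizer K)} :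
    conjAut hK g = 1 ↔ (g : GL (Fin 3) F) ∈ fieldPart hK := by
  constructor
  · intro h
    refine mem_of_commute hK fun k hk => ?_
    have h' : ((g : GL (Fin 3) F) : Matrix (Fin 3) (Fin 3) F) * k *
        (((g : GL (Fin 3) F)⁻¹ : GL (Fin 3) F) : Matrix (Fin 3) (Fin 3) F) = k :=
      congrArg Subtype.val (AlgEquiv.congr_fun h ⟨k, hk⟩)
    conv_rhs => rw [← h']
    rw [mul_assoc _ _ ((g : GL (Fin 3) F) : Matrix (Fin 3) (Fin 3) F), ← Units.val_mul, inv_mul_cancel,
      Units.val_one, mul_one]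
  · intro h
    refine AlgEquiv.ext fun k => Subtype.ext ?_
    show ((g : GL (Fin 3) F) : Matrix (Fin 3) (Fin 3) F) * k *
        (((g : GL (Fin 3) F)⁻¹ : GL (Fin 3) F) : Matrix (Fin 3) (Fin 3) F) = k
    rw [hK.comm _ h k k.2, mul_assoc, ← Units.val_mul, mul_inv_cancel, Units.val_one, mul_one]

/-- Cubes of normalising elements lie in the field. -/
lemma pow_three_mem {g : GL (Fin 3) F} (hg : g ∈ Cfsg.Geo.subalgebraNormalizer K) :
    g ^ 3 ∈ fieldPart hK := by
  have h : conjAut hK ((⟨g, hg⟩ : ↥(Cfsg.Geo.subalgebraNormalizer K)) ^ 3) = 1 := by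
    have h3 := pow_card_eq_one' (x := conjAut hK (⟨g, hg⟩ : ↥(Cfsg.Geo.subalgebraNormalizer K)))
    rw [card_aut hK] at h3
    rw [map_pow, h3]
  exact (conjAut_ker hK).1 h

variable (hF : Fintype.card F = q ^ 2)
include hF

lemma natCard_field : Nat.card K = q ^ 6 := by
  rw [Module.natCard_eq_pow_finrank (K := F), hK.finrank_eq, Nat.card_eq_fintype_card, hF, ← pow_mul]

/-- An element whose cube is scalar and is an element of the torus is itself scalar. -/
lemma pow_d_eq_one {d : ℕ} (hd : d = Nat.gcd (q ^ 2 - q + 1) 9) {x : Matrix (Fin 3) (Fin 3) F}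
    (hm : x ^ (q ^ 2 - q + 1) = 1) (h9 : x ^ 9 = 1) : x ^ d = 1 :=
  hd ▸ pow_gcd_eq_one.2 ⟨hm, h9⟩

/-- A root of unity of order dividing a divisor of `q² - 1` in the field is a scalar. -/
lemma exists_scalar_of_pow {d : ℕ} (hd : d ∣ q ^ 2 - 1) (hd0 : 0 < d) {x : Matrix (Fin 3) (Fin 3) F}
    (hx : x ∈ K) (h : x ^ d = 1) : ∃ a : F, algebraMap F (Matrix (Fin 3) (Fin 3) F) a = x := by
  classical
  letI : Field K := fieldOf hK
  obtain ⟨ζ, hζ⟩ : ∃ ζ : Fˣ, orderOf ζ = d := by
    obtain ⟨g, hg⟩ := IsCyclic.exists_generator (α := Fˣ)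
    have hog : orderOf g = q ^ 2 - 1 := by
      rw [orderOf_eq_card_of_forall_mem_zpowers hg, Nat.card_units, Nat.card_eq_fintype_card, hF]
    refine ⟨g ^ ((q ^ 2 - 1) / d), ?_⟩
    have h4 : 1 < q ^ 2 := hF ▸ Fintype.one_lt_card
    rw [orderOf_pow' g (Nat.div_pos (Nat.le_of_dvd (by omega) hd) hd0).ne', hog,
      Nat.gcd_eq_right (Nat.div_dvd_of_dvd hd), Nat.div_div_self hd (by omega)]
  have hp : IsPrimitiveRoot (algebraMap F K (ζ : F)) d := by
    have := IsPrimitiveRoot.orderOf (ζ : F)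
    rw [orderOf_units, hζ] at this
    exact this.map_of_injective (algebraMap F K).injective
  haveI : NeZero d := ⟨hd0.ne'⟩
  obtain ⟨i, -, hi⟩ := hp.eq_pow_of_pow_eq_one (ξ := (⟨x, hx⟩ : K)) (Subtype.ext h)
  exact ⟨(ζ : F) ^ i, by
    have := congrArg Subtype.val hi
    refine Eq.trans ?_ this
    rw [← map_pow]
    rfl⟩

variable (hac : Cfsg.Geo.IsAdjointClosedFor (Cfsg.hermForm 3 F q) K)
include hac

/-- The torus has order `q² - q + 1`; its elements killed by a divisor `d` of that number form a group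
of order `d`. -/
lemma card_torus_pow {d : ℕ} (hd : d ∣ q ^ 2 - q + 1) :
    Nat.card {g : ↥(torus q hK) // g ^ d = 1} = d := by
  classical
  letI : Field K := fieldOf hK
  have hq : 2 ≤ q := CfsgLib.Unitary.two_le_q hF
  have hdK : q ^ 2 - q + 1 ∣ Nat.card Kˣ := by
    rw [Nat.card_units, natCard_field hK hF]
    refine ⟨(q ^ 2 + q + 1) * (q ^ 2 - 1), ?_⟩
    have hqq : q ≤ q ^ 2 := Nat.le_self_pow two_ne_zero q
    zify [hqq, show 1 ≤ q ^ 2 by omega, Nat.one_le_pow 6 q (by omega)]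
    ring
  have e : {g : ↥(torus q hK) // g ^ d = 1} ≃ {u : Kˣ // u ^ d = 1} :=
    { toFun := fun g => ⟨Units.mk0 (⟨((g.1 : GL (Fin 3) F) : Matrix (Fin 3) (Fin 3) F), g.1.2.1⟩ : K)
          (fun h => (g.1 : GL (Fin 3) F).ne_zero (congrArg Subtype.val h)), by
        refine Units.ext (Subtype.ext ?_)
        simpa using congrArg (fun y : ↥(torus q hK) => ((y : GL (Fin 3) F) : Matrix (Fin 3) (Fin 3) F)) g.2⟩
      invFun := fun u => ⟨⟨Units.map (K.val.toMonoidHom) u.1, ⟨(u.1 : K).2, by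
          refine (mem_suGL_iff hF hK hac (show ((Units.map K.val.toMonoidHom u.1 : GL (Fin 3) F) :
            Matrix (Fin 3) (Fin 3) F) ∈ K from (u.1 : K).2)).2 ?_
          obtain ⟨t, ht⟩ := hd
          have h1 : ((u.1 : Kˣ) : K) ^ (q ^ 2 - q + 1) = 1 := by
            rw [ht, pow_mul, ← Units.val_pow_eq_pow_val, u.2, Units.val_one, one_pow]
          exact congrArg Subtype.val h1⟩⟩, by
        refine Subtype.ext (Units.ext ?_)
        have h1 : ((u.1 : Kˣ) : K) ^ d = 1 := by rw [← Units.val_pow_eq_pow_val, u.2, Units.val_one]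
        simpa using congrArg Subtype.val h1⟩
      left_inv := fun g => Subtype.ext (Subtype.ext (Units.ext rfl))
      right_inv := fun u => Subtype.ext (Units.ext (Subtype.ext rfl)) }
  rw [Nat.card_congr e]
  have h := IsCyclic.card_powMonoidHom_ker (G := Kˣ) d
  rw [Nat.gcd_eq_right (hd.trans hdK)] at h
  exact h

lemma card_torus : Nat.card ↥(torus q hK) = q ^ 2 - q + 1 := by
  refine Eq.trans (Nat.card_congr (Equiv.subtypeUnivEquiv fun g => ?_).symm)
    (card_torus_pow hK hF hac dvd_rfl)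
  exact Subtype.ext (Units.ext ((mem_suGL_iff hF hK hac g.2.1).1 g.2.2))

/-- The torus modulo scalars is semiregular away from the normaliser. -/
lemma mem_normalizer_of_conj {d : ℕ} (hd : d = Nat.gcd (q ^ 2 - q + 1) 9) (hd3 : d ∣ 3)
    {g c : GL (Fin 3) F} (hc : c ∈ torus q hK) (hn : g⁻¹ * c * g ∈ Cfsg.Geo.subalgebraNormalizer K) :
    g ∈ Cfsg.Geo.subalgebraNormalizer K ∨ c ^ d = 1 := by
  letI : Field K := fieldOf hK
  haveI : FiniteDimensional F K := Module.Finite.of_finite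
  by_cases hs : ∃ a : F, algebraMap F (Matrix (Fin 3) (Fin 3) F) a = ((c ^ 3 : GL (Fin 3) F) : Matrix (Fin 3) (Fin 3) F)
  · right
    obtain ⟨a, ha⟩ := hs
    have hc3 := (mem_suGL.1 (pow_mem hc.2 3)).2
    rw [← ha, Algebra.algebraMap_eq_smul_one, det_smul, det_one, mul_one, Fintype.card_fin] at hc3
    have h9 : (c : Matrix (Fin 3) (Fin 3) F) ^ 9 = 1 := by
      rw [show 9 = 3 * 3 from rfl, pow_mul, ← Units.val_pow_eq_pow_val, ← ha, ← map_pow, hc3, map_one]
    have hm := (mem_suGL_iff hF hK hac hc.1).1 hc.2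
    exact Units.ext (by rw [Units.val_pow_eq_pow_val]; exact pow_d_eq_one hK hF hd hm h9)
  · left
    set x : K := ⟨((c ^ 3 : GL (Fin 3) F) : Matrix (Fin 3) (Fin 3) F), pow_mem hc.1 3⟩ with hxdef
    have hxr : x ∉ (algebraMap F K).range := by
      rintro ⟨a, ha⟩
      exact hs ⟨a, congrArg Subtype.val ha⟩
    have h3 : g⁻¹ * c ^ 3 * g ∈ fieldPart hK := by
      have := pow_three_mem hK hn
      rwa [show (g⁻¹ * c * g) ^ 3 = g⁻¹ * c ^ 3 * g by simp only [pow_succ, pow_zero, one_mul]; group] at this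
    set G : Matrix (Fin 3) (Fin 3) F := (g : Matrix (Fin 3) (Fin 3) F)
    set G' : Matrix (Fin 3) (Fin 3) F := ((g⁻¹ : GL (Fin 3) F) : Matrix (Fin 3) (Fin 3) F)
    have hGG : G * G' = 1 := g.mul_inv
    have hG'G : G' * G = 1 := g.inv_mul
    have key : ∀ k : K, G' * (k : Matrix (Fin 3) (Fin 3) F) * G ∈ K := by
      intro k
      have hk : k ∈ Algebra.adjoin F {x} := by
        rw [CfsgLib.C3Max.adjoin_eq_top (by rw [hK.finrank_eq]; exact Nat.prime_three) hxr]
        exact Algebra.mem_top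
      induction hk using Algebra.adjoin_induction with
      | mem y hy =>
        rw [Set.mem_singleton_iff.1 hy]
        exact h3
      | algebraMap a =>
        rw [Subalgebra.coe_algebraMap, ← Algebra.commutes, mul_assoc, hG'G, mul_one]
        exact K.algebraMap_mem a
      | add y z _ _ hy hz =>
        rw [Subalgebra.coe_add, mul_add, add_mul]
        exact add_mem hy hz
      | mul y z _ _ hy hz =>
        rw [Subalgebra.coe_mul, show G' * ((y : Matrix (Fin 3) (Fin 3) F) * z) * G =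
          (G' * (y : Matrix (Fin 3) (Fin 3) F) * G) * (G' * (z : Matrix (Fin 3) (Fin 3) F) * G) by
            simp only [mul_assoc]; rw [← mul_assoc G G', hGG, one_mul]]
        exact mul_mem hy hz
    have hinv : g⁻¹ ∈ Cfsg.Geo.subalgebraNormalizer K := by
      rw [mem_normalizer_iff hK]
      intro k hk
      refine ⟨G' * k * G, key ⟨k, hk⟩, fun y => ?_⟩
      rw [mulVec_mulVec, mulVec_mulVec, mul_assoc (G' * k), hGG, mul_one]
    simpa using inv_mem hinv

/-- The index of the normaliser in an overgroup is one modulo the order of the torus modulo scalars. -/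
lemma exists_relIndex_eq {d c : ℕ} (hd : d = Nat.gcd (q ^ 2 - q + 1) 9) (hd3 : d ∣ 3)
    (hdq : d ∣ q ^ 2 - 1) (hdc : d * c = q ^ 2 - q + 1) {M : Subgroup (GL (Fin 3) F)}
    (hle : Cfsg.Geo.subalgebraNormalizer K ⊓ suGL F q ≤ M) (hMS : M ≤ suGL F q) :
    ∃ j, (Cfsg.Geo.subalgebraNormalizer K ⊓ suGL F q).relIndex M = 1 + j * c := by
  classical
  set N := Cfsg.Geo.subalgebraNormalizer K ⊓ suGL F q with hN
  have hTN : torus q hK ≤ N := fun t ht => ⟨torus_le_normalizer hK ht.1, ht.2⟩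
  let i : ↥(torus q hK) →* ↥M := Subgroup.inclusion (hTN.trans hle)
  letI : MulAction ↥(torus q hK) (↥M ⧸ N.subgroupOf M) := MulAction.compHom _ i
  have h := exists_card_eq_one_add (G := ↥(torus q hK)) (X := ↥M ⧸ N.subgroupOf M)
    (QuotientGroup.mk (1 : ↥M)) (fun t => by
      show (i t : ↥M) • (QuotientGroup.mk (1 : ↥M) : ↥M ⧸ N.subgroupOf M) = _
      rw [MulAction.Quotient.smul_mk, smul_eq_mul, mul_one]
      refine (QuotientGroup.eq.2 ?_)
      rw [mul_one, inv_mem_iff, Subgroup.mem_subgroupOf]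
      exact hTN t.2)
    (z := d) (c := c) (by rw [hdc, card_torus hK hF hac]) (by
      intro x
      induction x using QuotientGroup.induction_on with
      | _ g =>
        intro hg
        have hd0 : 0 < d := Nat.pos_of_ne_zero fun h => by rw [h] at hd3; simp at hd3
        refine Eq.trans (Nat.card_congr (Equiv.subtypeEquivRight fun t => ?_))
          (card_torus_pow hK hF hac ⟨c, hdc.symm⟩)
        show (i t : ↥M) • (QuotientGroup.mk g : ↥M ⧸ N.subgroupOf M) = QuotientGroup.mk g ↔ t ^ d = 1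
        rw [MulAction.Quotient.smul_mk, QuotientGroup.eq, Subgroup.mem_subgroupOf, smul_eq_mul]
        have e : ((((i t : ↥M) * g)⁻¹ * g : ↥M) : GL (Fin 3) F) =
            ((g : GL (Fin 3) F)⁻¹ * (t : GL (Fin 3) F) * g)⁻¹ := by
          simp [i, mul_assoc]
        rw [e, inv_mem_iff]
        constructor
        · intro ht
          rcases mem_normalizer_of_conj hK hF hac hd hd3 t.2 ht.1 with h' | h'
          · refine absurd ?_ hg
            refine QuotientGroup.eq.2 ?_
            rw [mul_one, inv_mem_iff, Subgroup.mem_subgroupOf]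
            exact ⟨h', hMS g.2⟩
          · exact Subtype.ext h'
        · intro ht
          obtain ⟨a, ha⟩ := exists_scalar_of_pow hK hF hdq hd0 t.2.1 (by
            rw [← Units.val_pow_eq_pow_val]
            exact congrArg (fun y : ↥(torus q hK) => ((y : GL (Fin 3) F) : Matrix (Fin 3) (Fin 3) F)) ht)
          rw [show (g : GL (Fin 3) F)⁻¹ * (t : GL (Fin 3) F) * g = t from Units.ext (by
            rw [Units.val_mul, Units.val_mul, ← ha, ← Algebra.commutes, mul_assoc, Units.inv_mul, mul_one])]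
          exact hTN t.2)
  exact h

omit hac in
lemma natCard_suGL : Nat.card ↥(suGL F q) = q ^ 3 * ((q ^ 2 - 1) * (q ^ 3 + 1)) := by
  have h1 := CfsgLib.Unitary.card_SU hF 3 (by norm_num)
  simp [Finset.prod_range_succ, show ¬ Even 1 by decide, show Even 2 by decide] at h1
  have hq1 : 0 < q + 1 := by omega
  refine Eq.trans (Nat.card_congr ?_) (Nat.eq_of_mul_eq_mul_left hq1 (h1.trans (by ring)))
  exact
    { toFun := fun g => ⟨⟨((g : GL (Fin 3) F) : Matrix (Fin 3) (Fin 3) F), (mem_suGL.1 g.2).2⟩,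
        (mem_suGL.1 g.2).1⟩
      invFun := fun A => ⟨Matrix.SpecialLinearGroup.toGL A.1, mem_suGL.2 ⟨A.2, A.1.2⟩⟩
      left_inv := fun g => Subtype.ext (Units.ext rfl)
      right_inv := fun A => Subtype.ext (Subtype.ext rfl) }

omit hac in
lemma natCard_normalizer :
    ∃ e, (e = 1 ∨ e = 3) ∧
      Nat.card ↥(Cfsg.Geo.subalgebraNormalizer K ⊓ suGL F q) = Nat.card ↥(torus q hK) * e := by
  set N := Cfsg.Geo.subalgebraNormalizer K ⊓ suGL F q with hN
  let Φ : ↥N →* (K ≃ₐ[F] K) := (conjAut hK).comp (Subgroup.inclusion inf_le_left)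
  refine ⟨Nat.card Φ.range, (Nat.dvd_prime Nat.prime_three).1 ?_, ?_⟩
  · have h := Subgroup.card_subgroup_dvd_card Φ.range
    rw [card_aut hK] at h
    exact h
  · rw [← Φ.ker.card_mul_index, Subgroup.index_ker]
    congr 1
    refine Nat.card_congr
      { toFun := fun g => ⟨((g : ↥N) : GL (Fin 3) F), (conjAut_ker hK).1 g.2, (g : ↥N).2.2⟩
        invFun := fun t => ⟨⟨(t : GL (Fin 3) F), torus_le_normalizer hK t.2.1, t.2.2⟩,
          (conjAut_ker hK).2 t.2.1⟩
        left_inv := fun g => rfl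
        right_inv := fun t => rfl }

/-- The adjoint closed field normaliser is maximal. -/
theorem field_maximal_of (h3 : 3 ≤ q) (hq3 : q ≠ 3) (hq5 : q ≠ 5) :
    Cfsg.Geo.IsMaximalIn (suGL F q) (Cfsg.Geo.subalgebraNormalizer K ⊓ suGL F q) := by
  classical
  set N := Cfsg.Geo.subalgebraNormalizer K ⊓ suGL F q with hN
  have hqq : q ≤ q * q := Nat.le_mul_self q
  have hqm : q ^ 2 - q + 1 + q = q * q + 1 := by rw [sq]; omega
  obtain ⟨d, hd⟩ : ∃ d, d = Nat.gcd (q ^ 2 - q + 1) 9 := ⟨_, rfl⟩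
  have hdmod : (d = 1 ∧ q % 3 ≠ 2) ∨ (d = 3 ∧ q % 3 = 2) := by
    have e : (q ^ 2 - q + 1) % 9 = if q % 3 = 2 then 3 else
        (((q % 9) * (q % 9) + 10 - q % 9) % 9) := by
      have h' : ∀ r < 9, r % 3 = 2 → (r * r + 10 - r) % 9 = 3 := by decide
      have hm : (q * q) % 9 = ((q % 9) * (q % 9)) % 9 := Nat.mul_mod q q 9
      rw [sq]
      split_ifs with h
      · have := h' (q % 9) (Nat.mod_lt _ (by norm_num)) (by omega)
        omega
      · omega
    rw [Nat.gcd_comm, Nat.gcd_rec] at hd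
    rw [e] at hd
    by_cases h : q % 3 = 2
    · rw [if_pos h] at hd; exact Or.inr ⟨hd, h⟩
    · rw [if_neg h] at hd
      have h' : ∀ r < 9, r % 3 ≠ 2 → Nat.gcd ((r * r + 10 - r) % 9) 9 = 1 := by decide
      exact Or.inl ⟨hd.trans (h' (q % 9) (Nat.mod_lt _ (by norm_num)) (by omega)), h⟩
  have hd3 : d ∣ 3 := by rcases hdmod with ⟨rfl, -⟩ | ⟨rfl, -⟩ <;> norm_num
  have hdq : d ∣ q ^ 2 - 1 := by
    rcases hdmod with ⟨rfl, -⟩ | ⟨rfl, h⟩
    · exact one_dvd _
    · have : (q * q) % 3 = 1 := by rw [Nat.mul_mod, h]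
      rw [sq]; omega
  obtain ⟨c, hdc⟩ : d ∣ q ^ 2 - q + 1 := hd ▸ Nat.gcd_dvd_left _ _
  have hdc' := hdc.symm
  have hcq : d * c + q = q * q + 1 := by rw [← hdc]; exact hqm
  obtain ⟨e, he, hNcard⟩ := natCard_normalizer (q := q) hK hF
  rw [card_torus hK hF hac] at hNcard
  obtain ⟨t, ht⟩ := exists_relIndex_eq hK hF hac hd hd3 hdq hdc' (le_of_le_of_eq inf_le_right rfl) le_rfl
  have hG := natCard_suGL (q := q) hK hF
  have hrel : ∀ {A B : Subgroup (GL (Fin 3) F)}, A ≤ B → Nat.card A * A.relIndex B = Nat.card B := by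
    intro A B hAB
    rw [← Nat.card_congr (Subgroup.subgroupOfEquivOfLe hAB).toEquiv]
    exact Subgroup.card_mul_index _
  have htop := hrel (A := N) (B := suGL F q) inf_le_right
  rw [hNcard, hG] at htop
  have hfac : q ^ 3 * ((q ^ 2 - 1) * (q ^ 3 + 1)) =
      (q ^ 2 - q + 1) * (q ^ 3 * ((q - 1) * (q + 1) ^ 2)) := by
    have h1 : 1 ≤ q ^ 2 := Nat.one_le_pow _ _ (by omega)
    zify [Nat.le_self_pow two_ne_zero q, h1, show 1 ≤ q by omega]
    ring
  rw [hfac, mul_assoc] at htop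
  have hT : e * (1 + t * c) = q ^ 3 * ((q - 1) * (q + 1) ^ 2) := by
    rw [← ht]; exact Nat.eq_of_mul_eq_mul_left (by omega) htop
  have hcbig : 3 ≤ c := by
    rcases hdmod with ⟨rfl, -⟩ | ⟨rfl, -⟩
    · nlinarith
    · nlinarith
  obtain rfl : e = 3 := by
    refine he.resolve_left fun h => ?_
    subst h
    have hTi : (1 : ℤ) + t * c = (q : ℤ) ^ 3 * (((q : ℤ) - 1) * ((q : ℤ) + 1) ^ 2) := by
      have := congrArg (Nat.cast : ℕ → ℤ) hT
      push_cast [Nat.cast_sub (show 1 ≤ q by omega)] at this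
      linarith
    have hci : (d : ℤ) * c + q = q * q + 1 := by exact_mod_cast hcq
    have h2 : (c : ℤ) ∣ 2 := by
      have e1 : (q : ℤ) ^ 3 = d * c * (q + 1) - 1 := by linear_combination (-(q : ℤ) - 1) * hci
      have e2 : ((q : ℤ) - 1) * ((q : ℤ) + 1) ^ 2 = d * c * (q + 2) - 3 := by
        linear_combination (-(q : ℤ) - 2) * hci
      rw [e1, e2] at hTi
      refine ⟨t - d * ((q + 1) * (q + 2) * (d * c) - (4 * q + 5)), ?_⟩
      linear_combination -hTi
    have := Int.le_of_dvd (by norm_num) h2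
    omega
  refine ⟨lt_of_le_of_ne inf_le_right fun h => ?_, fun M hle hMS => ?_⟩
  · have hNcard' : Nat.card ↥N = (q ^ 2 - q + 1) * 3 := hNcard
    rw [h, hG, hfac] at hNcard'
    have h8 : 4 ^ 3 * (1 * 1) ≤ q ^ 3 * ((q - 1) * (q + 1) ^ 2) :=
      Nat.mul_le_mul (Nat.pow_le_pow_left (by omega) 3)
        (Nat.mul_le_mul (by omega) (Nat.one_le_pow _ _ (by omega)))
    have := Nat.eq_of_mul_eq_mul_left (show 0 < q ^ 2 - q + 1 by omega) hNcard'
    omega
  obtain ⟨j, hj⟩ := exists_relIndex_eq hK hF hac hd hd3 hdq hdc' hle hMS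
  have hmul := Subgroup.relIndex_mul_relIndex N M (suGL F q) hle hMS
  rw [hj, ht] at hmul
  have hk' : ∃ i, M.relIndex (suGL F q) = 1 + i * c := by
    refine ⟨M.relIndex (suGL F q) / c, ?_⟩
    have h1 : (1 + j * c) * M.relIndex (suGL F q) % c = 1 % c := by rw [hmul]; simp
    rw [Nat.mul_mod] at h1
    simp [Nat.mod_eq_of_lt (show 1 < c by omega)] at h1
    have := Nat.div_add_mod (M.relIndex (suGL F q)) c
    rw [h1, mul_comm] at this
    omega
  by_cases hj1 : 1 + j * c = 1
  · left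
    exact le_antisymm (Subgroup.relIndex_eq_one.1 (hj.trans hj1)) hle
  by_cases hk1 : M.relIndex (suGL F q) = 1
  · right
    exact le_antisymm hMS (Subgroup.relIndex_eq_one.1 hk1)
  exfalso
  -- inside the special unitary group
  let φ : ↥(Cfsg.SU 3 F q) →* GL (Fin 3) F :=
    (Matrix.SpecialLinearGroup.toGL).comp (Cfsg.SU 3 F q).subtype
  have hφi : Function.Injective φ := fun A B h => Subtype.ext (Subtype.ext (congrArg Units.val h))
  have hφr : φ.range = suGL F q := by
    ext g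
    constructor
    · rintro ⟨A, rfl⟩
      exact mem_suGL.2 ⟨A.2, A.1.2⟩
    · intro hg
      exact ⟨⟨⟨g, (mem_suGL.1 hg).2⟩, (mem_suGL.1 hg).1⟩, Units.ext rfl⟩
  set H : Subgroup ↥(Cfsg.SU 3 F q) := M.comap φ with hH
  have hindex : H.index = M.relIndex (suGL F q) := by rw [hH, Subgroup.index_comap, hφr]
  have hZ : Subgroup.center ↥(Cfsg.SU 3 F q) ≤ H := by
    intro A hA
    obtain ⟨a, ha⟩ := (CfsgLib.Unitary.mem_center_SU_iff hF (by norm_num) A).1 hA
    refine hle ⟨torus_le_normalizer hK ?_, hφr ▸ ⟨A, rfl⟩⟩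
    show ((A : Matrix.SpecialLinearGroup (Fin 3) F) : Matrix (Fin 3) (Fin 3) F) ∈ K
    rw [ha]
    exact K.algebraMap_mem a
  have hlow := CfsgLib.MinIndexPSU3.le_index hF h3 hq5 hZ
    (fun h => hk1 (by rw [← hindex, h, Subgroup.index_top]))
  rw [hindex] at hlow
  rcases singer_index_cases (by omega) hq5 hdmod hcq (by rw [hmul, hT]) ⟨j, rfl⟩ hk' hj1 hlow with
    h | h | h | ⟨h8, hk⟩
  · exact not_primePow_cases (isPrimePow_of hF) (Or.inl h)
  · exact not_primePow_cases (isPrimePow_of hF) (Or.inr (Or.inl h))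
  · exact not_primePow_cases (isPrimePow_of hF) (Or.inr (Or.inr h))
  · refine su_three_eight_false h8 hF H hZ ?_
    have hc : Nat.card H = Nat.card M := by
      rw [← Subgroup.card_map_of_injective (K := H) hφi, hH, Subgroup.map_comap_eq, hφr, inf_eq_right.2 hMS]
    rw [hc, ← hrel hle, hNcard, hj, hk, h8]
    norm_num

end CfsgLib.SUThree90

namespace CfsgLib.SUThree90

/-- Clause four. -/
theorem field_maximal {F : Type*} [Field F] [Fintype F] (q : ℕ) (hF : Fintype.card F = q ^ 2) (hq : 3 ≤ q) :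
    q ≠ 3 → q ≠ 5 → ∀ K : Subalgebra F (Matrix (Fin 3) (Fin 3) F), Cfsg.Geo.IsFieldSubalgebra 3 K →
      Cfsg.Geo.IsAdjointClosedFor (Cfsg.hermForm 3 F q) K →
      Cfsg.Geo.IsMaximalIn (Cfsg.GU 3 F q ⊓ Cfsg.Geo.specialLinear (Fin 3) F)
        (Cfsg.Geo.subalgebraNormalizer K ⊓ (Cfsg.GU 3 F q ⊓ Cfsg.Geo.specialLinear (Fin 3) F)) :=
  fun h3 h5 _ hK hac => field_maximal_of hK hF hac hq h3 h5

end CfsgLib.SUThree90
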