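import Mathlib

/-!
Arithmetic for the overgroups of the normaliser of a field of degree three in `SU₃(q)`: the two indices
`k`, `k'` are one modulo the order `c` of the projective torus and have product `q³(q-1)(q+1)²/3`.
-/

set_option autoImplicit false

namespace CfsgLib.SUThree90

/-- The index of the normaliser. -/
def singerIndex (q : ℕ) : ℕ := q ^ 3 * ((q - 1) * (q + 1) ^ 2) / 3

set_option maxRecDepth 100000 in
lemma singerArith_small_one : ((List.range 10).all fun q => (List.range (q + 2)).all fun j =>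
    decide (q < 4) || decide (q % 3 = 2) || decide (q = 6) || decide (j = 0) || decide (q + 2 ≤ 3 * j) ||
      decide (singerIndex q % (1 + j * (q * q - q + 1)) ≠ 0)) = true := by decide +kernel

set_option maxRecDepth 100000 in
lemma singerArith_small_three : ((List.range 190).all fun q => (List.range (q + 2)).all fun j =>
    decide (q % 3 ≠ 2) || decide (q < 8) || decide (q = 14) || decide (q = 35) || decide (j = 0) ||
      decide (singerIndex q % (1 + j * ((q * q - q + 1) / 3)) ≠ 0) || decide (q = 8 ∧ j = 5)) = true := by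
  decide +kernel

/-- Large `q`, full torus. -/
lemma singer_large_one {q c i j : ℤ} (hQ : 10 ≤ q) (hq3 : q % 3 = 0 ∨ q % 3 = 1) (hc : c = q * q - q + 1)
    (hI : 1 ≤ i) (hJ : 1 ≤ j)
    (hT : 3 * ((1 + j * c) * (1 + i * c)) = q ^ 3 * ((q - 1) * (q + 1) ^ 2)) : False := by
  obtain ⟨w, hw⟩ : ∃ w : ℤ, w = (q + 1) * (q + 2) - 3 * (i * j) := ⟨_, rfl⟩
  have hcpos : (0 : ℤ) < c := by rw [hc]; nlinarith
  have hlin : 3 * (i + j) + 4 * q + 5 = c * w := by
    have h1 : c * (3 * (i + j) + 4 * q + 5 - c * w) = 0 := by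
      subst hw hc
      linear_combination hT
    exact sub_eq_zero.1 ((mul_eq_zero.1 h1).resolve_left hcpos.ne')
  have hw1 : 1 ≤ w := by
    by_contra h
    have := mul_le_mul_of_nonneg_left (show w ≤ 0 by omega) hcpos.le
    linarith
  have hw2 : w ≠ 1 := by
    intro h
    rw [h, mul_one, hc] at hlin
    have h2 : (q * q - q + 1) % 3 = (q + 2) % 3 := by rw [← hlin]; omega
    rcases hq3 with h3 | h3 <;> simp [Int.add_emod, Int.sub_emod, Int.mul_emod, h3] at h2
  have hij : i + j ≤ i * j + 1 := by nlinarith [mul_nonneg (show 0 ≤ i - 1 by omega) (show 0 ≤ j - 1 by omega)]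
  have hup : (c + 1) * w ≤ q * q + 7 * q + 10 := by linear_combination 3 * hij - hlin + hw
  have h2w := mul_le_mul_of_nonneg_left (show (2 : ℤ) ≤ w by omega) (show (0 : ℤ) ≤ c + 1 by omega)
  have hqq := mul_le_mul_of_nonneg_right hQ (show (0 : ℤ) ≤ q by omega)
  linarith

/-- Large `q`, torus modulo the centre of order three. -/
lemma singer_large_three {q c i j : ℤ} (hQ : 190 ≤ q) (hc : 3 * c = q * q - q + 1)
    (hI : 1 ≤ i) (hJ : 1 ≤ j) (hJq : j ≤ q + 1)
    (hT : 3 * ((1 + j * c) * (1 + i * c)) = q ^ 3 * ((q - 1) * (q + 1) ^ 2)) : False := by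
  have hqq := mul_le_mul_of_nonneg_right hQ (show (0 : ℤ) ≤ q by omega)
  have hcpos : (0 : ℤ) < c := by omega
  obtain ⟨s, hs⟩ : ∃ s : ℤ, s = 3 * (q + 1) * (q + 2) - i * j := ⟨_, rfl⟩
  have hlin : i + j + 4 * q + 5 = c * s := by
    have h1 : 3 * c * (i + j + 4 * q + 5 - c * s) = 0 := by
      subst hs
      have e1 : q ^ 3 = 3 * c * (q + 1) - 1 := by linear_combination (-q - 1) * hc
      have e2 : (q - 1) * (q + 1) ^ 2 = 3 * c * (q + 2) - 3 := by linear_combination (-q - 2) * hc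
      rw [e1, e2] at hT
      linear_combination hT
    exact sub_eq_zero.1 ((mul_eq_zero.1 h1).resolve_left (by omega))
  have hmain : j * s * c + s = j * j + (4 * q + 5) * j + 9 * c + 12 * q + 3 := by
    subst hs
    linear_combination (-j) * hlin - 3 * hc
  have hs1 : 1 ≤ s := by
    by_contra h
    have := mul_le_mul_of_nonneg_left (show s ≤ 0 by omega) hcpos.le
    linarith
  have hjj := mul_nonneg (show 0 ≤ j by omega) (show 0 ≤ j by omega)
  have hjq := mul_le_mul_of_nonneg_left hJ (show (0 : ℤ) ≤ 4 * q + 5 by omega)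
  by_cases hjs : j * s ≤ 9
  · have h1 := mul_le_mul_of_nonneg_right hjs hcpos.le
    have h2 := mul_le_mul_of_nonneg_right hJ (show (0 : ℤ) ≤ s by omega)
    linarith
  by_cases hj10 : j ≤ 10
  · have h1 := mul_le_mul_of_nonneg_right (show (10 : ℤ) ≤ j * s by omega) hcpos.le
    have h2 := mul_le_mul_of_nonneg_left hj10 (show (0 : ℤ) ≤ 4 * q + 5 by omega)
    have h3 := mul_le_mul hj10 hj10 (by omega) (by norm_num)
    linarith
  · have hJ10 : 10 ≤ j := by omega
    have h1 := mul_le_mul_of_nonneg_left hs1 (mul_nonneg (show 0 ≤ j by omega) hcpos.le)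
    have h2 := mul_le_mul_of_nonneg_left hJq (show 0 ≤ j by omega)
    have h3 : 62 * q + 63 < c := by omega
    have h4 := mul_le_mul_of_nonneg_right hJ10 (show (0 : ℤ) ≤ c - 5 * q - 6 by omega)
    linarith

/-- The only exceptions are `q = 6, 14, 35` and `(q, k) = (8, 96)`. -/
theorem singer_index_cases {q d c k k' : ℕ} (hq : 4 ≤ q) (h5 : q ≠ 5)
    (hd : (d = 1 ∧ q % 3 ≠ 2) ∨ (d = 3 ∧ q % 3 = 2)) (hc : d * c + q = q * q + 1)
    (hT : 3 * (k * k') = q ^ 3 * ((q - 1) * (q + 1) ^ 2))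
    (hk : ∃ j, k = 1 + j * c) (hk' : ∃ i, k' = 1 + i * c) (hk1 : k ≠ 1) (hlow : q ^ 3 + 1 ≤ k') :
    q = 6 ∨ q = 14 ∨ q = 35 ∨ (q = 8 ∧ k = 96) := by
  obtain ⟨j, rfl⟩ := hk
  obtain ⟨i, rfl⟩ := hk'
  have hj : 1 ≤ j := Nat.pos_of_ne_zero fun h => hk1 (by rw [h, zero_mul, add_zero])
  have hqq : q ≤ q * q := Nat.le_mul_self q
  have hdiv : singerIndex q % (1 + j * c) = 0 := by
    unfold singerIndex
    rw [← hT, Nat.mul_div_cancel_left _ (by norm_num : 0 < 3)]
    exact Nat.mul_mod_right _ _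
  have hT' : 3 * ((1 + (j : ℤ) * c) * (1 + (i : ℤ) * c)) = (q : ℤ) ^ 3 * (((q : ℤ) - 1) * ((q : ℤ) + 1) ^ 2) := by
    have := congrArg (Nat.cast : ℕ → ℤ) hT
    push_cast [Nat.cast_sub (show 1 ≤ q by omega)] at this
    exact this
  have hlow' : (q : ℤ) ^ 3 + 1 ≤ 1 + (i : ℤ) * c := by exact_mod_cast hlow
  have hc' : (d : ℤ) * c + q = q * q + 1 := by exact_mod_cast hc
  have hJ : (1 : ℤ) ≤ j := by exact_mod_cast hj
  have hQ : (4 : ℤ) ≤ q := by exact_mod_cast hq
  have hC0 : (0 : ℤ) ≤ c := Int.natCast_nonneg c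
  have hI0 : (0 : ℤ) ≤ i := Int.natCast_nonneg i
  have hI : (1 : ℤ) ≤ i := by
    rcases Nat.eq_zero_or_pos i with h | h
    · subst h; simp at hlow'; nlinarith
    · exact_mod_cast h
  have hbound : 3 * (1 + (j : ℤ) * c) * ((q : ℤ) ^ 3 + 1) ≤ (q : ℤ) ^ 3 * (((q : ℤ) - 1) * ((q : ℤ) + 1) ^ 2) := by
    rw [← hT', mul_assoc]
    exact mul_le_mul_of_nonneg_left (mul_le_mul_of_nonneg_left hlow' (by positivity)) (by norm_num)
  have hjq : j < q + 2 := by
    by_contra h
    have h' : (q : ℤ) + 2 ≤ j := by exact_mod_cast (not_lt.1 h)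
    have h1 := mul_le_mul_of_nonneg_right h' (mul_nonneg hC0 (show (0 : ℤ) ≤ (q : ℤ) ^ 3 + 1 by positivity))
    have h2 : 0 ≤ ((q : ℤ) + 2) * ((q : ℤ) ^ 3 + 1) := by positivity
    rcases hd with ⟨rfl, -⟩ | ⟨rfl, -⟩ <;> push_cast at hc'
    · have hcq : (c : ℤ) = q * q - q + 1 := by linarith
      rw [hcq] at h1 hbound
      nlinarith
    · have hcq : 3 * (c : ℤ) = q * q - q + 1 := by linarith
      have h3 : (q : ℤ) ^ 3 * (((q : ℤ) - 1) * ((q : ℤ) + 1) ^ 2) =
          (q : ℤ) ^ 3 * (3 * c * (q + 2) - 3) := by linear_combination (-(q : ℤ) ^ 3 * (q + 2)) * hcq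
      have h4 : (0 : ℤ) ≤ (q : ℤ) ^ 3 := by positivity
      nlinarith
  rcases hd with ⟨rfl, hq3⟩ | ⟨rfl, hq3⟩
  · have hcq : (c : ℤ) = q * q - q + 1 := by push_cast at hc'; linarith
    have hj3 : 3 * j < q + 2 := by
      by_contra h
      have h' : (q : ℤ) + 2 ≤ 3 * j := by exact_mod_cast (not_lt.1 h)
      have h1 := mul_le_mul_of_nonneg_right h' (mul_nonneg hC0 (show (0 : ℤ) ≤ (q : ℤ) ^ 3 + 1 by positivity))
      have h2 : 0 ≤ ((q : ℤ) + 2) * ((q : ℤ) ^ 3 + 1) := by positivity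
      rw [hcq] at h1 hbound
      nlinarith
    by_cases hsmall : q < 10
    · by_cases h6 : q = 6
      · exact Or.inl h6
      · have := List.all_eq_true.1 (List.all_eq_true.1 singerArith_small_one q (List.mem_range.2 hsmall)) j
          (List.mem_range.2 hjq)
        have hcn : q * q - q + 1 = c := by omega
        simp only [Bool.or_eq_true, decide_eq_true_eq, hcn] at this
        omega
    exact (singer_large_one (by exact_mod_cast (not_lt.1 hsmall)) (by omega) hcq hI hJ hT').elim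
  · have hcq : 3 * (c : ℤ) = q * q - q + 1 := by push_cast at hc'; linarith
    have h8 : 8 ≤ q := by omega
    by_cases hsmall : q < 190
    · by_cases h14 : q = 14
      · exact Or.inr (Or.inl h14)
      by_cases h35 : q = 35
      · exact Or.inr (Or.inr (Or.inl h35))
      have := List.all_eq_true.1 (List.all_eq_true.1 singerArith_small_three q (List.mem_range.2 hsmall)) j
        (List.mem_range.2 hjq)
      have hcn : (q * q - q + 1) / 3 = c := by omega
      simp only [Bool.or_eq_true, decide_eq_true_eq, hcn] at this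
      obtain ⟨rfl, rfl⟩ : q = 8 ∧ j = 5 := by omega
      exact Or.inr (Or.inr (Or.inr ⟨rfl, by omega⟩))
    exact (singer_large_three (by exact_mod_cast (not_lt.1 hsmall)) hcq hI hJ
      (by exact_mod_cast (Nat.lt_succ_iff.1 hjq)) hT').elim

end CfsgLib.SUThree90
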