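import Mathlib
import Cfsg.Agent.Subfield54.SL2
import Cfsg.Agent.Dickson.MaxPoly

/-!
A subgroup of `GL(2, F)` with upper transvections over a subfield `F₀` of odd prime index, at least three
elements in `F₀`, and one lower transvection outside `F₀` has all upper transvections up to scalars.
-/

set_option autoImplicit false

namespace CfsgLib.SUThree90

open Matrix MulAction CfsgLib.Dickson CfsgLib.Subfield54
open scoped MatrixGroups

theorem not_sixty_dvd {r : ℕ} (hr : Odd r) : ¬ 60 ∣ 3 ^ r * ((3 ^ r) ^ 2 - 1) := by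
  obtain ⟨k, rfl⟩ := hr
  intro h
  have h5 : 5 ∣ 3 ^ (2 * k + 1) * ((3 ^ (2 * k + 1)) ^ 2 - 1) := (show 5 ∣ 60 by norm_num).trans h
  rcases (Nat.Prime.dvd_mul (by norm_num)).1 h5 with h' | h'
  · exact absurd ((Nat.prime_five).dvd_of_dvd_pow h') (by norm_num)
  · have e : (3 ^ (2 * k + 1)) ^ 2 = 9 * 81 ^ k := by
      rw [← pow_mul, show (2 * k + 1) * 2 = 4 * k + 2 by ring, pow_add, pow_mul]; ring
    have hm : (81 ^ k) % 5 = 1 := by rw [Nat.pow_mod]; simp
    have hp : 1 ≤ 81 ^ k := Nat.one_le_pow _ _ (by norm_num)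
    rw [e] at h'
    omega

variable {F : Type*} [Field F] [Fintype F] {F₀ : Subfield F}

theorem exists_smul_upperT_lower {r : ℕ} (hr : r.Prime) (hro : Odd r)
    (hcard : Fintype.card F = Nat.card F₀ ^ r) (h3 : 3 ≤ Nat.card F₀)
    (K : Subgroup (GL (Fin 2) F)) (hU : ∀ u ∈ F₀, upperT u ∈ K) {w : F} (hw : w ∉ F₀)
    {g₀ : GL (Fin 2) F} (hg₀ : g₀ ∈ K)
    (hg₀v : (g₀ : Matrix (Fin 2) (Fin 2) F) = !![1, 0; w, 1]) :
    ∀ x : F, ∃ g ∈ K, ∃ s : F, s ≠ 0 ∧ (g : Matrix (Fin 2) (Fin 2) F) = !![s, s * x; 0, s] := by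
  classical
  obtain ⟨p, hp⟩ := CharP.exists F
  haveI : Fact p.Prime := ⟨CharP.char_is_prime F p⟩
  have hpp := (Fact.out : p.Prime)
  have hw0 : w ≠ 0 := fun h => hw (h ▸ F₀.zero_mem)
  set H := K.map (ProjGenLinGroup.mk (n := Fin 2) (R := F)) with hH
  let φ : Multiplicative F₀ →* H :=
    { toFun := fun u => ⟨ProjGenLinGroup.mk (upperT (u.toAdd : F)),
        Subgroup.mem_map_of_mem _ (hU _ u.toAdd.2)⟩
      map_one' := Subtype.ext (by simp [upperT_zero])
      map_mul' := fun a b => Subtype.ext (by simp [upperT_mul, ← map_mul]) }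
  have hφ : Function.Injective φ := by
    intro a b hab
    have h := congrArg (fun m : PGL(2, F) => m • ((0 : F) : OnePoint F)) (congrArg Subtype.val hab)
    simp only [φ, MonoidHom.coe_mk, OneHom.coe_mk, mk_smul, upperT_smul_coe, zero_add,
      OnePoint.coe_eq_coe] at h
    exact Multiplicative.toAdd.injective (Subtype.ext h)
  have hcardH : Nat.card F₀ ∣ Nat.card H :=
    (Nat.card_congr Multiplicative.toAdd).symm.dvd.trans (Subgroup.card_dvd_of_injective φ hφ)
  haveI : CharP F₀ p := F₀.subtype.charP Subtype.val_injective p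
  obtain ⟨n, hn0, hnF⟩ : ∃ n, 1 ≤ n ∧ Nat.card F₀ = p ^ n := by
    obtain ⟨n, -, hn⟩ := FiniteField.card F₀ p
    exact ⟨n, n.pos, by rw [Nat.card_eq_fintype_card, hn]⟩
  have hpdvd : p ∣ Nat.card H := (hnF ▸ dvd_pow_self p (by omega)).trans hcardH
  have hsq : p = 2 → 2 * 2 ∣ Nat.card F₀ := by
    rintro rfl
    rw [hnF, ← sq]
    refine pow_dvd_pow 2 ?_
    by_contra h
    have : n = 1 := by omega
    rw [hnF, this] at h3
    omega
  rcases classify_finite' p H with ⟨x, hx⟩ | ⟨-, hc⟩ | ⟨n, -, hn, ⟨e⟩⟩ | ⟨h, ⟨e⟩⟩ | ⟨h, ⟨e⟩⟩ | ⟨h, ⟨e⟩⟩ |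
    ⟨L, k, hL⟩
  · exfalso
    have h1 := hx _ (φ (Multiplicative.ofAdd (1 : F₀))).2
    have h2 := hx _ (Subgroup.mem_map_of_mem _ hg₀)
    rw [mk_smul] at h2
    cases x with
    | infty =>
      rw [OnePoint.smul_infty_eq_self_iff, hg₀v] at h2
      simp at h2
      exact hw0 h2
    | coe c =>
      simp [φ, mk_smul, upperT_smul_coe] at h1
  · exact absurd hpdvd hc
  · exfalso
    rw [Nat.card_congr e.toEquiv, DihedralGroup.nat_card] at hcardH hpdvd
    rcases (Nat.coprime_or_dvd_of_prime hpp 2) with hc | hc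
    · exact hn (hc.dvd_of_dvd_mul_left hpdvd)
    · obtain rfl := (Nat.prime_dvd_prime_iff_eq hpp Nat.prime_two).mp hc
      exact hn (Nat.dvd_of_mul_dvd_mul_left two_pos ((hsq rfl).trans hcardH))
  · rw [Nat.card_congr e.toEquiv, nat_card_alternatingGroup, Nat.card_eq_fintype_card, Fintype.card_fin] at hpdvd
    exact absurd hpdvd h
  · rw [Nat.card_congr e.toEquiv, Nat.card_perm, Nat.card_eq_fintype_card, Fintype.card_fin] at hpdvd
    exact absurd hpdvd h
  · exfalso
    rw [Nat.card_congr e.toEquiv, nat_card_alternatingGroup, Nat.card_fin] at hpdvd hcardH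
    rcases h with h | rfl
    · exact h hpdvd
    · rcases Nat.lt_or_ge n 2 with hn1 | hn2
      · have hn1' : n = 1 := by omega
        have h60 := Subgroup.card_subgroup_dvd_card H
        rw [Nat.card_congr e.toEquiv, nat_card_alternatingGroup, Nat.card_fin,
          card_pgl2_sq, hcard, hnF, hn1', pow_one] at h60
        exact not_sixty_dvd hro ((show 60 = Nat.factorial 5 / 2 by rfl) ▸ h60)
      · exact absurd ((pow_dvd_pow 3 hn2).trans (hnF ▸ hcardH)) (by decide)
  obtain ⟨kg, rfl⟩ := ProjGenLinGroup.mk_surjective k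
  have hle : H.map (MulAut.conj (ProjGenLinGroup.mk kg)).toMonoidHom ≤ (pglMap L.subtype).range := by
    rcases hL with hL | ⟨-, hL⟩
    · exact hL.le
    · exact hL.le.trans (pslImage_le _)
  set kM : Matrix (Fin 2) (Fin 2) F := (kg : Matrix (Fin 2) (Fin 2) F) with hkM
  set kI : Matrix (Fin 2) (Fin 2) F := ((kg⁻¹ : GL (Fin 2) F) : Matrix (Fin 2) (Fin 2) F) with hkI
  have hki : kM * kI = 1 := by rw [hkM, hkI, ← Units.val_mul, mul_inv_cancel, Units.val_one]
  have hik : kI * kM = 1 := by rw [hkM, hkI, ← Units.val_mul, inv_mul_cancel, Units.val_one]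
  have hEL : ∀ y ∈ K, (y : Matrix (Fin 2) (Fin 2) F).det = 1 → (y : Matrix (Fin 2) (Fin 2) F).trace = 2 →
      ∀ i j, (kM * (y : Matrix (Fin 2) (Fin 2) F) * kI) i j ∈ L := by
    intro y hy hyd hyt
    obtain ⟨t, ht⟩ := hle (Subgroup.mem_map_of_mem _ (Subgroup.mem_map_of_mem _ hy))
    obtain ⟨S, rfl⟩ := ProjGenLinGroup.mk_surjective t
    rw [pglMap_mk, MulEquiv.coe_toMonoidHom, MulAut.conj_apply, ← map_inv, ← map_mul, ← map_mul,
      ProjGenLinGroup.mk_eq_mk_iff] at ht
    obtain ⟨lam, hlam⟩ := ht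
    have he : ∀ i j, (kM * (y : Matrix (Fin 2) (Fin 2) F) * kI) i j = ((S i j : L) : F) * lam := by
      intro i j
      have := congrArg (fun m : GL (Fin 2) F => (m : Matrix (Fin 2) (Fin 2) F) i j) hlam
      simp only [Units.val_mul] at this
      rw [← this]
      simp [Matrix.mul_diagonal, GeneralLinearGroup.map_apply]
    have htr : (kM * (y : Matrix (Fin 2) (Fin 2) F) * kI).trace = 2 := by
      rw [Matrix.trace_mul_cycle, hik, one_mul, hyt]
    have hdt : (kM * (y : Matrix (Fin 2) (Fin 2) F) * kI).det = 1 := by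
      rw [Matrix.det_mul, Matrix.det_mul, mul_comm kM.det, mul_assoc, ← Matrix.det_mul, hki,
        Matrix.det_one, mul_one, hyd]
    rw [Matrix.trace_fin_two, he, he] at htr
    rw [Matrix.det_fin_two, he, he, he, he] at hdt
    set a := S 0 0; set b := S 0 1; set c := S 1 0; set d := S 1 1
    have hlamL : (lam : F) ∈ L := by
      by_cases h2 : (2 : F) = 0
      · haveI : CharP F 2 := by
          have : CharP F (ringChar F) := ringChar.charP F
          have h2' : ringChar F ∣ 2 := (CharP.cast_eq_zero_iff F (ringChar F) 2).mp (by exact_mod_cast h2)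
          rcases (Nat.dvd_prime Nat.prime_two).mp h2' with h | h
          · exact absurd h (CharP.ringChar_ne_one)
          · exact h ▸ this
        haveI : CharP L 2 := L.subtype.charP Subtype.val_injective 2
        obtain ⟨y, hy⟩ := (bijective_frobenius L 2).2 (a * d - b * c)⁻¹
        rw [frobenius_def] at hy
        have h1 : (y : F) ^ 2 = (lam : F) ^ 2 := by
          rw [← SubmonoidClass.coe_pow, hy]
          push_cast
          apply inv_eq_of_mul_eq_one_right
          linear_combination hdt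
        have h3 : ((y : F) - lam) ^ 2 = 0 := by
          linear_combination h1 + ((lam : F) ^ 2 - y * lam) * h2
        rw [← sub_eq_zero.mp (pow_eq_zero_iff two_ne_zero |>.mp h3)]
        exact y.2
      · have hs : ((a : F) + d) ≠ 0 := fun h0 => h2 (by rw [← htr, ← add_mul, h0, zero_mul])
        have : (lam : F) = 2 / ((a : F) + d) := by
          rw [eq_div_iff hs]; linear_combination htr
        rw [this]
        exact L.div_mem (by simpa using L.add_mem L.one_mem L.one_mem) (L.add_mem a.2 d.2)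
    intro i j
    rw [he i j]
    exact L.mul_mem (S i j).2 hlamL
  have hwL : ∀ c ∈ F₀, c * w ∈ L := fun c hc => by
    have hX := hEL _ (hU c hc) (by simp [upperT, GeneralLinearGroup.mkOfDetNeZero])
      (by simp [upperT, GeneralLinearGroup.mkOfDetNeZero, Matrix.trace_fin_two, one_add_one_eq_two])
    have hY := hEL _ hg₀ (by simp [hg₀v, det_fin_two]) (by simp [hg₀v, Matrix.trace_fin_two, one_add_one_eq_two])
    have e : (kM * (upperT c : Matrix (Fin 2) (Fin 2) F) * kI) * (kM * (g₀ : Matrix (Fin 2) (Fin 2) F) * kI)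
        = kM * ((upperT c : Matrix (Fin 2) (Fin 2) F) * g₀) * kI := by
      rw [mul_assoc (kM * _) kI, ← mul_assoc kI, ← mul_assoc kI, hik, one_mul]
      simp only [mul_assoc]
    have ht := congrArg Matrix.trace e
    rw [Matrix.trace_mul_cycle kM, hik, one_mul] at ht
    have hmem : (kM * (upperT c : Matrix (Fin 2) (Fin 2) F) * kI * (kM * (g₀ : Matrix (Fin 2) (Fin 2) F) * kI)).trace ∈ L := by
      rw [Matrix.trace_fin_two, Matrix.mul_apply, Matrix.mul_apply, Fin.sum_univ_two, Fin.sum_univ_two]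
      exact L.add_mem (L.add_mem (L.mul_mem (hX _ _) (hY _ _)) (L.mul_mem (hX _ _) (hY _ _)))
        (L.add_mem (L.mul_mem (hX _ _) (hY _ _)) (L.mul_mem (hX _ _) (hY _ _)))
    rw [ht, hg₀v] at hmem
    simp [upperT, GeneralLinearGroup.mkOfDetNeZero, Matrix.trace_fin_two] at hmem
    have h11 := L.sub_mem (L.sub_mem hmem L.one_mem) L.one_mem
    convert h11 using 1
    ring
  have hwL1 : w ∈ L := by simpa using hwL 1 F₀.one_mem
  have hall : ∀ x, x ∈ L := eq_univ_of_mul_closed hr hcard (L : Set F)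
    (fun c hc => by simpa [mul_div_cancel_right₀ _ hw0] using L.div_mem (hwL c hc) hwL1)
    (fun x hx y hy => L.add_mem hx hy) (fun x hx y hy => L.mul_mem hx hy) hwL1 hw
  intro x
  have hsub : pslImage (RingHom.id F) ≤ H.map (MulAut.conj (ProjGenLinGroup.mk kg)).toMonoidHom := by
    have h1 : pslImage (RingHom.id F) ≤ pslImage L.subtype :=
      pslImage_mono _ _ fun a => ⟨⟨a, hall a⟩, rfl⟩
    rcases hL with hL | ⟨-, hL⟩
    · exact h1.trans ((pslImage_le _).trans hL.ge)
    · exact h1.trans hL.ge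
  let S : Matrix.SpecialLinearGroup (Fin 2) F :=
    ⟨kM * (upperT x : Matrix (Fin 2) (Fin 2) F) * kI, by
      rw [Matrix.det_mul, Matrix.det_mul, mul_comm kM.det, mul_assoc, ← Matrix.det_mul, hki,
        Matrix.det_one, mul_one]
      simp [upperT, GeneralLinearGroup.mkOfDetNeZero]⟩
  obtain ⟨t, ⟨g, hg, rfl⟩, ht⟩ := hsub ⟨S, rfl⟩
  have hS : SpecialLinearGroup.toPGL S = ProjGenLinGroup.mk (kg * upperT x * kg⁻¹) :=
    congrArg ProjGenLinGroup.mk (Units.ext rfl)
  rw [MulEquiv.coe_toMonoidHom, MulAut.conj_apply, MonoidHom.comp_apply, hS, pglMap_mk,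
    show GeneralLinearGroup.map (RingHom.id F) (kg * upperT x * kg⁻¹) = kg * upperT x * kg⁻¹ from
      Units.ext (Matrix.ext fun i j => by simp [GeneralLinearGroup.map_apply]),
    map_mul, map_mul, map_inv, mul_left_inj, mul_right_inj, eq_comm, ProjGenLinGroup.mk_eq_mk_iff] at ht
  obtain ⟨lam, hlam⟩ := ht
  refine ⟨g, hg, lam, lam.ne_zero, ?_⟩
  rw [← hlam]
  ext i j
  fin_cases i <;> fin_cases j <;>
    simp [upperT, GeneralLinearGroup.mkOfDetNeZero, Matrix.mul_apply, Fin.sum_univ_two, mul_comm]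

end CfsgLib.SUThree90
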