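import Mathlib
import Cfsg.Agent.Subfield54.SUMain
import Cfsg.Agent.SUThree90.Generate
import Cfsg.Agent.SUThree90.SubfieldPlane

/-!
Rational frames in dimension three and the centre step for subfield subgroups of odd prime index.
-/

set_option autoImplicit false

namespace CfsgLib.SUThree90

open Matrix CfsgLib.TransvGL CfsgLib.UnitCentres CfsgLib.Dickson CfsgLib.Subfield54 CfsgLib.Subfield54.SU

variable {F : Type*} [Field F] [Fintype F] {F₀ : Subfield F} {σ : F ≃+* F}
variable {ι : Type} [Fintype ι] [DecidableEq ι] {f : (ι → F) → (ι → F) → F}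
variable {M : Subgroup (GL ι F)} {δ : F} (D : RatData σ f F₀ M δ)

include D in
/-- A rational hyperbolic pair and a rational anisotropic vector orthogonal to it. -/
theorem exists_frame (h3 : Fintype.card ι = 3) {a : ι → F} (ha : Rat F₀ a) (ha0 : a ≠ 0) (haa : f a a = 0) :
    ∃ e u : ι → F, Rat F₀ e ∧ Rat F₀ u ∧ f e e = 0 ∧ f a e = 1 ∧ f u a = 0 ∧ f u e = 0 ∧ f u u ≠ 0 := by
  have hf := D.herm
  obtain ⟨y₁, hy₁, hy₁a⟩ := exists_rat_pair_ne D ha0
  obtain ⟨y, hy, hya⟩ : ∃ y, Rat F₀ y ∧ f y a = 1 :=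
    ⟨(f y₁ a)⁻¹ • y₁, hy₁.smul (F₀.inv_mem (D.rat _ _ hy₁ ha)), by rw [hf.smul_left, inv_mul_cancel₀ hy₁a]⟩
  obtain ⟨t₀, ht₀, hee⟩ := exists_shift D ha haa hy hya
  obtain ⟨e, he⟩ : ∃ e, e = y + t₀ • a := ⟨_, rfl⟩
  rw [← he] at hee
  have her : Rat F₀ e := he ▸ hy.add (ha.smul ht₀)
  have hea : f e a = 1 := by rw [he, hf.add_left, hf.smul_left, haa, hya, mul_zero, add_zero]
  have hae : f a e = 1 := by rw [hf.herm, hea, map_one]
  obtain ⟨u, hu, hu0, hk⟩ := exists_rat_kernel (F₀ := F₀) (by omega : 2 < Fintype.card ι)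
    ![upair hf a, upair hf e] (by simp [Fin.forall_fin_two, ratD_upair D, ha, her])
  have hua : f u a = 0 := hk 0
  have hue : f u e = 0 := hk 1
  refine ⟨e, u, her, hu, hee, hae, hua, hue, fun huu => ?_⟩
  have hli : LinearIndependent F ![a, e, u] := by
    rw [Fintype.linearIndependent_iff]
    intro g hg
    simp only [Fin.sum_univ_three, Matrix.cons_val_zero, Matrix.cons_val_one, Matrix.head_cons,
      Matrix.cons_val_two, Matrix.tail_cons] at hg
    have p : ∀ w, g 0 * f a w + g 1 * f e w + g 2 * f u w = 0 := fun w => by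
      rw [← hf.smul_left, ← hf.smul_left, ← hf.smul_left, ← hf.add_left, ← hf.add_left, hg, zero_left hf]
    have h0 := p e
    rw [hae, hee, hue] at h0
    have h1 := p a
    rw [haa, hea, hua] at h1
    have g0 : g 0 = 0 := by linear_combination h0
    have g1 : g 1 = 0 := by linear_combination h1
    rw [g0, g1, zero_smul, zero_smul, zero_add, zero_add] at hg
    intro i
    fin_cases i
    · exact g0
    · exact g1
    · exact (smul_eq_zero.1 hg).resolve_right hu0
  have htop := hli.span_eq_top_of_card_eq_finrank (by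
    rw [Module.finrank_fintype_fun_eq_card, h3, Fintype.card_fin])
  refine hu0 (pair_inj hf fun x => ?_)
  obtain ⟨c, hc⟩ := (Submodule.mem_span_range_iff_exists_fun F).1 (htop ▸ Submodule.mem_top (x := x))
  rw [← hc, Fin.sum_univ_three, zero_right hf]
  simp [hf.add_left, hf.smul_left, huu, orth_comm hf hua, orth_comm hf hue]

include D in
/-- Isotropic vectors orthogonal to an isotropic vector are multiples of it. -/
theorem mem_line_of_orth (h3 : Fintype.card ι = 3) {a z : ι → F} (ha : Rat F₀ a) (ha0 : a ≠ 0)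
    (haa : f a a = 0) (hzz : f z z = 0) (haz : f a z = 0) : ∃ t : F, z = t • a := by
  have hf := D.herm
  obtain ⟨e, u, -, -, hee, hae, hua, hue, huu⟩ := exists_frame D h3 ha ha0 haa
  obtain ⟨α, β, γ, rfl⟩ := exists_coord hf h3 haa hee hae hua hue huu z
  have hau := orth_comm hf hua
  have heu := orth_comm hf hue
  simp [add_right hf, smul_right hf, haa, hae, hau] at haz
  subst haz
  simp [hf.add_left, add_right hf, hf.smul_left, smul_right hf, haa, hau, hua] at hzz
  rcases hzz with h | h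
  · exact ⟨α, by simp [h]⟩
  · exact absurd h huu

include D in
theorem exists_iso_moved_three (hn : Fintype.card ι = 3) {g : GL ι F}
    (hgH : g ∉ Cfsg.Geo.subfieldSubgroup F₀ 1) :
    ∃ v, Rat F₀ v ∧ f v v = 0 ∧ ¬ RatLine F₀ ((g : Matrix ι ι F) *ᵥ v) := by
  have hf := D.herm
  by_contra hno
  push Not at hno
  apply hgH
  obtain ⟨e, he, he0, hee, -⟩ := exists_iso_rat D (k := 0) (by omega) ![] (fun a => a.elim0)
  obtain ⟨s, e', he', hge⟩ := hno e he hee
  have hinj : ∀ v, (g : Matrix ι ι F) *ᵥ v = 0 → v = 0 := fun v h => by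
    rw [← inv_mulVec_mulVec g v, h, mulVec_zero]
  have hs0 : s ≠ 0 := fun h => he0 (hinj e (by rw [hge, h, zero_smul]))
  have he'0 : e' ≠ 0 := fun h => he0 (hinj e (by rw [hge, h, smul_zero]))
  set T : (ι → F) → Prop := fun x => ∃ w, Rat F₀ w ∧ (g : Matrix ι ι F) *ᵥ x = s • w with hT
  have hTadd : ∀ x y, T x → T y → T (x + y) := by
    rintro x y ⟨w, hw, hwe⟩ ⟨w', hw', hwe'⟩
    exact ⟨w + w', hw.add hw', by rw [mulVec_add, hwe, hwe', smul_add]⟩
  have hTsmul : ∀ c ∈ F₀, ∀ x, T x → T (c • x) := by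
    rintro c hc x ⟨w, hw, hwe⟩
    exact ⟨c • w, hw.smul hc, by rw [mulVec_smul, hwe, smul_comm]⟩
  have hTiso : ∀ y, Rat F₀ y → f y y = 0 → f y e ≠ 0 → T y := by
    intro y hy hyy hye
    obtain ⟨sy, y', hy', hgy⟩ := hno y hy hyy
    set c := δ / f y e with hc
    have hcF : c ∈ F₀ := F₀.div_mem D.delta_mem (D.rat _ _ hy he)
    have hc0 : c ≠ 0 := div_ne_zero D.delta_ne hye
    have hz : f (e + c • y) (e + c • y) = 0 := by
      rw [norm_add_smul hf, hee, hyy, hf.herm e y, ← map_mul, hc, div_mul_cancel₀ _ hye]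
      linear_combination D.delta_tr
    obtain ⟨t, z', hz', hgz⟩ := hno (e + c • y) (he.add (hy.smul hcF)) hz
    rw [mulVec_add, mulVec_smul, hge, hgy, smul_smul] at hgz
    have hli : ∀ k : F, y' ≠ k • e' := fun k hk => hye (by
      have : y = (sy * k / s) • e := by
        rw [← inv_mulVec_mulVec g y, ← inv_mulVec_mulVec g e, hgy, hge, hk, mulVec_smul, mulVec_smul,
          mulVec_smul, smul_smul, smul_smul]
        congr 1; field_simp
      rw [this, hf.smul_left, hee, mul_zero])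
    obtain ⟨φ, hφ, hφe, hφy⟩ : ∃ φ, RatD F₀ φ ∧ φ e' = 0 ∧ φ y' ≠ 0 := by
      by_contra h
      push Not at h
      obtain ⟨k, hk⟩ := mem_line_of_forall he' he'0 h
      exact hli k hk
    obtain ⟨ψ, hψ, hψy, hψe⟩ : ∃ ψ, RatD F₀ ψ ∧ ψ y' = 0 ∧ ψ e' ≠ 0 := by
      by_contra h
      push Not at h
      have hy'0 : y' ≠ 0 := fun h0 => hli 0 (by rw [h0, zero_smul])
      obtain ⟨k, hk⟩ := mem_line_of_forall hy' hy'0 h
      have hk0 : k ≠ 0 := fun h0 => he'0 (by rw [hk, h0, zero_smul])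
      exact hli k⁻¹ (by rw [hk, inv_smul_smul₀ hk0])
    have h1 := congrArg φ hgz
    have h2 := congrArg ψ hgz
    simp only [map_add, map_smul, smul_eq_mul, hφe, hψy, mul_zero, zero_add, add_zero] at h1 h2
    have hψz : ψ z' ≠ 0 := fun h => by
      rw [h, mul_zero, mul_eq_zero] at h2
      exact h2.elim hs0 hψe
    have hratio : sy = s * (ψ e' * φ z' / (c * φ y' * ψ z')) := by
      field_simp
      linear_combination ψ z' * h1 - φ z' * h2
    refine ⟨(ψ e' * φ z' / (c * φ y' * ψ z')) • y', hy'.smul ?_, by rw [hgy, smul_smul, ← hratio]⟩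
    exact F₀.div_mem (F₀.mul_mem (hψ.apply_mem he') (hφ.apply_mem hz'))
      (F₀.mul_mem (F₀.mul_mem hcF (hφ.apply_mem hy')) (hψ.apply_mem hz'))
  have hTe : T e := ⟨e', he', hge⟩
  have hne : ∀ x, Rat F₀ x → f x e ≠ 0 → T x := by
    intro x hx hxe
    have hcF := D.rat _ _ hx he
    have hx1 : f ((f x e)⁻¹ • x) e = 1 := by rw [hf.smul_left, inv_mul_cancel₀ hxe]
    obtain ⟨t, ht, hti⟩ := exists_shift D he hee (hx.smul (F₀.inv_mem hcF)) hx1
    set c := f x e
    have e1 : x = c • ((c⁻¹ • x + t • e) + (-t) • e) := by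
      rw [add_assoc, ← add_smul, add_neg_cancel, zero_smul, add_zero, smul_smul, mul_inv_cancel₀ hxe, one_smul]
    rw [e1]
    refine hTsmul c hcF _ (hTadd _ _ (hTiso _ ((hx.smul (F₀.inv_mem hcF)).add (he.smul ht)) hti ?_)
      (hTsmul _ (F₀.neg_mem ht) _ hTe))
    rw [hf.add_left, hx1, hf.smul_left, hee, mul_zero, add_zero]; exact one_ne_zero
  obtain ⟨x₁, hx₁, hx₁e⟩ := exists_rat_pair_ne D he0
  refine mem_subfield_of_ratLine fun x hx => ?_
  obtain ⟨w, hw, hwe⟩ : T x := by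
    by_cases hxe : f x e = 0
    · have h1 := hne (x + x₁) (hx.add hx₁) (by rw [hf.add_left, hxe, zero_add]; exact hx₁e)
      have h2 := hne (-x₁) (fun i => F₀.neg_mem (hx₁ i)) (by rw [neg_left hf]; exact neg_ne_zero.2 hx₁e)
      simpa using hTadd _ _ h1 h2
    · exact hne x hx hxe
  exact ⟨s, w, hw, hwe⟩

include D in
/-- Some rational isotropic vector has an irrational normalised coefficient. -/
theorem exists_irrational_coeff {r : ℕ} (hr : r.Prime) (hcard : Fintype.card F = Nat.card F₀ ^ r) (hr3 : 3 ≤ r)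
    (h3 : Fintype.card ι = 3) {b₀ : ι → F} {c₀ : F} (hc0 : c₀ ≠ 0) (hbb₀ : f b₀ b₀ = 0) (hbL : ¬ RatLine F₀ b₀) :
    ∃ a, Rat F₀ a ∧ a ≠ 0 ∧ f a a = 0 ∧ c₀ * (f a b₀ * σ (f a b₀)) ∉ F₀ := by
  have hf := D.herm
  by_contra hno
  push Not at hno
  have hN : ∀ a, Rat F₀ a → f a a = 0 → c₀ * (f a b₀ * σ (f a b₀)) ∈ F₀ := fun a ha haa => by
    by_cases ha0 : a = 0
    · simp [ha0, zero_left hf, F₀.zero_mem]
    · exact hno a ha ha0 haa
  obtain ⟨e, he, he0, hee, -⟩ := exists_iso_rat D (k := 0) (by omega) ![] (fun a => a.elim0)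
  obtain ⟨f', u, hf'r, hu, hff, hef, hue, huf, huu⟩ := exists_frame D h3 he he0 hee
  obtain ⟨pe, hpe⟩ : ∃ p, p = f e b₀ := ⟨_, rfl⟩
  have hpe0 : pe ≠ 0 := fun h => hbL (by
    obtain ⟨t, ht⟩ := mem_line_of_orth D h3 he he0 hee hbb₀ (hpe ▸ h)
    exact ⟨t, e, he, ht⟩)
  have hσpe0 : σ pe ≠ 0 := (map_ne_zero σ).2 hpe0
  obtain ⟨b, hb⟩ : ∃ b, b = (σ pe)⁻¹ • b₀ := ⟨_, rfl⟩
  have hfb : ∀ x, f x b = f x b₀ / pe := fun x => by
    rw [hb, smul_right hf, map_inv₀, hf.involutive, inv_mul_eq_div]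
  have hNb : ∀ a, Rat F₀ a → f a a = 0 → f a b * σ (f a b) ∈ F₀ := fun a ha haa => by
    have h := F₀.div_mem (hN a ha haa) (hN e he hee)
    convert h using 1
    rw [hfb, map_div₀, ← hpe]
    field_simp
  have heb : f e b = 1 := by rw [hfb, ← hpe, div_self hpe0]
  have hbb : f b b = 0 := by rw [hb, hf.smul_left, smul_right hf, hbb₀, mul_zero, mul_zero]
  set ν := f u u with hν
  set P := f f' b with hP
  set Q := f u b with hQ
  have hfe : f f' e = 1 := by rw [hf.herm, hef, map_one]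
  have heu := orth_comm hf hue
  have hfu := orth_comm hf huf
  have hνF : ν ∈ F₀ := D.rat _ _ hu hu
  have hνσ : σ ν = ν := norm_fixed hf u
  have hval : ∀ x y, x ∈ F₀ → y ∈ F₀ → y + σ y + x * σ x * ν = 0 →
      (P + x * Q + y) * σ (P + x * Q + y) ∈ F₀ := by
    intro x y hx hy hxy
    have h := hNb (f' + x • u + y • e) ((hf'r.add (hu.smul hx)).add (he.smul hy)) (by
      simp [hf.add_left, add_right hf, hf.smul_left, smul_right hf, hee, hff, hef, hfe, hue, heu, huf, hfu, ← hν]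
      linear_combination hxy)
    simpa [hf.add_left, hf.smul_left, heb, ← hP, ← hQ] using h
  have hσδ : σ δ = -δ := by linear_combination D.delta_tr
  have hdiff : ∀ x, x ∈ F₀ → (P + x * Q) - σ (P + x * Q) ∈ F₀ := by
    intro x hx
    obtain ⟨y, hy, hyt⟩ := exists_trace_rat D (F₀.neg_mem (F₀.mul_mem (F₀.mul_mem hx (D.conj_mem _ hx)) hνF))
      (by rw [map_neg, map_mul, map_mul, hf.involutive, hνσ]; ring)
    have h1 := hval x y hx hy (by linear_combination hyt)
    have h2 := hval x (y + δ) hx (F₀.add_mem hy D.delta_mem) (by rw [map_add]; linear_combination hyt + D.delta_tr)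
    have hq : ((P + x * Q + (y + δ)) * σ (P + x * Q + (y + δ)) - (P + x * Q + y) * σ (P + x * Q + y)
        + δ * y - δ * σ y + δ * δ) / δ ∈ F₀ :=
      F₀.div_mem (F₀.add_mem (F₀.sub_mem (F₀.add_mem (F₀.sub_mem h2 h1) (F₀.mul_mem D.delta_mem hy))
        (F₀.mul_mem D.delta_mem (D.conj_mem _ hy))) (F₀.mul_mem D.delta_mem D.delta_mem)) D.delta_mem
    convert F₀.neg_mem hq using 1
    simp only [map_add, hσδ]
    field_simp [D.delta_ne]
    ring
  have hP1 : P - σ P ∈ F₀ := by simpa using hdiff 0 F₀.zero_mem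
  obtain ⟨z, hz, hzne⟩ := D.conj_ne
  have hQ1 : Q - σ Q ∈ F₀ := by
    have h := F₀.sub_mem (hdiff 1 F₀.one_mem) hP1
    convert h using 1
    simp; ring
  have hQF : Q ∈ F₀ := by
    have h := F₀.sub_mem (F₀.sub_mem (hdiff z hz) hP1) (F₀.mul_mem (D.conj_mem _ hz) hQ1)
    have h' := F₀.div_mem h (F₀.sub_mem hz (D.conj_mem _ hz))
    convert h' using 1
    rw [eq_div_iff (sub_ne_zero.2 (Ne.symm hzne)), map_add, map_mul]
    ring
  obtain ⟨α, β, γ, hbc⟩ := exists_coord hf h3 hee hff hef hue huf huu b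
  have hβ : β = 1 := by
    have h := congrArg σ heb
    rw [← hf.herm, map_one, hbc] at h
    simpa [hf.add_left, hf.smul_left, hee, hfe, hue] using h
  subst hβ
  have hPα : P = σ α := by
    rw [hP, hbc]; simp [add_right hf, smul_right hf, hfe, hff, hfu]
  have hQγ : Q = σ γ * ν := by
    rw [hQ, hbc]; simp [add_right hf, smul_right hf, hue, huf, ← hν]
  have hγ : γ ∈ F₀ := by
    have h := D.conj_mem _ (F₀.div_mem hQF hνF)
    rwa [hQγ, mul_div_cancel_right₀ _ huu, hf.involutive] at h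
  have hsum : P + σ P + γ * σ γ * ν = 0 := by
    have h := hbb
    rw [hbc] at h
    simp [hf.add_left, add_right hf, hf.smul_left, smul_right hf, hee, hff, hef, hfe, hue, heu, huf, hfu, ← hν] at h
    rw [hPα, hf.involutive]
    linear_combination h
  obtain ⟨P₀, hP₀, hP₀t⟩ := exists_trace_rat D
    (F₀.neg_mem (F₀.mul_mem (F₀.mul_mem hγ (D.conj_mem _ hγ)) hνF))
    (by rw [map_neg, map_mul, map_mul, hf.involutive, hνσ]; ring)
  obtain ⟨ε, hε⟩ : ∃ ε, ε = P - P₀ := ⟨_, rfl⟩
  have hεt : σ ε = -ε := by rw [hε, map_sub]; linear_combination hsum - hP₀t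
  have hεF : ε ∈ F₀ := by
    by_contra hne
    have hPP : P * σ P ∈ F₀ := by
      simpa using hval 0 0 F₀.zero_mem F₀.zero_mem (by simp)
    refine Sp.not_quadratic hr hcard hr3 hne (u := P₀ * σ P₀ - P * σ P) (v := σ P₀ - P₀)
      (F₀.sub_mem (F₀.mul_mem hP₀ (D.conj_mem _ hP₀)) hPP) (F₀.sub_mem (D.conj_mem _ hP₀) hP₀) ?_
    have hσP : σ P = σ P₀ - ε := by rw [show P = P₀ + ε by rw [hε]; ring, map_add, hεt]; ring
    rw [hσP, show P = P₀ + ε by rw [hε]; ring]
    ring
  have hαF : α ∈ F₀ := by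
    have h := D.conj_mem _ (F₀.add_mem hP₀ hεF)
    rwa [hε, add_sub_cancel, hPα, hf.involutive] at h
  refine hbL ⟨σ pe, b, ?_, by rw [hb, smul_smul, mul_inv_cancel₀ hσpe0, one_smul]⟩
  rw [hbc]
  exact ((he.smul hαF).add (hf'r.smul F₀.one_mem)).add (hu.smul hγ)

include D in
/-- With at least three fixed rational scalars some rational isotropic vector is a centre. -/
theorem exists_centre_rat {r : ℕ} (hr : r.Prime) (hro : Odd r) (hcard : Fintype.card F = Nat.card F₀ ^ r)
    (hcardE : Nat.card (fixF σ) = Nat.card (F₀.comap (fixF σ).subtype) ^ r)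
    (hE3 : 3 ≤ Nat.card (F₀.comap (fixF σ).subtype))
    (h3 : Fintype.card ι = 3) {b₀ : ι → F} {c₀ : F} (hc0 : c₀ ≠ 0) (hct : c₀ + σ c₀ = 0)
    (hbM : TMem f M b₀ c₀) (hbL : ¬ RatLine F₀ b₀) :
    ∃ a, Rat F₀ a ∧ a ≠ 0 ∧ Centre D.herm M a := by
  classical
  have hr3 : 3 ≤ r := by
    rcases hro with ⟨k, hk⟩
    have := hr.two_le
    omega
  have hf := D.herm
  obtain ⟨a, ha, ha0, haa, hirr⟩ := exists_irrational_coeff D hr hcard hr3 h3 hc0 hbM.1 hbL
  refine ⟨a, ha, ha0, ?_⟩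
  haveI := Fintype.ofFinite (fixF σ)
  rw [Nat.card_eq_fintype_card (α := fixF σ)] at hcardE
  have hσδ : σ δ = -δ := by linear_combination D.delta_tr
  have hσc : σ c₀ = -c₀ := by linear_combination hct
  have hδ0 := D.delta_ne
  set p := f a b₀ with hp
  have hp0 : p ≠ 0 := fun h => hirr (by simp [h, F₀.zero_mem])
  have hσp : σ p ≠ 0 := (map_ne_zero σ).2 hp0
  obtain ⟨b, hb⟩ : ∃ b, b = (δ * σ p)⁻¹ • b₀ := ⟨_, rfl⟩
  have hab : f a b = -δ⁻¹ := by
    rw [hb, smul_right hf, ← hp, map_inv₀, map_mul, hf.involutive, hσδ]; field_simp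
  have hba : f b a = δ⁻¹ := by rw [hf.herm, hab, map_neg, map_inv₀, hσδ]; field_simp
  have hbb : f b b = 0 := by rw [hb, hf.smul_left, smul_right hf, hbM.1, mul_zero, mul_zero]
  have hab0 : f a b ≠ 0 := by rw [hab]; exact neg_ne_zero.2 (inv_ne_zero hδ0)
  have hba0 : f b a ≠ 0 := by rw [hba]; exact inv_ne_zero hδ0
  let Kset : Set (GL (Fin 2) (fixF σ)) := {k | ∃ g ∈ M,
    (g : Matrix ι ι F) *ᵥ a = (k 0 0 : F) • a + (k 1 0 : F) • b ∧
    (g : Matrix ι ι F) *ᵥ b = (k 0 1 : F) • a + (k 1 1 : F) • b ∧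
    ∀ z, f z a = 0 → f z b = 0 → (g : Matrix ι ι F) *ᵥ z = z}
  have hone : (1 : GL (Fin 2) (fixF σ)) ∈ Kset :=
    ⟨1, M.one_mem, by simp, by simp, fun z _ _ => by simp⟩
  have hmul : ∀ {k k'}, k ∈ Kset → k' ∈ Kset → k * k' ∈ Kset := by
    rintro k k' ⟨g, hg, ga, gb, gz⟩ ⟨g', hg', ga', gb', gz'⟩
    refine ⟨g * g', M.mul_mem hg hg', ?_, ?_,
      fun z h1 h2 => by rw [Units.val_mul, ← mulVec_mulVec, gz' z h1 h2, gz z h1 h2]⟩
    · rw [Units.val_mul, ← mulVec_mulVec, ga', mulVec_add, mulVec_smul, mulVec_smul, ga, gb]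
      simp only [Units.val_mul, Matrix.mul_apply, Fin.sum_univ_two]
      push_cast
      module
    · rw [Units.val_mul, ← mulVec_mulVec, gb', mulVec_add, mulVec_smul, mulVec_smul, ga, gb]
      simp only [Units.val_mul, Matrix.mul_apply, Fin.sum_univ_two]
      push_cast
      module
  let K : Subgroup (GL (Fin 2) (fixF σ)) :=
    { carrier := Kset
      one_mem' := hone
      mul_mem' := hmul
      inv_mem' := fun {k} hk => by
        have hpow : ∀ m : ℕ, k ^ m ∈ Kset := fun m => by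
          induction m with
          | zero => simpa using hone
          | succ m ih => rw [pow_succ]; exact hmul ih hk
        have : k⁻¹ = k ^ (orderOf k - 1) := by
          refine inv_eq_of_mul_eq_one_right ?_
          rw [← pow_succ', Nat.sub_add_cancel (orderOf_pos k), pow_orderOf_eq_one]
        rw [this]; exact hpow _ }
  have hU : ∀ x ∈ F₀.comap (fixF σ).subtype, upperT x ∈ K := by
    intro x hx
    have hσx : σ (x : F) = x := x.2
    obtain ⟨-, g, hg, hgx⟩ := tmem_rat D ha haa (F₀.mul_mem hx D.delta_mem)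
      (c := (x : F) * δ) (by rw [map_mul, hσx, hσδ]; ring)
    refine ⟨g, hg, ?_, ?_, fun z h _ => by rw [hgx, h]; simp⟩
    · rw [hgx, haa]; simp [upperT, GeneralLinearGroup.mkOfDetNeZero]
    · rw [hgx, hba, mul_assoc, mul_inv_cancel₀ hδ0, mul_one]
      simp [upperT, GeneralLinearGroup.mkOfDetNeZero, add_comm]
  obtain ⟨w, hw⟩ : ∃ w, w = -(c₀ * (δ * σ p) * σ (δ * σ p)) / δ := ⟨_, rfl⟩
  have hwfix : σ w = w := by
    simp only [hw, map_div₀, map_neg, map_mul, hf.involutive, hσc, hσδ]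
    field_simp
  have hwirr : (⟨w, hwfix⟩ : fixF σ) ∉ F₀.comap (fixF σ).subtype := by
    intro h
    apply hirr
    have h' : w / δ ∈ F₀ := F₀.div_mem h D.delta_mem
    convert h' using 1
    simp only [hw, map_mul, hf.involutive, hσδ]
    field_simp
  let g₀ : GL (Fin 2) (fixF σ) :=
    GeneralLinearGroup.mkOfDetNeZero !![1, 0; (⟨w, hwfix⟩ : fixF σ), 1] (by simp [det_fin_two])
  have hg₀ : g₀ ∈ K := by
    obtain ⟨-, g, hg, hgx⟩ := hbM
    have hbx : ∀ x, (g : Matrix ι ι F) *ᵥ x = x + (c₀ * (δ * σ p) * σ (δ * σ p) * f x b) • b := fun x => by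
      rw [hgx, hb, smul_right hf, smul_smul]
      congr 2
      simp only [map_mul, map_inv₀, hf.involutive, hσδ]
      field_simp
    refine ⟨g, hg, ?_, ?_, fun z _ h => by rw [hbx, h]; simp⟩
    · rw [hbx, hab]
      simp [g₀, GeneralLinearGroup.mkOfDetNeZero, hw, neg_div, div_eq_mul_inv]
    · rw [hbx, hbb]; simp [g₀, GeneralLinearGroup.mkOfDetNeZero]
  have hplane := exists_smul_upperT_lower hr hro hcardE hE3 K hU hwirr hg₀ rfl
  refine TMem.centre haa fun c hc => ?_
  have hcfix : σ (c / δ) = c / δ := by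
    rw [map_div₀, hσδ, show σ c = -c by linear_combination hc, neg_div_neg_eq]
  obtain ⟨X, hX⟩ : ∃ X : fixF σ, X = ⟨c / δ, hcfix⟩ := ⟨_, rfl⟩
  obtain ⟨k, ⟨g, hg, ga, gb, gz⟩, s, -, hk⟩ := hplane (if (2 : fixF σ) = 0 then X else X / 2)
  rw [hk] at ga gb
  simp only [Matrix.cons_val', Matrix.cons_val_zero, Matrix.cons_val_one, Matrix.of_apply,
    Matrix.empty_val', Matrix.cons_val_fin_one, ZeroMemClass.coe_zero, zero_smul, add_zero,
    Subfield.coe_mul] at ga gb
  generalize hX' : (if (2 : fixF σ) = 0 then X else X / 2) = X' at gb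
  have hs2 : (s : F) * s = 1 := by
    have := D.iso g hg a b
    rw [ga, gb] at this
    simp [add_right hf, hf.smul_left, smul_right hf, haa, show σ (s : F) = s from s.2] at this
    refine mul_right_cancel₀ hab0 ?_
    linear_combination this
  -- a product of elements of the plane that acts as the wanted transvection
  obtain ⟨h, hh, hha, hhb, hhz⟩ : ∃ h ∈ M, (h : Matrix ι ι F) *ᵥ a = a ∧
      (h : Matrix ι ι F) *ᵥ b = b + (c / δ) • a ∧
      ∀ z, f z a = 0 → f z b = 0 → (h : Matrix ι ι F) *ᵥ z = z := by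
    by_cases h2 : (2 : fixF σ) = 0
    · rw [← hX', if_pos h2, hX] at gb
      have h2F : (2 : F) = 0 :=
        (map_ofNat (fixF σ).subtype 2).symm.trans ((congrArg (fixF σ).subtype h2).trans (map_zero _))
      have hs1 : (s : F) = 1 := by
        have : ((s : F) - 1) ^ 2 = 0 := by linear_combination hs2 + (1 - (s : F)) * h2F
        exact sub_eq_zero.mp (pow_eq_zero_iff two_ne_zero |>.mp this)
      rw [hs1] at ga gb
      exact ⟨g, hg, by simpa using ga, by simpa [add_comm] using gb, gz⟩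
    · rw [← hX', if_neg h2] at gb
      have hx2 : ((X / 2 : fixF σ) : F) + ((X / 2 : fixF σ) : F) = c / δ := by
        rw [← Subfield.coe_add, show X / 2 + X / 2 = X by field_simp; ring, hX]
      refine ⟨g * g, M.mul_mem hg hg, ?_, ?_,
        fun z h1 h2 => by rw [Units.val_mul, ← mulVec_mulVec, gz z h1 h2, gz z h1 h2]⟩
      · rw [Units.val_mul, ← mulVec_mulVec, ga, mulVec_smul, ga, smul_smul, hs2, one_smul]
      · rw [Units.val_mul, ← mulVec_mulVec, gb, mulVec_add, mulVec_smul, mulVec_smul, ga, gb]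
        linear_combination (norm := module) hs2 • ((((X / 2 : fixF σ) : F) + ((X / 2 : fixF σ) : F)) • a + b) + hx2 • a
  refine ⟨haa, h, hh, fun z => ?_⟩
  have h0 := hhz (z - (f z b / f a b) • a - (f z a / f b a) • b)
    (by rw [sub_left hf, sub_left hf, hf.smul_left, hf.smul_left, haa, div_mul_cancel₀ _ hba0]; ring)
    (by rw [sub_left hf, sub_left hf, hf.smul_left, hf.smul_left, hbb, div_mul_cancel₀ _ hab0]; ring)
  rw [mulVec_sub, mulVec_sub, mulVec_smul, mulVec_smul, hha, hhb] at h0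
  linear_combination (norm := skip) h0
  rw [hba]
  match_scalars <;> field_simp <;> ring

include D in
/-- One rational centre gives all centres. -/
theorem centre_all (h3 : Fintype.card ι = 3) {a : ι → F} (ha : Rat F₀ a) (ha0 : a ≠ 0)
    (hac : Centre D.herm M a) : ∀ v, f v v = 0 → Centre D.herm M v := by
  have hf := D.herm
  obtain ⟨e, u, he, hu, hee, hae, hua, hue, huu⟩ := exists_frame D h3 ha ha0 hac.iso
  have hmove : ∀ w, Rat F₀ w → f w w = 0 → f a w = 1 → Centre hf M w := by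
    intro w hw hww haw
    obtain ⟨a', ha'⟩ : ∃ a', a' = δ • a := ⟨_, rfl⟩
    have ha'r : Rat F₀ a' := ha' ▸ ha.smul D.delta_mem
    have ha'w : f a' w = δ := by rw [ha', hf.smul_left, haw, mul_one]
    have ha'a' : f a' a' = 0 := by rw [ha', hf.smul_left, smul_right hf, hac.iso, mul_zero, mul_zero]
    have hwa' : f w a' = σ δ := by rw [hf.herm, ha'w]
    have hdiff : f (w - a') (w - a') = 0 := by
      rw [sub_left hf, sub_right hf, sub_right hf, hww, ha'a', hwa', ha'w]
      linear_combination -D.delta_tr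
    obtain ⟨-, g, hg, hgx⟩ := tmem_rat D (hw.sub ha'r) hdiff (F₀.inv_mem D.delta_mem)
      (by rw [map_inv₀, show σ δ = -δ by linear_combination D.delta_tr, inv_neg, add_neg_cancel])
    have hga : (g : Matrix ι ι F) *ᵥ a' = w := by
      rw [hgx, sub_right hf, ha'a', ha'w, sub_zero, inv_mul_cancel₀ D.delta_ne, one_smul, add_sub_cancel]
    rw [← hga, ha']
    exact (hac.smul _).image hg (D.iso _ hg)
  have hau := orth_comm hf hua
  have heu := orth_comm hf hue
  have hea : f e a = 1 := by rw [hf.herm, hae, map_one]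
  obtain ⟨t, ht, htt⟩ := exists_trace_rat D (F₀.neg_mem (D.rat _ _ hu hu))
    (by rw [map_neg, norm_fixed hf])
  obtain ⟨v, hv⟩ : ∃ v, v = t • a + e + u := ⟨_, rfl⟩
  have hvc : Centre hf M v := hmove v (hv ▸ ((ha.smul ht).add he).add hu) (by
      rw [hv]
      simp [hf.add_left, add_right hf, hf.smul_left, smul_right hf, hac.iso, hee, hae, hea, hua, hau, hue, heu]
      linear_combination htt) (by
      rw [hv]; simp [add_right hf, smul_right hf, hac.iso, hae, hau])
  refine centre_all_of_three hf h3 hac (hmove e he hee hae) (by rw [hae]; exact one_ne_zero) hvc ?_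
  intro hmem
  obtain ⟨x, y, hxy⟩ := Submodule.mem_span_pair.1 hmem
  have h := congrArg (fun w => f w u) hxy
  rw [hv] at h
  simp [hf.add_left, hf.smul_left, hau, heu] at h
  exact huu h.symm

end CfsgLib.SUThree90
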