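import Mathlib

/-!
The nine monomial matrices of the extraspecial group of order 27 in dimension three over a field of
characteristic two containing a cube root of unity, and the projections to their lines.
-/

set_option autoImplicit false

namespace CfsgLib.SUThree90

open Matrix
open scoped Fin.CommRing

variable {F : Type*} [Field F] {ω : F}

/-- Powers of `ω` indexed by residues modulo three. -/
def pw (ω : F) (n : Fin 3) : F := ω ^ (n : ℕ)

theorem omega_cube (hω : ω ^ 2 + ω + 1 = 0) : ω ^ 3 = 1 := by linear_combination (ω - 1) * hω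

theorem pw_add (hω : ω ^ 2 + ω + 1 = 0) (a b : Fin 3) : pw ω (a + b) = pw ω a * pw ω b := by
  have h := omega_cube hω
  fin_cases a <;> fin_cases b <;> simp [pw] <;> grind

theorem pw_zero : pw ω 0 = 1 := by simp [pw]

theorem pw_ne_zero (hω : ω ^ 2 + ω + 1 = 0) (a : Fin 3) : pw ω a ≠ 0 := by
  refine pow_ne_zero _ fun h => ?_
  rw [h] at hω
  simp at hω

theorem pw_sum [CharP F 2] (hω : ω ^ 2 + ω + 1 = 0) (n : Fin 3) :
    1 + pw ω n + pw ω (n + n) = if n = 0 then 1 else 0 := by
  have h2 : (2 : F) = 0 := CharTwo.two_eq_zero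
  fin_cases n <;> simp [pw] <;> grind

theorem pw_inj [CharP F 2] (hω : ω ^ 2 + ω + 1 = 0) {a b : Fin 3} (h : pw ω a = pw ω b) : a = b := by
  have h1 : ∀ n : Fin 3, pw ω n = 1 → n = 0 := by
    intro n hn
    by_contra h0
    have h3 := pw_sum hω n
    rw [pw_add hω, hn, if_neg h0] at h3
    have h2 : (2 : F) = 0 := CharTwo.two_eq_zero
    exact one_ne_zero (show (1 : F) = 0 by linear_combination h3 - h2)
  have := h1 (a - b) (mul_right_cancel₀ (pw_ne_zero hω b) (by rw [← pw_add hω, sub_add_cancel, h, one_mul]))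
  exact sub_eq_zero.mp this

/-- The monomial matrix with index `(i, j)`. -/
def mono (ω : F) (i j : Fin 3) : Matrix (Fin 3) (Fin 3) F :=
  Matrix.of fun r c => if r = c + i then pw ω (j * c) else 0

theorem mono_apply (i j r c : Fin 3) : mono ω i j r c = if r = c + i then pw ω (j * c) else 0 := rfl

theorem mono_zero : mono ω 0 0 = (1 : Matrix (Fin 3) (Fin 3) F) := by
  ext r c
  simp [mono_apply, Matrix.one_apply, pw_zero]

theorem mono_mul (hω : ω ^ 2 + ω + 1 = 0) (i j k l : Fin 3) :
    mono ω i j * mono ω k l = pw ω (j * k) • mono ω (i + k) (j + l) := by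
  ext r c
  rw [Matrix.mul_apply, Finset.sum_eq_single (c + k) (fun t _ ht => by simp [mono_apply, ht]) (by simp)]
  simp only [mono_apply, Matrix.smul_apply, smul_eq_mul, if_true, add_assoc, add_comm k i]
  split_ifs
  · rw [← pw_add hω, ← pw_add hω]
    congr 1
    ring
  · simp

theorem mono_comm_iff [CharP F 2] (hω : ω ^ 2 + ω + 1 = 0) {i j k l : Fin 3}
    (h : mono ω i j * mono ω k l = mono ω k l * mono ω i j) : j * k = l * i := by
  rw [mono_mul hω, mono_mul hω, add_comm k i, add_comm l j] at h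
  refine pw_inj hω ?_
  have := congrFun (congrFun h (i + k)) 0
  simpa [mono_apply, pw_zero] using this

/-- The Fourier matrix. -/
def four (ω : F) : Matrix (Fin 3) (Fin 3) F := Matrix.of fun r c => pw ω (r * c)

theorem four_mul_mono (hω : ω ^ 2 + ω + 1 = 0) (i j : Fin 3) :
    four ω * mono ω i j = pw ω (2 * i * j) • (mono ω (2 * j) i * four ω) := by
  ext r c
  rw [Matrix.mul_apply, Finset.sum_eq_single (c + i) (fun t _ ht => by simp [mono_apply, ht]) (by simp),
    Matrix.smul_apply, Matrix.mul_apply, Finset.sum_eq_single (r - 2 * j) (fun t _ ht => by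
      have : ¬ r = t + 2 * j := fun h => ht (eq_sub_of_add_eq h.symm)
      simp [mono_apply, this]) (by simp)]
  simp only [four, Matrix.of_apply, mono_apply, if_true, sub_add_cancel, smul_eq_mul, ← pw_add hω]
  congr 1
  revert r c i j
  decide

/-- The coefficient of `mono i j`. -/
def coef (ω : F) (u : Matrix (Fin 3) (Fin 3) F) (i j : Fin 3) : F :=
  u i 0 + pw ω (2 * j) * u (1 + i) 1 + pw ω j * u (2 + i) 2

theorem entry_eq_sum [CharP F 2] (hω : ω ^ 2 + ω + 1 = 0) (u : Matrix (Fin 3) (Fin 3) F) (i c : Fin 3) :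
    u (c + i) c = ∑ j : Fin 3, pw ω (j * c) * coef ω u i j := by
  have h := omega_cube hω
  have h2 : (2 : F) = 0 := CharTwo.two_eq_zero
  rw [Fin.sum_univ_three]
  fin_cases c <;> simp [coef, pw, Fin.val_add, Fin.val_mul] <;> grind

theorem eq_zero_of_coef [CharP F 2] (hω : ω ^ 2 + ω + 1 = 0) {u : Matrix (Fin 3) (Fin 3) F}
    (h : ∀ i j, coef ω u i j = 0) : u = 0 := by
  ext r c
  have e := entry_eq_sum hω u (r - c) c
  rw [add_sub_cancel] at e
  simp [e, h]

theorem eq_smul_of_coef [CharP F 2] (hω : ω ^ 2 + ω + 1 = 0) {u : Matrix (Fin 3) (Fin 3) F}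
    (h : ∀ i j, ¬ (i = 0 ∧ j = 0) → coef ω u i j = 0) : u = coef ω u 0 0 • (1 : Matrix (Fin 3) (Fin 3) F) := by
  ext r c
  have e := entry_eq_sum hω u (r - c) c
  rw [add_sub_cancel, Fin.sum_univ_three] at e
  by_cases hrc : r = c
  · subst hrc
    rw [sub_self, h 0 1 (by decide), h 0 2 (by decide)] at e
    simp [e, pw_zero]
  · have hne : r - c ≠ 0 := sub_ne_zero.mpr hrc
    rw [h _ _ (fun x => hne x.1), h _ _ (fun x => hne x.1), h _ _ (fun x => hne x.1)] at e
    simp [e, hrc]

/-- Conjugation by the cyclic monomial matrix. -/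
def cX (ω : F) (u : Matrix (Fin 3) (Fin 3) F) : Matrix (Fin 3) (Fin 3) F := mono ω 1 0 * u * mono ω 2 0

/-- Conjugation by the diagonal monomial matrix. -/
def cY (ω : F) (u : Matrix (Fin 3) (Fin 3) F) : Matrix (Fin 3) (Fin 3) F := mono ω 0 1 * u * mono ω 0 2

theorem cX_apply (u : Matrix (Fin 3) (Fin 3) F) (r c : Fin 3) : cX ω u r c = u (r + 2) (c + 2) := by
  simp only [cX, Matrix.mul_apply, mono_apply, zero_mul, pw_zero]
  rw [Finset.sum_eq_single (c + 2) (fun t _ ht => by simp [ht]) (by simp)]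
  rw [Finset.sum_eq_single (r + 2) (fun t _ ht => by
    have : ¬ r = t + 1 := fun h => ht (by rw [h, add_assoc]; exact (add_zero t).symm)
    simp [this]) (by simp)]
  have : r = r + 2 + 1 := by rw [add_assoc]; exact (add_zero r).symm
  simp [← this]

theorem cY_apply (hω : ω ^ 2 + ω + 1 = 0) (u : Matrix (Fin 3) (Fin 3) F) (r c : Fin 3) :
    cY ω u r c = pw ω (r + 2 * c) * u r c := by
  simp only [cY, Matrix.mul_apply, mono_apply, add_zero]
  rw [Finset.sum_eq_single c (fun t _ ht => by simp [ht]) (by simp),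
    Finset.sum_eq_single r (fun t _ ht => by simp [Ne.symm ht]) (by simp), pw_add hω]
  simp
  ring

/-- The projection to the diagonal of index `i`. -/
def projY (ω : F) (i : Fin 3) (u : Matrix (Fin 3) (Fin 3) F) : Matrix (Fin 3) (Fin 3) F :=
  u + pw ω (2 * i) • cY ω u + pw ω (i) • cY ω (cY ω u)

/-- The projection to the character of index `j`. -/
def projX (ω : F) (j : Fin 3) (u : Matrix (Fin 3) (Fin 3) F) : Matrix (Fin 3) (Fin 3) F :=
  u + pw ω j • cX ω u + pw ω (2 * j) • cX ω (cX ω u)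

theorem projY_apply [CharP F 2] (hω : ω ^ 2 + ω + 1 = 0) (i : Fin 3) (u : Matrix (Fin 3) (Fin 3) F)
    (r c : Fin 3) : projY ω i u r c = if r = c + i then u r c else 0 := by
  simp only [projY, Matrix.add_apply, Matrix.smul_apply, smul_eq_mul, cY_apply hω]
  have e2 : (2 * i + (r + 2 * c) = 0) = (r = c + i) := by revert i r c; decide
  have e : pw ω i * (pw ω (r + 2 * c) * pw ω (r + 2 * c)) = pw ω (2 * i + (r + 2 * c) + (2 * i + (r + 2 * c))) := by
    rw [← pw_add hω, ← pw_add hω]
    congr 1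
    revert i r c; decide
  have hs := pw_sum hω (2 * i + (r + 2 * c))
  rw [← e, pw_add hω, if_congr (iff_of_eq e2) rfl rfl] at hs
  split_ifs with h
  · rw [if_pos h] at hs
    linear_combination u r c * hs
  · rw [if_neg h] at hs
    linear_combination u r c * hs

theorem proj_eq [CharP F 2] (hω : ω ^ 2 + ω + 1 = 0) (i j : Fin 3) (u : Matrix (Fin 3) (Fin 3) F) :
    projX ω j (projY ω i u) = coef ω u i j • mono ω i j := by
  ext r c
  simp only [projX, Matrix.add_apply, Matrix.smul_apply, smul_eq_mul, cX_apply, projY_apply hω, mono_apply]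
  have e1 : (r + 2 = c + 2 + i) = (r = c + i) := by revert i r c; decide
  have e2 : (r + 2 + 2 = c + 2 + 2 + i) = (r = c + i) := by revert i r c; decide
  simp only [e1, e2]
  split_ifs with h
  swap
  · simp
  subst h
  obtain ⟨w, hw⟩ : ∃ w : Fin 3 → F, ∀ t, w t = u (t + i) t := ⟨_, fun t => rfl⟩
  have hc : coef ω u i j = w 0 + pw ω (2 * j) * w 1 + pw ω j * w 2 := by simp [coef, hw]
  rw [show c + i + 2 = c + 2 + i by abel, show c + 2 + i + 2 = c + 2 + 2 + i by abel, ← hw, ← hw, ← hw, hc]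
  have a1 : pw ω j * pw ω (2 * j) = 1 := by
    rw [← pw_add hω, show j + 2 * j = 0 by clear hc; revert j; decide, pw_zero]
  have a2 : pw ω (2 * j) * pw ω (2 * j) = pw ω j := by
    rw [← pw_add hω, show 2 * j + 2 * j = j by clear hc a1; revert j; decide]
  have a3 : pw ω j * pw ω j = pw ω (2 * j) := by rw [← pw_add hω, two_mul]
  fin_cases c
  · simp [pw_zero]
    ring
  · simp [show (1 : Fin 3) + 2 = 0 by decide]
    linear_combination -(w 1) * a1 - w 2 * a3
  · simp [show (2 : Fin 3) + 2 = 1 by decide, show j * 2 = 2 * j from mul_comm _ _]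
    linear_combination -(w 2) * a1 - w 1 * a2

/-- An eigen vector of both conjugations is monomial. -/
theorem monomial_of_eigen [CharP F 2] (hω : ω ^ 2 + ω + 1 = 0) {u : Matrix (Fin 3) (Fin 3) F} (hu : u ≠ 0)
    {s t : F} (hs : cX ω u = s • u) (ht : cY ω u = t • u) :
    ∃ (k : F) (i j : Fin 3), u = k • mono ω i j := by
  obtain ⟨i, j, hij⟩ : ∃ i j, coef ω u i j ≠ 0 := by
    by_contra h
    push Not at h
    exact hu (eq_zero_of_coef hω h)
  have hY : projY ω i u = (1 + pw ω (2 * i) * t + pw ω i * (t * t)) • u := by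
    have h2 : cY ω (t • u) = t • cY ω u := by simp [cY]
    rw [projY, ht, h2, ht]
    module
  have hX : ∀ k : F, projX ω j (k • u) = (k * (1 + pw ω j * s + pw ω (2 * j) * (s * s))) • u := by
    intro k
    have h2 : ∀ k : F, cX ω (k • u) = k • cX ω u := fun k => by simp [cX]
    rw [projX, h2, hs, smul_smul k s u, h2, hs, smul_smul]
    module
  have h := proj_eq hω i j u
  rw [hY, hX] at h
  obtain ⟨k, hk⟩ : ∃ k, k = (1 + pw ω (2 * i) * t + pw ω i * (t * t)) * (1 + pw ω j * s + pw ω (2 * j) * (s * s)) :=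
    ⟨_, rfl⟩
  rw [← hk] at h
  have hk0 : k ≠ 0 := fun h0 => by
    rw [h0, zero_smul] at h
    have := congrFun (congrFun h.symm (0 + i)) 0
    simp [mono_apply, pw_zero] at this
    exact hij this
  exact ⟨k⁻¹ * coef ω u i j, i, j, by rw [← smul_smul, ← h, inv_smul_smul₀ hk0]⟩

end CfsgLib.SUThree90
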